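import Mathlib

set_option autoImplicit false

namespace Cfsg.Agent.Lib.Helper35.Meta

open Finset

section NT

/-- geometric sum -/
theorem geom (r n : ℕ) (hr : 0 < r) : (r - 1) * ∑ i ∈ range n, r ^ i + 1 = r ^ n := by
  obtain ⟨r', rfl⟩ : ∃ r', r = r' + 1 := ⟨r - 1, by omega⟩
  simp only [Nat.add_sub_cancel]
  induction n with
  | zero => simp
  | succ n ih => rw [Finset.sum_range_succ, mul_add, add_right_comm, ih, pow_succ]; ring

/-- a translate of a unit progression avoiding all primes of `e` -/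
theorem exists_coprime_add_mul (A B e : ℕ) (hAB : Nat.Coprime A B) (he : 0 < e) :
    ∃ x, Nat.Coprime (A + B * x) e := by
  classical
  refine ⟨∏ p ∈ e.primeFactors.filter (fun p => ¬ p ∣ A), p, ?_⟩
  apply Nat.coprime_of_dvd
  intro p hp hp1 hp2
  by_cases hpA : p ∣ A
  · have h1 : p ∣ B * ∏ p ∈ e.primeFactors.filter (fun p => ¬ p ∣ A), p :=
      (Nat.dvd_add_right hpA).mp hp1
    have hpB : ¬ p ∣ B := by
      intro hpB
      have := Nat.dvd_gcd hpA hpB
      rw [hAB.gcd_eq_one] at this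
      exact hp.one_lt.ne' (Nat.dvd_one.mp this)
    have h2 : p ∣ ∏ p ∈ e.primeFactors.filter (fun p => ¬ p ∣ A), p :=
      (hp.dvd_mul.mp h1).resolve_left hpB
    obtain ⟨q, hq, hpq⟩ := (Prime.dvd_finsetProd_iff hp.prime _).mp h2
    rw [Finset.mem_filter, Nat.mem_primeFactors] at hq
    have : p = q := (Nat.prime_dvd_prime_iff_eq hp hq.1.1).mp hpq
    exact hq.2 (this ▸ hpA)
  · have hmem : p ∈ e.primeFactors.filter (fun p => ¬ p ∣ A) := by
      rw [Finset.mem_filter, Nat.mem_primeFactors]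
      exact ⟨⟨hp, hp2, he.ne'⟩, hpA⟩
    have h1 : p ∣ B * ∏ p ∈ e.primeFactors.filter (fun p => ¬ p ∣ A), p :=
      Dvd.dvd.mul_left (Finset.dvd_prod_of_mem _ hmem) B
    exact hpA ((Nat.dvd_add_left h1).mp hp1)

variable (m n r l : ℕ)

/-- `d = gcd(m, r - 1)` -/
def dd : ℕ := Nat.gcd m (r - 1)
/-- `N = 1 + r + ⋯ + r^(n-1)` -/
def NN : ℕ := ∑ i ∈ range n, r ^ i
/-- `g = gcd(m, N)` -/
def gg : ℕ := Nat.gcd m (NN n r)
/-- `h = d g / m` -/
def hh : ℕ := dd m r * gg m n r / m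
/-- `e = gcd(l, h)` -/
def ee : ℕ := Nat.gcd l (hh m n r)
/-- `t = m l / d` -/
def tt : ℕ := m * l / dd m r

theorem dd_dvd : dd m r ∣ m := Nat.gcd_dvd_left _ _
theorem dd_dvd' : dd m r ∣ r - 1 := Nat.gcd_dvd_right _ _
theorem gg_dvd : gg m n r ∣ m := Nat.gcd_dvd_left _ _
theorem gg_dvd' : gg m n r ∣ NN n r := Nat.gcd_dvd_right _ _

variable {m n r}

theorem dd_pos (hm : 0 < m) : 0 < dd m r := Nat.gcd_pos_of_pos_left _ hm
theorem gg_pos (hm : 0 < m) : 0 < gg m n r := Nat.gcd_pos_of_pos_left _ hm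

theorem dvd_pow_sub_one (hrn : r ^ n ≡ 1 [MOD m]) : m ∣ r ^ n - 1 := by
  rcases Nat.eq_zero_or_pos (r ^ n) with h | h
  · rw [h]; exact dvd_zero m
  · exact (Nat.modEq_iff_dvd' h).mp hrn.symm

theorem m_dvd (hr : 0 < r) (hrn : r ^ n ≡ 1 [MOD m]) : m ∣ dd m r * gg m n r := by
  unfold dd gg
  rw [Nat.dvd_gcd_mul_gcd_iff_dvd_mul]
  have h := dvd_pow_sub_one hrn
  have h2 := geom r n hr
  have h3 : r ^ n - 1 = (r - 1) * NN n r := by unfold NN; omega
  rw [h3] at h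
  exact h

theorem hh_mul (hr : 0 < r) (hrn : r ^ n ≡ 1 [MOD m]) : hh m n r * m = dd m r * gg m n r :=
  Nat.div_mul_cancel (m_dvd hr hrn)

theorem hh_pos (hm : 0 < m) (hr : 0 < r) (hrn : r ^ n ≡ 1 [MOD m]) : 0 < hh m n r := by
  have h := hh_mul hr hrn
  have h2 : 0 < dd m r * gg m n r := Nat.mul_pos (dd_pos hm) (gg_pos hm)
  rcases Nat.eq_zero_or_pos (hh m n r) with h0 | h0
  · rw [h0, zero_mul] at h; omega
  · exact h0

theorem md_hh (hm : 0 < m) (hr : 0 < r) (hrn : r ^ n ≡ 1 [MOD m]) :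
    m / dd m r * hh m n r = gg m n r := by
  have h := hh_mul hr hrn
  obtain ⟨q, hq⟩ := dd_dvd m r
  have hd := dd_pos (r := r) hm
  have h1 : m / dd m r = q := Nat.div_eq_of_eq_mul_right hd hq
  rw [h1]
  have h2 : dd m r * (q * hh m n r) = dd m r * gg m n r := by
    calc dd m r * (q * hh m n r) = (dd m r * q) * hh m n r := by ring
      _ = m * hh m n r := by rw [← hq]
      _ = dd m r * gg m n r := by rw [mul_comm, h]
  exact Nat.eq_of_mul_eq_mul_left hd h2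

theorem tt_eq : tt m r l = m / dd m r * l := Nat.mul_div_right_comm (dd_dvd m r) l

theorem hh_dvd_dd (hm : 0 < m) (hr : 0 < r) (hrn : r ^ n ≡ 1 [MOD m]) : hh m n r ∣ dd m r := by
  have h := hh_mul hr hrn
  obtain ⟨q, hq⟩ := gg_dvd m n r
  have hg := gg_pos (n := n) (r := r) hm
  refine ⟨q, ?_⟩
  have h2 : gg m n r * (hh m n r * q) = gg m n r * dd m r := by
    calc gg m n r * (hh m n r * q) = hh m n r * (gg m n r * q) := by ring
      _ = hh m n r * m := by rw [← hq]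
      _ = gg m n r * dd m r := by rw [h]; ring
  exact (Nat.eq_of_mul_eq_mul_left hg h2).symm

theorem ee_pos (hm : 0 < m) (hr : 0 < r) (hrn : r ^ n ≡ 1 [MOD m]) : 0 < ee m n r l :=
  Nat.gcd_pos_of_pos_right _ (hh_pos hm hr hrn)

theorem ee_dvd_l : ee m n r l ∣ l := Nat.gcd_dvd_left _ _
theorem ee_dvd_hh : ee m n r l ∣ hh m n r := Nat.gcd_dvd_right _ _

theorem ee_dvd_dd (hm : 0 < m) (hr : 0 < r) (hrn : r ^ n ≡ 1 [MOD m]) :
    ee m n r l ∣ dd m r := (ee_dvd_hh l).trans (hh_dvd_dd hm hr hrn)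

theorem me_dvd (hr : 0 < r) (hrn : r ^ n ≡ 1 [MOD m]) :
    m * ee m n r l ∣ dd m r * gg m n r := by
  rw [← hh_mul hr hrn, mul_comm]
  exact Nat.mul_dvd_mul_right (ee_dvd_hh l) m

/-- the multiplier `R` of the covering metacyclic group -/
theorem exists_R (hm : 0 < m) (hr : 0 < r) (hrn : r ^ n ≡ 1 [MOD m]) :
    ∃ R : ℕ, 0 < R ∧ R ≡ r [MOD m] ∧ R ^ n ≡ 1 [MOD m * ee m n r l] ∧ ee m n r l ∣ R - 1 ∧
      m * ee m n r l ∣ tt m r l * (R - 1) ∧ Nat.gcd (R - 1) (m * ee m n r l) ∣ m := by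
  have hd := dd_pos (r := r) hm
  have hcop : Nat.Coprime ((r - 1) / dd m r) (m / dd m r) :=
    (Nat.coprime_div_gcd_div_gcd (m := m) (n := r - 1) hd).symm
  obtain ⟨x, hx⟩ := exists_coprime_add_mul _ _ (ee m n r l) hcop (ee_pos (l := l) hm hr hrn)
  set y := (r - 1) / dd m r + m / dd m r * x with hy
  have hR1 : r + m * x - 1 = dd m r * y := by
    rw [hy, mul_add, Nat.mul_div_cancel' (dd_dvd' m r), ← mul_assoc,
      Nat.mul_div_cancel' (dd_dvd m r)]
    omega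
  refine ⟨r + m * x, by omega, ?_, ?_, ?_, ?_, ?_⟩
  · show (r + m * x) % m = r % m
    exact Nat.add_mul_mod_self_left ..
  · -- R^n ≡ 1
    have hRr : ((r + m * x : ℕ) : ZMod m) = (r : ZMod m) := by
      push_cast; rw [ZMod.natCast_self]; ring
    have hN : NN n (r + m * x) ≡ NN n r [MOD m] := by
      rw [← ZMod.natCast_eq_natCast_iff]
      unfold NN
      push_cast
      have : ((r : ZMod m) + (m : ZMod m) * (x : ZMod m)) = (r : ZMod m) := by
        rw [ZMod.natCast_self]; ring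
      rw [this]
    have hg : gg m n r ∣ NN n (r + m * x) := (hN.dvd_iff (gg_dvd m n r)).mpr (gg_dvd' m n r)
    have h1 : dd m r * gg m n r ∣ (r + m * x - 1) * NN n (r + m * x) :=
      Nat.mul_dvd_mul (hR1 ▸ Dvd.intro _ rfl) hg
    have h2 := geom (r + m * x) n (by omega)
    have h3 : 1 ≤ (r + m * x) ^ n := Nat.one_le_pow _ _ (by omega)
    have h4 : (r + m * x) ^ n - 1 = (r + m * x - 1) * NN n (r + m * x) := by unfold NN; omega
    have h5 : m * ee m n r l ∣ (r + m * x) ^ n - 1 := by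
      rw [h4]; exact (me_dvd l hr hrn).trans h1
    exact ((Nat.modEq_iff_dvd' h3).mpr h5).symm
  · rw [hR1]
    exact (ee_dvd_dd l hm hr hrn).trans (Dvd.intro _ rfl)
  · rw [hR1, tt_eq]
    have : m / dd m r * l * (dd m r * y) = m * (l * y) := by
      calc m / dd m r * l * (dd m r * y) = (dd m r * (m / dd m r)) * (l * y) := by ring
        _ = m * (l * y) := by rw [Nat.mul_div_cancel' (dd_dvd m r)]
    rw [this]
    exact Nat.mul_dvd_mul_left m ((ee_dvd_l l).trans (Dvd.intro _ rfl))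
  · rw [hR1]
    have h1 : Nat.gcd (dd m r * y) (m * ee m n r l) ∣ Nat.gcd (m * y) (m * ee m n r l) :=
      Nat.gcd_dvd_gcd_of_dvd_left _ (Nat.mul_dvd_mul_right (dd_dvd m r) y)
    rw [Nat.gcd_mul_left, hx.gcd_eq_one, mul_one] at h1
    exact h1

end NT

end Cfsg.Agent.Lib.Helper35.Meta
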