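import Mathlib
import Cfsg.Prelude.Def_KGroupFacts

set_option autoImplicit false

namespace Cfsg.Agent.Lib.Helper35.Meta

open scoped commutatorElement

section Gen

variable {Γ : Type*} [Group Γ]

/-- in a finite group, an element conjugating a subgroup into itself normalizes it -/
theorem mem_normalizer_of_conj_le [Finite Γ] (H : Subgroup Γ) (g : Γ)
    (hg : ∀ h ∈ H, g * h * g⁻¹ ∈ H) : g ∈ Subgroup.normalizer (H : Set Γ) := by
  have hpow : ∀ k : ℕ, ∀ h ∈ H, g ^ k * h * (g ^ k)⁻¹ ∈ H := by
    intro k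
    induction k with
    | zero => intro h hh; simpa using hh
    | succ k ih =>
      intro h hh
      have := hg _ (ih h hh)
      have e : g ^ (k + 1) * h * (g ^ (k + 1))⁻¹ = g * (g ^ k * h * (g ^ k)⁻¹) * g⁻¹ := by
        rw [pow_succ']; group
      rw [e]; exact this
  have hinv : ∀ h ∈ H, g⁻¹ * h * g ∈ H := by
    intro h hh
    have hfin : IsOfFinOrder g := isOfFinOrder_of_finite g
    have e : g⁻¹ = g ^ (orderOf g - 1) := by
      rw [inv_eq_iff_mul_eq_one, ← pow_succ', Nat.sub_add_cancel hfin.orderOf_pos,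
        pow_orderOf_eq_one]
    have := hpow (orderOf g - 1) h hh
    rw [← e, inv_inv] at this
    exact this
  rw [Subgroup.mem_normalizer_iff]
  intro h
  constructor
  · exact hg h
  · intro hh
    have := hinv _ hh
    have e : g⁻¹ * (g * h * g⁻¹) * g = h := by group
    rwa [e] at this

/-- if the generators commute modulo a normal subgroup then the commutator subgroup lies in it -/
theorem commutator_le_of_closure (S : Set Γ) (hS : Subgroup.closure S = ⊤) (H : Subgroup Γ)
    [H.Normal] (h : ∀ s ∈ S, ∀ s' ∈ S, s * s' * s⁻¹ * s'⁻¹ ∈ H) : commutator Γ ≤ H := by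
  let π := QuotientGroup.mk' H
  have hcomm : ∀ s ∈ S, ∀ s' ∈ S, Commute (π s) (π s') := by
    intro s hs s' hs'
    have h1 : π (s * s' * s⁻¹ * s'⁻¹) = 1 := (QuotientGroup.eq_one_iff _).mpr (h s hs s' hs')
    rw [map_mul, map_mul, map_mul, map_inv, map_inv] at h1
    have h2 := mul_inv_eq_one.mp h1
    rw [mul_inv_eq_iff_eq_mul] at h2
    exact h2
  have hcen : ∀ s ∈ S, ∀ x : Γ, Commute (π s) (π x) := by
    intro s hs x
    have hx : x ∈ Subgroup.closure S := by rw [hS]; trivial
    induction hx using Subgroup.closure_induction with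
    | mem y hy => exact hcomm s hs y hy
    | one => rw [map_one]; exact Commute.one_right _
    | mul y y' _ _ ihy ihy' => rw [map_mul]; exact ihy.mul_right ihy'
    | inv y _ ihy => rw [map_inv]; exact ihy.inv_right
  have hall : ∀ x y : Γ, Commute (π x) (π y) := by
    intro x y
    have hx : x ∈ Subgroup.closure S := by rw [hS]; trivial
    induction hx using Subgroup.closure_induction with
    | mem s hs => exact hcen s hs y
    | one => rw [map_one]; exact Commute.one_left _
    | mul y y' _ _ ihy ihy' => rw [map_mul]; exact ihy.mul_left ihy'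
    | inv y _ ihy => rw [map_inv]; exact ihy.inv_left
  rw [commutator_def, Subgroup.commutator_le]
  intro x _ y _
  rw [← QuotientGroup.eq_one_iff (N := H)]
  show π ⁅x, y⁆ = 1
  rw [map_commutatorElement, commutatorElement_eq_one_iff_commute]
  exact hall x y

end Gen

section Main

variable {Γ G : Type*} [Group Γ] [Group G] [Finite Γ]

open Finset

/-- The key computation in a central extension of a metacyclic group: the commutator subgroup
is cyclic, generated by an element `c` killed by `m`, by `t` and by `1 + r + ⋯ + r^(n-1)`. -/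
theorem exists_comm_gen (σ : Γ →* G) (hσ : Function.Surjective σ)
    (hc : σ.ker ≤ Subgroup.center Γ) (a b : G) (hgen : Subgroup.closure {a, b} = ⊤)
    (m n r t : ℕ) (hr : 0 < r) (ham : a ^ m = 1) (hbn : b ^ n = a ^ t)
    (hab : b * a * b⁻¹ = a ^ r) :
    ∃ c : Γ, σ c = a ^ (r - 1) ∧ commutator Γ ≤ Subgroup.zpowers c ∧ c ^ m = 1 ∧ c ^ t = 1 ∧
      c ^ (∑ i ∈ range n, r ^ i) = 1 := by
  obtain ⟨α, hα⟩ := hσ a
  obtain ⟨β, hβ⟩ := hσ b
  have hcen : ∀ k ∈ σ.ker, ∀ g : Γ, g * k = k * g := fun k hk g =>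
    Subgroup.mem_center_iff.mp (hc hk) g
  set z : Γ := β * α * β⁻¹ * (α ^ r)⁻¹ with hz
  have hzK : z ∈ σ.ker := by
    rw [MonoidHom.mem_ker, hz]
    simp only [map_mul, map_inv, map_pow, hα, hβ, hab]
    exact mul_inv_cancel _
  have hzc : ∀ g : Γ, Commute g z := fun g => hcen z hzK g
  have hconj : β * α * β⁻¹ = α ^ r * z := by
    rw [(hzc (α ^ r)).eq, hz]; group
  -- conjugation by β of powers of α
  have hconjp : ∀ j : ℕ, β * α ^ j * β⁻¹ = α ^ (r * j) * z ^ j := by
    intro j
    have h1 : β * α ^ j * β⁻¹ = (β * α * β⁻¹) ^ j := by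
      rw [conj_pow]
    rw [h1, hconj, (hzc (α ^ r)).mul_pow, ← pow_mul]
  set c : Γ := α ^ (r - 1) * z with hcdef
  have hcα : Commute α c := by
    rw [hcdef]
    exact (Commute.pow_right (Commute.refl α) _).mul_right (hzc α)
  have hcpow : ∀ j : ℕ, c ^ j = α ^ ((r - 1) * j) * z ^ j := by
    intro j
    rw [hcdef, (hzc (α ^ (r - 1))).mul_pow, ← pow_mul]
  -- general cancellation: if β commutes with α^j then c^j = 1
  have hkill : ∀ j : ℕ, β * α ^ j * β⁻¹ = α ^ j → c ^ j = 1 := by
    intro j hj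
    rw [hconjp j] at hj
    rw [hcpow j]
    have e : r * j = (r - 1) * j + j := by
      obtain ⟨r', rfl⟩ : ∃ r', r = r' + 1 := ⟨r - 1, by omega⟩
      simp; ring
    rw [e, pow_add, mul_assoc, ((hzc (α ^ j)).pow_right j).eq, ← mul_assoc] at hj
    exact mul_eq_right.mp hj
  -- α^m is central
  have hαm : α ^ m ∈ σ.ker := by
    rw [MonoidHom.mem_ker, map_pow, hα, ham]
  have hcm : c ^ m = 1 := by
    apply hkill
    rw [hcen _ hαm β]; group
  -- β^n = k₂ α^t
  set k₂ : Γ := β ^ n * (α ^ t)⁻¹ with hk₂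
  have hk₂K : k₂ ∈ σ.ker := by
    rw [MonoidHom.mem_ker, hk₂]
    simp only [map_mul, map_inv, map_pow, hα, hβ, hbn]
    exact mul_inv_cancel _
  have hβn : β ^ n = k₂ * α ^ t := by rw [hk₂]; group
  have hct : c ^ t = 1 := by
    apply hkill
    have h1 : β * (k₂ * α ^ t) * β⁻¹ = k₂ * α ^ t := by
      rw [← hβn]; group
    have h2 : β * (k₂ * α ^ t) * β⁻¹ = k₂ * (β * α ^ t * β⁻¹) := by
      rw [← mul_assoc, hcen _ hk₂K β]; group
    rw [h2] at h1
    exact mul_left_cancel h1
  -- conjugation by powers of β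
  have hβk : ∀ k : ℕ, β ^ k * α * (β ^ k)⁻¹ = α ^ (r ^ k) * z ^ (∑ i ∈ range k, r ^ i) := by
    intro k
    induction k with
    | zero => simp
    | succ k ih =>
      have e : β ^ (k + 1) * α * (β ^ (k + 1))⁻¹ = β * (β ^ k * α * (β ^ k)⁻¹) * β⁻¹ := by
        rw [pow_succ']; group
      rw [e, ih]
      have e2 : β * (α ^ r ^ k * z ^ ∑ i ∈ range k, r ^ i) * β⁻¹
          = (β * α ^ r ^ k * β⁻¹) * z ^ ∑ i ∈ range k, r ^ i := by
        calc β * (α ^ r ^ k * z ^ ∑ i ∈ range k, r ^ i) * β⁻¹
            = β * α ^ r ^ k * (z ^ (∑ i ∈ range k, r ^ i) * β⁻¹) := by group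
          _ = β * α ^ r ^ k * (β⁻¹ * z ^ (∑ i ∈ range k, r ^ i)) := by
              rw [((hzc β⁻¹).pow_right _).eq]
          _ = (β * α ^ r ^ k * β⁻¹) * z ^ ∑ i ∈ range k, r ^ i := by group
      rw [e2, hconjp, Finset.sum_range_succ, pow_succ', mul_assoc, ← pow_add, add_comm]
  have hcN : c ^ (∑ i ∈ range n, r ^ i) = 1 := by
    have h1 : β ^ n * α * (β ^ n)⁻¹ = α := by
      rw [hβn]
      have hk₂α : Commute k₂ α := (hcen _ hk₂K α).symm
      have : Commute (k₂ * α ^ t) α :=
        hk₂α.mul_left (Commute.pow_left (Commute.refl α) _)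
      rw [this.eq]; group
    rw [hβk n] at h1
    rw [hcpow]
    have e : (r - 1) * ∑ i ∈ range n, r ^ i + 1 = r ^ n := by
      obtain ⟨r', rfl⟩ : ∃ r', r = r' + 1 := ⟨r - 1, by omega⟩
      simp only [Nat.add_sub_cancel]
      have := Nat.geomSum_eq (m := r' + 1) (n := n)
      clear * -
      induction n with
      | zero => simp
      | succ n ih =>
        rw [Finset.sum_range_succ, mul_add, add_right_comm, ih, pow_succ]; ring
    rw [← e, pow_succ, mul_assoc, ((hzc α).pow_right _).eq, ← mul_assoc] at h1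
    exact mul_eq_right.mp h1
  refine ⟨c, ?_, ?_, hcm, hct, hcN⟩
  · rw [hcdef, map_mul, map_pow, hα, MonoidHom.mem_ker.mp hzK, mul_one]
  · -- the commutator subgroup is contained in ⟨c⟩
    have hβc : β * c * β⁻¹ = c ^ r := by
      have h1 : β * c * β⁻¹ = (β * α ^ (r - 1) * β⁻¹) * z := by
        calc β * c * β⁻¹ = β * α ^ (r - 1) * (z * β⁻¹) := by rw [hcdef]; group
          _ = β * α ^ (r - 1) * (β⁻¹ * z) := by rw [(hzc β⁻¹).eq]
          _ = (β * α ^ (r - 1) * β⁻¹) * z := by group
      rw [h1, hconjp, hcpow, mul_assoc, ← pow_succ, mul_comm r (r - 1)]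
      congr 2
      omega
    have hnorm : ∀ g : Γ, (∀ h ∈ Subgroup.zpowers c, g * h * g⁻¹ ∈ Subgroup.zpowers c) →
        g ∈ Subgroup.normalizer (Subgroup.zpowers c : Set Γ) := fun g hg =>
      mem_normalizer_of_conj_le _ g hg
    have hNα : α ∈ Subgroup.normalizer (Subgroup.zpowers c : Set Γ) := by
      apply hnorm
      intro h hh
      have : Commute α h := by
        obtain ⟨i, rfl⟩ := Subgroup.mem_zpowers_iff.mp hh
        exact hcα.zpow_right i
      rw [this.eq]; simpa using hh
    have hNβ : β ∈ Subgroup.normalizer (Subgroup.zpowers c : Set Γ) := by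
      apply hnorm
      intro h hh
      obtain ⟨i, rfl⟩ := Subgroup.mem_zpowers_iff.mp hh
      have : β * c ^ i * β⁻¹ = (c ^ r) ^ i := by
        rw [← hβc, conj_zpow]
      rw [this]
      exact zpow_mem (pow_mem (Subgroup.mem_zpowers c) r) i
    have hNK : σ.ker ≤ Subgroup.normalizer (Subgroup.zpowers c : Set Γ) := by
      intro k hk
      apply hnorm
      intro h hh
      rw [← hcen k hk h]; simpa using hh
    have htop : Subgroup.closure ({α, β} ∪ (σ.ker : Set Γ)) = ⊤ := by
      rw [eq_top_iff]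
      intro γ _
      have h1 : σ γ ∈ Subgroup.map σ (Subgroup.closure {α, β}) := by
        rw [MonoidHom.map_closure]
        have : (σ '' {α, β} : Set G) = {a, b} := by
          simp [Set.image_pair, hα, hβ]
        rw [this, hgen]; trivial
      obtain ⟨x, hx, hxγ⟩ := h1
      have h2 : x⁻¹ * γ ∈ σ.ker := by
        rw [MonoidHom.mem_ker, map_mul, map_inv, hxγ, inv_mul_cancel]
      have h3 : γ = x * (x⁻¹ * γ) := by group
      rw [h3]
      refine mul_mem ?_ ?_
      · exact Subgroup.closure_mono Set.subset_union_left hx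
      · exact Subgroup.subset_closure (Set.mem_union_right _ h2)
    have hN : Subgroup.normalizer (Subgroup.zpowers c : Set Γ) = ⊤ := by
      rw [eq_top_iff, ← htop, Subgroup.closure_le]
      rintro x (hx | hx)
      · rcases hx with rfl | rfl
        · exact hNα
        · exact hNβ
      · exact hNK hx
    have : (Subgroup.zpowers c).Normal := Subgroup.normalizer_eq_top_iff.mp hN
    apply commutator_le_of_closure _ htop
    -- commutators of generators
    have hcomm_mem : ∀ x y : Γ, Commute x y → x * y * x⁻¹ * y⁻¹ ∈ Subgroup.zpowers c := by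
      intro x y hxy
      rw [hxy.eq]; simp
    have hβα : β * α * β⁻¹ * α⁻¹ = c := by
      rw [hconj, hcdef, mul_assoc, ← (hzc α⁻¹).eq, ← mul_assoc]
      congr 1
      obtain ⟨r', rfl⟩ : ∃ r', r = r' + 1 := ⟨r - 1, by omega⟩
      simp [pow_succ]
    rintro s (hs | hs) s' (hs' | hs')
    · rcases hs with rfl | rfl <;> rcases hs' with rfl | rfl
      · exact hcomm_mem _ _ (Commute.refl _)
      · have : s * s' * s⁻¹ * s'⁻¹ = (s' * s * s'⁻¹ * s⁻¹)⁻¹ := by group
        rw [this, hβα]; exact inv_mem (Subgroup.mem_zpowers c)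
      · rw [hβα]; exact Subgroup.mem_zpowers c
      · exact hcomm_mem _ _ (Commute.refl _)
    · exact hcomm_mem _ _ (hcen s' hs' s)
    · exact hcomm_mem _ _ (hcen s hs s').symm
    · exact hcomm_mem _ _ (hcen s' hs' s)

end Main

end Cfsg.Agent.Lib.Helper35.Meta
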