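import Mathlib
import Cfsg.Prelude.Def_KGroupFacts
import Cfsg.Agent.Lib.Helper35.SchurRes
import Cfsg.Agent.Lib.Helper35.MetaUpper
import Cfsg.Agent.Lib.Helper35.MetaNT

set_option autoImplicit false

namespace Cfsg.Agent.Lib.Helper35.Meta

open Finset Cfsg.Agent.Lib.Helper35

section Core

variable {Γ G : Type*} [Group Γ] [Group G] [Finite Γ]

/-- In a finite central extension of a metacyclic group, the part of the kernel inside the
commutator subgroup lies in a cyclic subgroup of order dividing `gcd(l, h)`. -/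
theorem core_bound (σ : Γ →* G) (hσ : Function.Surjective σ)
    (hc : σ.ker ≤ Subgroup.center Γ) (a b : G) (hgen : Subgroup.closure {a, b} = ⊤)
    (m n r l : ℕ) (hm : 0 < m) (hr : 0 < r) (hrn : r ^ n ≡ 1 [MOD m]) (ham : orderOf a = m)
    (hbn : b ^ n = a ^ tt m r l) (hab : b * a * b⁻¹ = a ^ r) :
    ∃ w : Γ, w ^ ee m n r l = 1 ∧ ∀ k ∈ σ.ker, k ∈ commutator Γ → k ∈ Subgroup.zpowers w := by
  obtain ⟨c, hσc, hcomm, hcm, hct, hcN⟩ := exists_comm_gen σ hσ hc a b hgen m n r
    (tt m r l) hr (by rw [← ham]; exact pow_orderOf_eq_one a) hbn hab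
  have hd := dd_pos (r := r) hm
  refine ⟨c ^ (m / dd m r), ?_, ?_⟩
  · rw [← orderOf_dvd_iff_pow_eq_one]
    apply Nat.dvd_gcd
    · rw [orderOf_dvd_iff_pow_eq_one, ← pow_mul, ← tt_eq]; exact hct
    · rw [orderOf_dvd_iff_pow_eq_one, ← pow_mul, md_hh hm hr hrn,
        ← orderOf_dvd_iff_pow_eq_one]
      exact Nat.dvd_gcd (orderOf_dvd_of_pow_eq_one hcm) (orderOf_dvd_of_pow_eq_one hcN)
  · intro k hk hk'
    obtain ⟨i, rfl⟩ := Subgroup.mem_zpowers_iff.mp (hcomm hk')
    rw [MonoidHom.mem_ker, map_zpow, hσc, ← zpow_natCast, ← zpow_mul,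
      ← orderOf_dvd_iff_zpow_eq_one, ham] at hk
    obtain ⟨q, hq⟩ := dd_dvd' m r
    obtain ⟨m', hm'⟩ := dd_dvd m r
    have hm'd : m / dd m r = m' := Nat.div_eq_of_eq_mul_right hd hm'
    have hqd : (r - 1) / dd m r = q := Nat.div_eq_of_eq_mul_right hd hq
    have hcop : Nat.Coprime m' q := by
      have := Nat.coprime_div_gcd_div_gcd (m := m) (n := r - 1) hd
      rwa [show m / m.gcd (r - 1) = m' from hm'd, show (r - 1) / m.gcd (r - 1) = q from hqd]
        at this
    have h1 : (m' : ℤ) ∣ (q : ℤ) * i := by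
      have e1 : ((m : ℕ) : ℤ) = ((dd m r : ℕ) : ℤ) * (m' : ℤ) := by exact_mod_cast hm'
      have e2 : ((r - 1 : ℕ) : ℤ) = ((dd m r : ℕ) : ℤ) * (q : ℤ) := by exact_mod_cast hq
      have h2 : ((dd m r : ℕ) : ℤ) * (m' : ℤ) ∣ ((dd m r : ℕ) : ℤ) * ((q : ℤ) * i) := by
        rw [← e1, ← mul_assoc, ← e2]; exact hk
      exact Int.dvd_of_mul_dvd_mul_left (by exact_mod_cast hd.ne') h2
    have h3 : (m' : ℤ) ∣ i := (Nat.Coprime.isCoprime hcop).dvd_of_dvd_mul_left h1
    obtain ⟨j, rfl⟩ := h3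
    rw [Subgroup.mem_zpowers_iff]
    refine ⟨j, ?_⟩
    rw [hm'd, ← zpow_natCast, ← zpow_mul]

end Core

section Local

variable {Y G : Type*} [Group Y] [Group G] [Finite Y]

/-- Local version: for a metacyclic subgroup `closure {a, b}` of `G` and a finite central
extension `τ : Y → G`, the `index`-th powers of the elements of `ker τ ∩ Y'` lie in a cyclic
subgroup of order dividing `gcd(l, h)`. -/
theorem meta_local (τ : Y →* G) (hτ : Function.Surjective τ)
    (hc : τ.ker ≤ Subgroup.center Y) (a b : G)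
    (m n r l : ℕ) (hm : 0 < m) (hr : 0 < r) (hrn : r ^ n ≡ 1 [MOD m]) (ham : orderOf a = m)
    (hbn : b ^ n = a ^ tt m r l) (hab : b * a * b⁻¹ = a ^ r) :
    ∃ w : Y, w ^ ee m n r l = 1 ∧ ∀ z ∈ τ.ker, z ∈ commutator Y →
      z ^ (Subgroup.closure ({a, b} : Set G)).index ∈ Subgroup.zpowers w := by
  set K : Subgroup G := Subgroup.closure ({a, b} : Set G) with hK
  have haK : a ∈ K := Subgroup.subset_closure (by simp)
  have hbK : b ∈ K := Subgroup.subset_closure (by simp)
  let τ₀ : K.comap τ →* K := τ.subgroupComap K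
  have hτ₀ : Function.Surjective τ₀ := τ.subgroupComap_surjective_of_surjective K hτ
  have hτ₀v : ∀ y : K.comap τ, ((τ₀ y : K) : G) = τ (y : Y) := fun y => rfl
  have hc₀ : τ₀.ker ≤ Subgroup.center (K.comap τ) := by
    intro y hy
    have hy1 : τ (y : Y) = 1 := by
      rw [← hτ₀v, MonoidHom.mem_ker.mp hy]; rfl
    have hyc : (y : Y) ∈ Subgroup.center Y := hc hy1
    rw [Subgroup.mem_center_iff]
    intro g
    exact Subtype.ext (Subgroup.mem_center_iff.mp hyc (g : Y))
  have hgen : Subgroup.closure ({(⟨a, haK⟩ : K), ⟨b, hbK⟩} : Set K) = ⊤ := by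
    have h := Subgroup.closure_closure_coe_preimage (k := ({a, b} : Set G))
    have e : ((Subtype.val : K → G) ⁻¹' ({a, b} : Set G)) = {(⟨a, haK⟩ : K), ⟨b, hbK⟩} := by
      ext x
      simp only [Set.mem_preimage, Set.mem_insert_iff, Set.mem_singleton_iff]
      constructor
      · rintro (h | h)
        · exact Or.inl (Subtype.ext h)
        · exact Or.inr (Subtype.ext h)
      · rintro (h | h)
        · exact Or.inl (congrArg Subtype.val h)
        · exact Or.inr (congrArg Subtype.val h)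
    rw [e] at h
    exact h
  obtain ⟨w₀, hw₀, hw₀k⟩ := core_bound τ₀ hτ₀ hc₀ (⟨a, haK⟩ : K) ⟨b, hbK⟩ hgen m n r l hm hr hrn
    (by rw [Subgroup.orderOf_mk]; exact ham) (Subtype.ext (by simpa using hbn))
    (Subtype.ext (by simpa using hab))
  refine ⟨(w₀ : Y), ?_, ?_⟩
  · have := congrArg Subtype.val hw₀
    simpa using this
  · intro z hz hz'
    have hidx : (K.comap τ).index = K.index := Subgroup.index_comap_of_surjective K hτ
    have hfi : (K.comap τ).FiniteIndex := ⟨by
      rw [hidx]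
      have : Finite G := Finite.of_surjective τ hτ
      exact Subgroup.FiniteIndex.index_ne_zero⟩
    obtain ⟨h, hmem⟩ := pow_index_mem_commutator_of_central (K.comap τ) (hc hz) hz'
    have hker : (⟨z ^ (K.comap τ).index, h⟩ : K.comap τ) ∈ τ₀.ker := by
      rw [MonoidHom.mem_ker]
      apply Subtype.ext
      rw [hτ₀v]
      show τ (z ^ (K.comap τ).index) = 1
      rw [map_pow, MonoidHom.mem_ker.mp hz, one_pow]
    obtain ⟨i, hi⟩ := Subgroup.mem_zpowers_iff.mp (hw₀k _ hker hmem)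
    rw [← hidx, Subgroup.mem_zpowers_iff]
    refine ⟨i, ?_⟩
    have := congrArg Subtype.val hi
    simpa using this

end Local

end Cfsg.Agent.Lib.Helper35.Meta
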