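import Mathlib
import Cfsg.Prelude.Def_KGroupFacts
import Cfsg.Agent.Lib.Helper35.SchurLocal

set_option autoImplicit false

/-! # Transfer into an extraspecial subgroup `3^(1+2)`

The kernel of a stem extension of a finite group containing a subgroup `⟨u, v⟩` of order `27`
(`u³ = v³ = 1`, `[u, v]` central of order `3`) together with elements inverting `u` and fixing
`v`, resp. fixing `u` and inverting `v`, has exponent dividing the index of `⟨u, v⟩`. -/

namespace Cfsg.Agent.Lib.Helper35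

open scoped commutatorElement

section He27

variable {Y G : Type*} [Group Y] [Group G]

/-- if `⁅a, b⁆` commutes with `a` then `⁅a ^ n, b⁆ = ⁅a, b⁆ ^ n` -/
theorem comm_pow_left_of_commute {a b : Y} (h : Commute a ⁅a, b⁆) (n : ℕ) :
    ⁅a ^ n, b⁆ = ⁅a, b⁆ ^ n := by
  induction n with
  | zero => simp
  | succ n ih =>
    have e : ⁅a ^ (n + 1), b⁆ = a * ⁅a ^ n, b⁆ * a⁻¹ * ⁅a, b⁆ := by
      rw [pow_succ']; simp only [commutatorElement_def]; group
    rw [e, ih, (h.pow_right n).eq, mul_inv_cancel_right, pow_succ]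

/-- if `⁅a, c⁆` is central then `⁅a, c⁻¹⁆ = ⁅a, c⁆⁻¹` -/
theorem comm_inv_right_of_central {a c : Y} (h : ⁅a, c⁆ ∈ Subgroup.center Y) :
    ⁅a, c⁻¹⁆ = ⁅a, c⁆⁻¹ := by
  have e : ⁅a, c⁻¹⁆ = c⁻¹ * ⁅a, c⁆⁻¹ * c := by
    simp only [commutatorElement_def]; group
  have h' := Subgroup.mem_center_iff.mp (inv_mem h) c⁻¹
  rw [e, h', inv_mul_cancel_right]

/-- commutators of elements of the closure of `S` lie in `N`, as soon as this holds for the
elements of `S` and `N` commutes elementwise with `S` -/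
theorem comm_mem_of_closure (S : Set Y) (N : Subgroup Y)
    (hN : ∀ n ∈ N, ∀ s ∈ S, s * n = n * s) (hS : ∀ x ∈ S, ∀ y ∈ S, ⁅x, y⁆ ∈ N) :
    ∀ x ∈ Subgroup.closure S, ∀ y ∈ Subgroup.closure S, ⁅x, y⁆ ∈ N := by
  have hcent : ∀ x ∈ Subgroup.closure S, ∀ n ∈ N, x * n = n * x := by
    intro x hx n hn
    induction hx using Subgroup.closure_induction with
    | mem x hx => exact hN n hn x hx
    | one => simp
    | mul x y _ _ ihx ihy => exact (Commute.mul_left ihx ihy).eq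
    | inv x _ ih => exact (show Commute x n from ih).inv_left.eq
  have step1 : ∀ y ∈ S, ∀ x ∈ Subgroup.closure S, ⁅x, y⁆ ∈ N := by
    intro y hy x hx
    induction hx using Subgroup.closure_induction with
    | mem x hx => exact hS x hx y hy
    | one => rw [commutatorElement_one_left]; exact N.one_mem
    | mul x₁ x₂ hx₁ hx₂ ih₁ ih₂ =>
      have e : ⁅x₁ * x₂, y⁆ = x₁ * ⁅x₂, y⁆ * x₁⁻¹ * ⁅x₁, y⁆ := by
        simp only [commutatorElement_def]; group
      rw [e, hcent x₁ hx₁ _ ih₂, mul_inv_cancel_right]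
      exact N.mul_mem ih₂ ih₁
    | inv x hx ih =>
      have e : ⁅x⁻¹, y⁆ = x⁻¹ * ⁅x, y⁆⁻¹ * x := by
        simp only [commutatorElement_def]; group
      rw [e, hcent x⁻¹ (inv_mem hx) _ (N.inv_mem ih), inv_mul_cancel_right]
      exact N.inv_mem ih
  intro x hx y hy
  induction hy using Subgroup.closure_induction with
  | mem y hy => exact step1 y hy x hx
  | one => rw [commutatorElement_one_right]; exact N.one_mem
  | mul y₁ y₂ hy₁ hy₂ ih₁ ih₂ =>
    have e : ⁅x, y₁ * y₂⁆ = ⁅x, y₁⁆ * (y₁ * ⁅x, y₂⁆ * y₁⁻¹) := by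
      simp only [commutatorElement_def]; group
    rw [e, hcent y₁ hy₁ _ ih₂, mul_inv_cancel_right]
    exact N.mul_mem ih₁ ih₂
  | inv y hy ih =>
    have e : ⁅x, y⁻¹⁆ = y⁻¹ * ⁅x, y⁆⁻¹ * y := by
      simp only [commutatorElement_def]; group
    rw [e, hcent y⁻¹ (inv_mem hy) _ (N.inv_mem ih), inv_mul_cancel_right]
    exact N.inv_mem ih

/-- in a central extension of a group containing `u`, `v` with `u³ = 1`, `[u, v]` commuting with
`u` and `v`, and an element `t` fixing `u` and inverting `v`: any lift of `u` commutes with the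
commutator of the lifts of `u` and `v` -/
theorem he27_lift_comm (τ : Y →* G) (hτ : Function.Surjective τ)
    (hc : τ.ker ≤ Subgroup.center Y) {u v t : G} (hu3 : u ^ 3 = 1)
    (huc : u * ⁅u, v⁆ = ⁅u, v⁆ * u) (hvc : v * ⁅u, v⁆ = ⁅u, v⁆ * v)
    (htu : t * u * t⁻¹ = u) (htv : t * v * t⁻¹ = v⁻¹) (a b : Y) (ha : τ a = u) (hb : τ b = v) :
    ⁅a, ⁅a, b⁆⁆ = 1 := by
  obtain ⟨θ, hθ⟩ := hτ t
  obtain ⟨c', hc'⟩ : ∃ c', c' = ⁅a, b⁆ := ⟨_, rfl⟩
  rw [← hc']
  have hτc : τ c' = ⁅u, v⁆ := by rw [hc', map_commutatorElement, ha, hb]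
  have hα : ⁅a, c'⁆ ∈ Subgroup.center Y := by
    apply hc
    show τ _ = 1
    rw [map_commutatorElement, ha, hτc, commutatorElement_eq_one_iff_mul_comm]; exact huc
  obtain ⟨k, hk_def⟩ : ∃ k, k = a⁻¹ * (θ * a * θ⁻¹) := ⟨_, rfl⟩
  have hk : k ∈ Subgroup.center Y := by
    apply hc
    show τ _ = 1
    rw [hk_def, map_mul, map_inv, map_mul, map_mul, map_inv, ha, hθ, htu, inv_mul_cancel]
  obtain ⟨k', hk'_def⟩ : ∃ k', k' = b * (θ * b * θ⁻¹) := ⟨_, rfl⟩
  have hk' : k' ∈ Subgroup.center Y := by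
    apply hc
    show τ _ = 1
    rw [hk'_def, map_mul, map_mul, map_mul, map_inv, hb, hθ, htv, mul_inv_cancel]
  obtain ⟨k'', hk''_def⟩ : ∃ k'', k'' = ⁅c', b⁻¹⁆ := ⟨_, rfl⟩
  have hk'' : k'' ∈ Subgroup.center Y := by
    apply hc
    show τ _ = 1
    rw [hk''_def, map_commutatorElement, map_inv, hb, hτc, commutatorElement_eq_one_iff_commute]
    exact ((show Commute v ⁅u, v⁆ from hvc).symm).inv_right
  have e1 : θ * a * θ⁻¹ = a * k := by rw [hk_def]; group
  have e2 : θ * b * θ⁻¹ = b⁻¹ * k' := by rw [hk'_def]; group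
  have e3 : θ * c' * θ⁻¹ = c'⁻¹ * k'' := by
    have h1 : θ * c' * θ⁻¹ = ⁅θ * a * θ⁻¹, θ * b * θ⁻¹⁆ := by
      rw [hc']; simp only [commutatorElement_def]; group
    have h2 : ⁅a, b⁻¹⁆ = c'⁻¹ * k'' := by
      rw [hk''_def, hc']; simp only [commutatorElement_def]; group
    rw [h1, e1, e2, comm_mul_central_left hk, comm_mul_central_right hk', h2]
  have e5 : θ * ⁅a, c'⁆ * θ⁻¹ = ⁅a, c'⁻¹⁆ := by
    have h1 : θ * ⁅a, c'⁆ * θ⁻¹ = ⁅θ * a * θ⁻¹, θ * c' * θ⁻¹⁆ := by
      simp only [commutatorElement_def]; group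
    rw [h1, e1, e3, comm_mul_central_left hk, comm_mul_central_right hk'']
  have e6 : θ * ⁅a, c'⁆ * θ⁻¹ = ⁅a, c'⁆ := by
    have h := Subgroup.mem_center_iff.mp hα θ
    rw [h, mul_inv_cancel_right]
  have e7 : ⁅a, c'⁻¹⁆ = ⁅a, c'⁆⁻¹ := comm_inv_right_of_central hα
  have hinv : ⁅a, c'⁆ = ⁅a, c'⁆⁻¹ := by
    rw [← e7, ← e5, e6]
  have h2 : ⁅a, c'⁆ ^ 2 = 1 := by
    rw [pow_two]; nth_rewrite 1 [hinv]; exact inv_mul_cancel _
  have h3 : ⁅a, c'⁆ ^ 3 = 1 := by
    have hcomm : Commute a ⁅a, c'⁆ := Subgroup.mem_center_iff.mp hα a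
    rw [← comm_pow_left_of_commute hcomm 3]
    have ha3 : a ^ 3 ∈ Subgroup.center Y := by
      apply hc
      show τ _ = 1
      rw [map_pow, ha, hu3]
    rw [commutatorElement_eq_one_iff_mul_comm]
    exact (Subgroup.mem_center_iff.mp ha3 c').symm
  calc ⁅a, c'⁆ = ⁅a, c'⁆ ^ 3 * (⁅a, c'⁆ ^ 2)⁻¹ := by group
    _ = 1 := by rw [h2, h3]; simp

/-- in a central extension of a group containing a subgroup `⟨u, v⟩` of type `3^(1+2)` with
elements inverting `u` and fixing `v`, resp. fixing `u` and inverting `v`, the commutator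
subgroup of the preimage of `⟨u, v⟩` meets the kernel trivially -/
theorem he27_eq_one_of_mem_commutator (τ : Y →* G) (hτ : Function.Surjective τ)
    (hc : τ.ker ≤ Subgroup.center Y) {u v t₁ t₂ : G} (hu3 : u ^ 3 = 1) (hv3 : v ^ 3 = 1)
    (hc1 : ⁅u, v⁆ ≠ 1) (huc : u * ⁅u, v⁆ = ⁅u, v⁆ * u) (hvc : v * ⁅u, v⁆ = ⁅u, v⁆ * v)
    (h1u : t₁ * u * t₁⁻¹ = u⁻¹) (h1v : t₁ * v * t₁⁻¹ = v)
    (h2u : t₂ * u * t₂⁻¹ = u) (h2v : t₂ * v * t₂⁻¹ = v⁻¹)
    (w : (Subgroup.closure ({u, v} : Set G)).comap τ)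
    (hw : w ∈ commutator ((Subgroup.closure ({u, v} : Set G)).comap τ))
    (hw1 : τ (w : Y) = 1) : (w : Y) = 1 := by
  obtain ⟨a, ha⟩ := hτ u
  obtain ⟨b, hb⟩ := hτ v
  have hA : ⁅a, ⁅a, b⁆⁆ = 1 := he27_lift_comm τ hτ hc hu3 huc hvc h2u h2v a b ha hb
  have hvu : ⁅v, u⁆ = ⁅u, v⁆⁻¹ := (commutatorElement_inv u v).symm
  have hB' : ⁅b, ⁅b, a⁆⁆ = 1 :=
    he27_lift_comm τ hτ hc hv3
      (by rw [hvu]; exact ((show Commute v ⁅u, v⁆ from hvc).inv_right).eq)
      (by rw [hvu]; exact ((show Commute u ⁅u, v⁆ from huc).inv_right).eq) h1v h1u b a hb ha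
  obtain ⟨c', hc'⟩ : ∃ c', c' = ⁅a, b⁆ := ⟨_, rfl⟩
  have hba : ⁅b, a⁆ = c'⁻¹ := by rw [hc', commutatorElement_inv]
  rw [← hc'] at hA
  rw [hba] at hB'
  have hca : Commute a c' := commutatorElement_eq_one_iff_commute.mp hA
  have hcb : Commute b c' := by
    have h := (commutatorElement_eq_one_iff_commute.mp hB').inv_right
    rwa [inv_inv] at h
  have hτc : τ c' = ⁅u, v⁆ := by rw [hc', map_commutatorElement, ha, hb]
  have hc3 : c' ^ 3 = 1 := by
    have ha3 : a ^ 3 ∈ Subgroup.center Y := by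
      apply hc
      show τ _ = 1
      rw [map_pow, ha, hu3]
    have h := comm_pow_left_of_commute (a := a) (b := b) (by rw [← hc']; exact hca) 3
    rw [← hc'] at h
    rw [← h, commutatorElement_eq_one_iff_mul_comm]
    exact (Subgroup.mem_center_iff.mp ha3 b).symm
  have huv3 : ⁅u, v⁆ ^ 3 = 1 := by rw [← hτc, ← map_pow, hc3, map_one]
  let S : Set Y := {a, b} ∪ (τ.ker : Set Y)
  have hHle : (Subgroup.closure ({u, v} : Set G)).comap τ ≤ Subgroup.closure S := by
    have h1 : Subgroup.closure ({u, v} : Set G) ≤ (Subgroup.closure S).map τ := by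
      rw [Subgroup.closure_le]
      intro x hx
      rcases hx with hx | hx
      · exact ⟨a, Subgroup.subset_closure (Or.inl (Or.inl rfl)), by rw [ha, hx]⟩
      · exact ⟨b, Subgroup.subset_closure (Or.inl (Or.inr rfl)), by rw [hb, hx]⟩
    have h2 : τ.ker ≤ Subgroup.closure S := fun k hk => Subgroup.subset_closure (Or.inr hk)
    intro y hy
    have h3 : y ∈ ((Subgroup.closure S).map τ).comap τ := h1 hy
    rw [Subgroup.comap_map_eq] at h3
    exact (sup_le le_rfl h2) h3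
  have hN : ∀ n ∈ Subgroup.zpowers c', ∀ s ∈ S, s * n = n * s := by
    intro n hn s hs
    obtain ⟨i, rfl⟩ := Subgroup.mem_zpowers_iff.mp hn
    rcases hs with (hs | hs) | hs
    · rw [hs]; exact (hca.zpow_right i).eq
    · rw [hs]; exact (hcb.zpow_right i).eq
    · exact (Subgroup.mem_center_iff.mp (hc hs) _).symm
  have hS : ∀ x ∈ S, ∀ y ∈ S, ⁅x, y⁆ ∈ Subgroup.zpowers c' := by
    intro x hx y hy
    rcases hx with hx | hx
    · rcases hy with hy | hy
      · rcases hx with hx | hx <;> rcases hy with hy | hy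
        · rw [hx, hy, commutatorElement_self]; exact Subgroup.one_mem _
        · rw [hx, hy, ← hc']; exact Subgroup.mem_zpowers c'
        · rw [hx, hy, hba]; exact Subgroup.inv_mem _ (Subgroup.mem_zpowers c')
        · rw [hx, hy, commutatorElement_self]; exact Subgroup.one_mem _
      · have h : ⁅x, y⁆ = 1 :=
          commutatorElement_eq_one_iff_mul_comm.mpr (Subgroup.mem_center_iff.mp (hc hy) x)
        rw [h]; exact Subgroup.one_mem _
    · have h : ⁅x, y⁆ = 1 :=
        commutatorElement_eq_one_iff_mul_comm.mpr (Subgroup.mem_center_iff.mp (hc hx) y).symm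
      rw [h]; exact Subgroup.one_mem _
  have hcomm := comm_mem_of_closure S (Subgroup.zpowers c') hN hS
  have hwmem : (w : Y) ∈ Subgroup.zpowers c' := by
    have hle : commutator ((Subgroup.closure ({u, v} : Set G)).comap τ) ≤
        (Subgroup.zpowers c').comap (Subgroup.subtype _) := by
      rw [commutator_def, Subgroup.commutator_le]
      intro x _ y _
      rw [Subgroup.mem_comap, map_commutatorElement]
      exact hcomm _ (hHle x.2) _ (hHle y.2)
    exact hle hw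
  obtain ⟨i, hi⟩ := Subgroup.mem_zpowers_iff.mp hwmem
  have hi1 : ⁅u, v⁆ ^ i = 1 := by rw [← hτc, ← map_zpow, hi, hw1]
  have hp3 : Fact (Nat.Prime 3) := ⟨Nat.prime_three⟩
  have hord : orderOf ⁅u, v⁆ = 3 := orderOf_eq_prime huv3 hc1
  have h3 : (3 : ℤ) ∣ i := by
    have h := (orderOf_dvd_iff_zpow_eq_one (x := ⁅u, v⁆) (i := i)).mpr hi1
    rwa [hord] at h
  obtain ⟨m, hm⟩ := h3
  rw [← hi, hm, zpow_mul]
  have e : c' ^ (3 : ℤ) = 1 := by
    have : c' ^ (3 : ℤ) = c' ^ (3 : ℕ) := by norm_cast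
    rw [this, hc3]
  rw [e, one_zpow]

/-- a subgroup `⟨u, v⟩` with `u³ = v³ = 1` and `[u, v] ≠ 1` commuting with `u` and `v` has
order divisible by `27` -/
theorem he27_dvd_card [Finite G] {u v : G} (hu3 : u ^ 3 = 1) (hv3 : v ^ 3 = 1)
    (hc1 : ⁅u, v⁆ ≠ 1) (huc : u * ⁅u, v⁆ = ⁅u, v⁆ * u) (hvc : v * ⁅u, v⁆ = ⁅u, v⁆ * v) :
    27 ∣ Nat.card (Subgroup.closure ({u, v} : Set G)) := by
  have hp3 : Fact (Nat.Prime 3) := ⟨Nat.prime_three⟩
  obtain ⟨c, hcdef⟩ : ∃ c, c = ⁅u, v⁆ := ⟨_, rfl⟩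
  rw [← hcdef] at hc1 huc hvc
  have hc3 : c ^ 3 = 1 := by
    have h := comm_pow_left_of_commute (a := u) (b := v) (by rw [← hcdef]; exact huc) 3
    rw [← hcdef, hu3, commutatorElement_one_left] at h
    exact h.symm
  have hordc : orderOf c = 3 := orderOf_eq_prime hc3 hc1
  have hQ : IsPGroup 3 (Subgroup.closure ({c, u} : Set G)) := by
    apply isPGroup_closure_of_comm
    · rintro x (rfl | rfl) y (rfl | rfl)
      · rfl
      · exact huc.symm
      · exact huc
      · rfl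
    · rintro x (rfl | rfl)
      · exact hc3
      · exact hu3
  have hu_not : u ∉ Subgroup.zpowers c := by
    intro hmem
    obtain ⟨i, hi⟩ := Subgroup.mem_zpowers_iff.mp hmem
    apply hc1
    rw [hcdef, commutatorElement_eq_one_iff_commute, ← hi]
    exact ((show Commute v c from hvc).zpow_right i).symm
  have h9 : 3 ^ (1 + 1) ∣ Nat.card (Subgroup.closure ({c, u} : Set G)) :=
    pow_succ_dvd_card_of_pgroup (p := 3) (Subgroup.closure ({c, u} : Set G))
      (Subgroup.zpowers c) hQ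
      (Subgroup.zpowers_le.mpr (Subgroup.subset_closure (by simp))) 1
      (by rw [Nat.card_zpowers, hordc]; norm_num) (x := u) (Subgroup.subset_closure (by simp))
      hu_not
  obtain ⟨j, hj⟩ := IsPGroup.iff_card.mp hQ
  have hj2 : 2 ≤ j := by
    rw [hj] at h9
    exact (Nat.pow_dvd_pow_iff_le_right (by norm_num)).mp h9
  have hvQ : ∀ x ∈ Subgroup.closure ({c, u} : Set G),
      v * x * v⁻¹ ∈ Subgroup.closure ({c, u} : Set G) := by
    intro x hx
    induction hx using Subgroup.closure_induction with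
    | mem x hx =>
      rcases hx with hx | hx
      · rw [hx, hvc, mul_inv_cancel_right]; exact Subgroup.subset_closure (by simp)
      · have e : v * u * v⁻¹ = c⁻¹ * u := by
          rw [hcdef]; simp only [commutatorElement_def]; group
        rw [hx, e]
        exact Subgroup.mul_mem _ (Subgroup.inv_mem _ (Subgroup.subset_closure (by simp)))
          (Subgroup.subset_closure (by simp))
    | one => rw [mul_one, mul_inv_cancel]; exact Subgroup.one_mem _
    | mul x y _ _ ihx ihy =>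
      have e : v * (x * y) * v⁻¹ = (v * x * v⁻¹) * (v * y * v⁻¹) := by group
      rw [e]; exact Subgroup.mul_mem _ ihx ihy
    | inv x _ ih =>
      have e : v * x⁻¹ * v⁻¹ = (v * x * v⁻¹)⁻¹ := by group
      rw [e]; exact Subgroup.inv_mem _ ih
  have hvN : v ∈ Subgroup.normalizer ((Subgroup.closure ({c, u} : Set G) : Subgroup G) : Set G) := by
    rw [Subgroup.mem_normalizer_iff]
    intro x
    constructor
    · exact hvQ x
    · intro h
      have h2 := hvQ _ (hvQ _ h)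
      have hvvv : v * v * v = 1 := by
        rw [← hv3]; simp only [pow_succ, pow_zero, one_mul]
      have e : v * (v * (v * x * v⁻¹) * v⁻¹) * v⁻¹ = (v * v * v) * x * (v * v * v)⁻¹ := by group
      rw [e, hvvv] at h2
      simpa using h2
  have hzv : IsPGroup 3 (Subgroup.zpowers v) := by
    rw [Subgroup.zpowers_eq_closure]
    apply isPGroup_closure_of_comm
    · rintro x rfl y rfl; rfl
    · rintro x rfl; exact hv3
  have hK3 : IsPGroup 3 (Subgroup.zpowers v ⊔ Subgroup.closure ({c, u} : Set G) : Subgroup G) :=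
    IsPGroup.to_sup_of_normal_right' hzv hQ (Subgroup.zpowers_le.mpr hvN)
  have hv_not : v ∉ Subgroup.closure ({c, u} : Set G) := by
    intro hmem
    have hle : Subgroup.closure ({c, u} : Set G) ≤ Subgroup.centralizer {u} := by
      rw [Subgroup.closure_le]
      intro x hx
      rw [SetLike.mem_coe, Subgroup.mem_centralizer_iff]
      intro h hh
      rw [Set.mem_singleton_iff] at hh
      rcases hx with hx | hx
      · rw [hh, hx]; exact huc
      · rw [hh, hx]
    have h := Subgroup.mem_centralizer_iff.mp (hle hmem) u rfl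
    exact hc1 (by rw [hcdef]; exact commutatorElement_eq_one_iff_mul_comm.mpr h)
  have h27 : 3 ^ (j + 1) ∣
      Nat.card (Subgroup.zpowers v ⊔ Subgroup.closure ({c, u} : Set G) : Subgroup G) :=
    pow_succ_dvd_card_of_pgroup (p := 3) _ (Subgroup.closure ({c, u} : Set G)) hK3
      le_sup_right j hj (x := v) (Subgroup.mem_sup_left (Subgroup.mem_zpowers v)) hv_not
  have hu_mem : u ∈ Subgroup.closure ({u, v} : Set G) := Subgroup.subset_closure (by simp)
  have hv_mem : v ∈ Subgroup.closure ({u, v} : Set G) := Subgroup.subset_closure (by simp)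
  have hle : Subgroup.zpowers v ⊔ Subgroup.closure ({c, u} : Set G) ≤
      Subgroup.closure ({u, v} : Set G) := by
    refine sup_le (Subgroup.zpowers_le.mpr hv_mem) ?_
    rw [Subgroup.closure_le]
    intro x hx
    rcases hx with hx | hx
    · rw [hx, hcdef, SetLike.mem_coe, commutatorElement_def]
      exact Subgroup.mul_mem _ (Subgroup.mul_mem _ (Subgroup.mul_mem _ hu_mem hv_mem)
        (Subgroup.inv_mem _ hu_mem)) (Subgroup.inv_mem _ hv_mem)
    · rw [hx]; exact hu_mem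
  have h3 : (27 : ℕ) ∣ 3 ^ (j + 1) := by
    have : (27 : ℕ) = 3 ^ 3 := by norm_num
    rw [this]; exact pow_dvd_pow 3 (by omega)
  exact (h3.trans h27).trans (Subgroup.card_dvd_of_le hle)

/-- extraspecial subgroup `3^(1+2)` with elements inverting one generator and centralizing the
other, both ways: the kernel of a stem extension has exponent dividing the index -/
theorem stem_pow_eq_one_of_he27 {Y G : Type*} [Group Y] [Group G] [Finite G] (τ : Y →* G)
    (hτ : Cfsg.IsStemExtension τ) {z : Y} (hz : z ∈ τ.ker) {u v t₁ t₂ : G}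
    (hu3 : u ^ 3 = 1) (hv3 : v ^ 3 = 1) (hc1 : ⁅u, v⁆ ≠ 1)
    (huc : u * ⁅u, v⁆ = ⁅u, v⁆ * u) (hvc : v * ⁅u, v⁆ = ⁅u, v⁆ * v)
    (h1u : t₁ * u * t₁⁻¹ = u⁻¹) (h1v : t₁ * v * t₁⁻¹ = v)
    (h2u : t₂ * u * t₂⁻¹ = u) (h2v : t₂ * v * t₂⁻¹ = v⁻¹)
    (n : ℕ) (hG : Nat.card G = 27 * n) : z ^ n = 1 := by
  have hidx := pow_index_eq_one_of_comap τ hτ.1 (hτ.2.1 hz) (hτ.2.2 hz) hz
    (Subgroup.closure ({u, v} : Set G))
    (fun w hw hw1 => he27_eq_one_of_mem_commutator τ hτ.1 hτ.2.1 hu3 hv3 hc1 huc hvc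
      h1u h1v h2u h2v w hw hw1)
  exact pow_eq_one_of_index _ hidx 27 n (by norm_num) hG (he27_dvd_card hu3 hv3 hc1 huc hvc)

end He27

end Cfsg.Agent.Lib.Helper35
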