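import Mathlib

set_option autoImplicit false

namespace Cfsg.Agent.Lib.Helper35.Hexa

open scoped Pointwise

/-- multiplication by `ω ^ k` on `F₄ = {0, 1, ω, ω²}`, coded as `Fin 4` -/
def mulw (k : ZMod 3) (x : Fin 4) : Fin 4 :=
  if x = 0 then 0 else if k = 0 then x
  else if k = 1 then (if x = 1 then 2 else if x = 2 then 3 else 1)
  else (if x = 1 then 3 else if x = 2 then 1 else 2)

/-- addition on `F₄` -/
def addF (x y : Fin 4) : Fin 4 :=
  ![![0, 1, 2, 3], ![1, 0, 3, 2], ![2, 3, 0, 1], ![3, 2, 1, 0]] x y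

theorem mulw_zero : ∀ x : Fin 4, mulw 0 x = x := by decide

theorem mulw_add : ∀ (j k : ZMod 3) (x : Fin 4), mulw (j + k) x = mulw j (mulw k x) := by
  decide

/-- the hexacode encoding -/
def enc (a b c : Fin 4) : Fin 6 → Fin 4 :=
  ![a, b, c, addF (addF a b) c, addF (addF (mulw 2 a) (mulw 1 b)) c,
    addF (addF (mulw 1 a) (mulw 2 b)) c]

/-- membership in the hexacode -/
def isCode (v : Fin 6 → Fin 4) : Prop :=
  v 3 = addF (addF (v 0) (v 1)) (v 2) ∧
    v 4 = addF (addF (mulw 2 (v 0)) (mulw 1 (v 1))) (v 2) ∧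
    v 5 = addF (addF (mulw 1 (v 0)) (mulw 2 (v 1))) (v 2)

instance (v : Fin 6 → Fin 4) : Decidable (isCode v) := by unfold isCode; infer_instance

theorem isCode_enc (a b c : Fin 4) : isCode (enc a b c) := ⟨rfl, rfl, rfl⟩

theorem eq_enc_of_isCode {v : Fin 6 → Fin 4} (h : isCode v) : v = enc (v 0) (v 1) (v 2) := by
  funext i
  fin_cases i
  · rfl
  · rfl
  · rfl
  · exact h.1
  · exact h.2.1
  · exact h.2.2

/-- the monomial group `Z₃ ≀ S₆` -/
def Mon : Type := Equiv.Perm (Fin 6) × (Fin 6 → ZMod 3)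

namespace Mon

instance : Finite Mon := inferInstanceAs (Finite (Equiv.Perm (Fin 6) × (Fin 6 → ZMod 3)))

instance : Mul Mon := ⟨fun a b => (a.1 * b.1, fun i => a.2 i + b.2 (a.1.symm i))⟩
instance : One Mon := ⟨((1 : Equiv.Perm (Fin 6)), fun _ => 0)⟩
instance : Inv Mon := ⟨fun a => (a.1⁻¹, fun i => -a.2 (a.1 i))⟩

theorem mul_fst (a b : Mon) : (a * b).1 = a.1 * b.1 := rfl
theorem mul_snd (a b : Mon) (i : Fin 6) : (a * b).2 i = a.2 i + b.2 (a.1.symm i) := rfl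
theorem one_fst : (1 : Mon).1 = 1 := rfl
theorem one_snd (i : Fin 6) : (1 : Mon).2 i = 0 := rfl
theorem inv_fst (a : Mon) : (a⁻¹).1 = a.1⁻¹ := rfl
theorem inv_snd (a : Mon) (i : Fin 6) : (a⁻¹).2 i = -a.2 (a.1 i) := rfl

theorem ext' {a b : Mon} (h1 : a.1 = b.1) (h2 : ∀ i, a.2 i = b.2 i) : a = b :=
  Prod.ext h1 (funext h2)

instance : Group Mon := Group.ofLeftAxioms
  (by
    intro a b c
    apply ext'
    · exact mul_assoc _ _ _
    · intro i
      show a.2 i + b.2 (a.1.symm i) + c.2 (b.1.symm (a.1.symm i)) = _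
      rw [add_assoc]; rfl)
  (by
    intro a
    apply ext'
    · exact one_mul _
    · intro i
      show (0 : ZMod 3) + a.2 i = a.2 i
      rw [zero_add])
  (by
    intro a
    apply ext'
    · exact inv_mul_cancel _
    · intro i
      show -a.2 (a.1 i) + a.2 (a.1 i) = 0
      rw [neg_add_cancel])

instance : SMul Mon (Fin 6 → Fin 4) := ⟨fun a v i => mulw (a.2 i) (v (a.1.symm i))⟩

theorem smul_apply (a : Mon) (v : Fin 6 → Fin 4) (i : Fin 6) :
    (a • v) i = mulw (a.2 i) (v (a.1.symm i)) := rfl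

instance : MulAction Mon (Fin 6 → Fin 4) where
  one_smul v := by funext i; rw [smul_apply, one_snd, mulw_zero]; rfl
  mul_smul a b v := by funext i; rw [smul_apply, mul_snd, mulw_add]; rfl

/-- the projection to the symmetric group -/
def proj : Mon →* Equiv.Perm (Fin 6) where
  toFun a := a.1
  map_one' := rfl
  map_mul' _ _ := rfl

theorem proj_apply (a : Mon) : proj a = a.1 := rfl

/-- scalar matrices -/
def scal (c : ZMod 3) : Mon := (1, fun _ => c)

theorem scal_mem_center (c : ZMod 3) : scal c ∈ Subgroup.center Mon := by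
  rw [Subgroup.mem_center_iff]
  intro g
  apply ext'
  · show g.1 * 1 = 1 * g.1
    rw [mul_one, one_mul]
  · intro i
    show g.2 i + c = c + g.2 i
    rw [add_comm]

theorem scal_pow (c : ZMod 3) (k : ℕ) : scal c ^ k = scal (k * c) := by
  induction k with
  | zero =>
    apply ext'
    · rfl
    · intro i; show (0 : ZMod 3) = ((0 : ℕ) : ZMod 3) * c; simp
  | succ k ih =>
    rw [pow_succ, ih]
    apply ext'
    · show (1 : Equiv.Perm (Fin 6)) * 1 = 1
      rw [mul_one]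
    · intro i
      show (k : ZMod 3) * c + c = ((k + 1 : ℕ) : ZMod 3) * c
      push_cast; ring

end Mon

open Mon

/-- the hexacode -/
def code : Set (Fin 6 → Fin 4) := {v | isCode v}

/-- the group `3.A₆` of monomial automorphisms of the hexacode -/
def H : Subgroup Mon := MulAction.stabilizer Mon code

theorem mem_H_iff (g : Mon) : g ∈ H ↔ ∀ v, isCode v → isCode (g • v) :=
  MulAction.mem_stabilizer_set' (Set.toFinite _)

theorem mem_H_of (g : Mon) (h : ∀ a b c : Fin 4, isCode (g • enc a b c)) : g ∈ H := by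
  rw [mem_H_iff]
  intro v hv
  rw [eq_enc_of_isCode hv]
  exact h _ _ _

theorem ker_aux1 : ∀ x0 x1 x2 x3 x4 x5 : ZMod 3,
    isCode (fun i => mulw (![x0, x1, x2, x3, x4, x5] i) (enc 1 1 1 i)) →
      x0 = x1 ∧ x1 = x2 ∧ x2 = x3 := by decide

theorem ker_aux2 : ∀ x0 x1 x2 x3 x4 x5 : ZMod 3,
    isCode (fun i => mulw (![x0, x1, x2, x3, x4, x5] i) (enc 1 1 0 i)) →
      x0 = x1 ∧ x1 = x4 ∧ x4 = x5 := by decide

/-- the elements of `3.A₆` over the identity permutation are the scalars -/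
theorem eq_scal_of_mem_H {g : Mon} (hg : g ∈ H) (h1 : g.1 = 1) : g = scal (g.2 0) := by
  have key : ∀ a b c, isCode (fun i =>
      mulw (![g.2 0, g.2 1, g.2 2, g.2 3, g.2 4, g.2 5] i) (enc a b c i)) := by
    intro a b c
    have h := (mem_H_iff g).mp hg _ (isCode_enc a b c)
    have e : (fun i => mulw (![g.2 0, g.2 1, g.2 2, g.2 3, g.2 4, g.2 5] i) (enc a b c i))
        = g • enc a b c := by
      funext i
      rw [smul_apply, h1]
      fin_cases i <;> rfl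
    rw [e]; exact h
  obtain ⟨e01, e12, e23⟩ := ker_aux1 _ _ _ _ _ _ (key 1 1 1)
  obtain ⟨-, e14, e45⟩ := ker_aux2 _ _ _ _ _ _ (key 1 1 0)
  apply ext' h1
  intro i
  show g.2 i = g.2 0
  fin_cases i
  · rfl
  · exact e01.symm
  · exact (e01.trans e12).symm
  · exact (e01.trans (e12.trans e23)).symm
  · exact (e01.trans e14).symm
  · exact (e01.trans (e14.trans e45)).symm

/-- the 3-cycle `(0 1 2)` -/
def s1 : Equiv.Perm (Fin 6) := ⟨![1, 2, 0, 3, 4, 5], ![2, 0, 1, 3, 4, 5], by decide, by decide⟩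
/-- the 3-cycle `(3 4 5)` -/
def s2 : Equiv.Perm (Fin 6) := ⟨![0, 1, 2, 4, 5, 3], ![0, 1, 2, 5, 3, 4], by decide, by decide⟩
/-- the 5-cycle `(1 2 3 4 5)` -/
def s5 : Equiv.Perm (Fin 6) := ⟨![0, 2, 3, 4, 5, 1], ![0, 5, 1, 2, 3, 4], by decide, by decide⟩

/-- a lift of `(0 1 2)` -/
def h1 : Mon := (s1, ![0, 0, 0, 0, 2, 1])
/-- a lift of `(3 4 5)` -/
def h2 : Mon := (s2, ![0, 1, 2, 2, 2, 2])
/-- a lift of `(1 2 3 4 5)` -/
def h5 : Mon := (s5, ![0, 2, 1, 2, 0, 1])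

theorem h1_mem : h1 ∈ H := mem_H_of _ (by decide)
theorem h2_mem : h2 ∈ H := mem_H_of _ (by decide)
theorem h5_mem : h5 ∈ H := mem_H_of _ (by decide)

theorem comm_h1_h2 : h1 * h2 * h1⁻¹ * h2⁻¹ = scal 2 := by
  apply ext'
  · decide
  · decide

/-- the image of `3.A₆` in `S₆` -/
def Hbar : Subgroup (Equiv.Perm (Fin 6)) := H.map proj

theorem s1_mem : s1 ∈ Hbar := ⟨h1, h1_mem, rfl⟩
theorem s2_mem : s2 ∈ Hbar := ⟨h2, h2_mem, rfl⟩
theorem s5_mem : s5 ∈ Hbar := ⟨h5, h5_mem, rfl⟩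

theorem two_trans_aux : ∀ a b : Fin 6, a ≠ b → ∃ i k : Fin 5, ∃ j : Fin 3,
    (s5 ^ (i : ℕ) * s1 ^ (j : ℕ) * s5 ^ (k : ℕ)) a = 0 ∧
      (s5 ^ (i : ℕ) * s1 ^ (j : ℕ) * s5 ^ (k : ℕ)) b = 1 := by decide

theorem s1_isThreeCycle : s1.IsThreeCycle := by
  have h : s1 = Equiv.swap (0 : Fin 6) 2 * Equiv.swap 0 1 := by decide
  rw [h]
  exact Equiv.Perm.isThreeCycle_swap_mul_swap_same (by decide) (by decide) (by decide)

/-- the image of `3.A₆` in `S₆` contains `A₆` -/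
theorem alt_le_Hbar : alternatingGroup (Fin 6) ≤ Hbar := by
  have hmem : ∀ (i k : Fin 5) (j : Fin 3),
      s5 ^ (i : ℕ) * s1 ^ (j : ℕ) * s5 ^ (k : ℕ) ∈ Hbar := fun i k j =>
    mul_mem (mul_mem (pow_mem s5_mem _) (pow_mem s1_mem _)) (pow_mem s5_mem _)
  have h2t : MulAction.IsMultiplyPretransitive Hbar (Fin 6) 2 := by
    rw [MulAction.is_two_pretransitive_iff]
    intro a b c d hab hcd
    obtain ⟨i, k, j, e1, e2⟩ := two_trans_aux a b hab
    obtain ⟨i', k', j', e1', e2'⟩ := two_trans_aux c d hcd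
    refine ⟨⟨_, mul_mem (inv_mem (hmem i' k' j')) (hmem i k j)⟩, ?_, ?_⟩
    · show ((s5 ^ (i' : ℕ) * s1 ^ (j' : ℕ) * s5 ^ (k' : ℕ))⁻¹ *
        (s5 ^ (i : ℕ) * s1 ^ (j : ℕ) * s5 ^ (k : ℕ))) a = c
      rw [Equiv.Perm.mul_apply, e1, ← e1']
      exact Equiv.symm_apply_apply _ c
    · show ((s5 ^ (i' : ℕ) * s1 ^ (j' : ℕ) * s5 ^ (k' : ℕ))⁻¹ *
        (s5 ^ (i : ℕ) * s1 ^ (j : ℕ) * s5 ^ (k : ℕ))) b = d
      rw [Equiv.Perm.mul_apply, e2, ← e2']
      exact Equiv.symm_apply_apply _ d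
  exact Equiv.Perm.alternatingGroup_le_of_isPreprimitive_of_isThreeCycle_mem
    (MulAction.isPreprimitive_of_is_two_pretransitive h2t) s1_isThreeCycle s1_mem

end Cfsg.Agent.Lib.Helper35.Hexa
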