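import Mathlib

set_option autoImplicit false
set_option linter.unusedSectionVars false

namespace Cfsg.Agent.Lib.Helper35.Meta

open scoped commutatorElement

section Pw

variable {M n : ℕ}

/-- `u ^ i` for `i` in `ZMod n` -/
def pw (u : ZMod M) (i : ZMod n) : ZMod M := u ^ i.val

theorem pow_mod_of_pow_eq_one {R : Type*} [Monoid R] {u : R} {n : ℕ} (hu : u ^ n = 1) (k : ℕ) :
    u ^ (k % n) = u ^ k := by
  conv_rhs => rw [← Nat.mod_add_div k n, pow_add, pow_mul, hu, one_pow, mul_one]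

theorem pow_eq_pow_of_cast_eq {R : Type*} [Monoid R] {A : R} {M : ℕ} (hA : A ^ M = 1) {a b : ℕ}
    (h : (a : ZMod M) = b) : A ^ a = A ^ b := by
  have h1 : a % M = b % M := (ZMod.natCast_eq_natCast_iff a b M).mp h
  rw [← pow_mod_of_pow_eq_one hA a, ← pow_mod_of_pow_eq_one hA b, h1]

theorem pw_add [NeZero n] {u : ZMod M} (hu : u ^ n = 1) (i j : ZMod n) :
    pw u (i + j) = pw u i * pw u j := by
  unfold pw
  rw [ZMod.val_add, pow_mod_of_pow_eq_one hu, pow_add]

theorem pw_zero (u : ZMod M) : pw u (0 : ZMod n) = 1 := by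
  unfold pw; rw [ZMod.val_zero, pow_zero]

theorem pw_natCast [NeZero n] {u : ZMod M} (hu : u ^ n = 1) (k : ℕ) :
    pw u (k : ZMod n) = u ^ k := by
  unfold pw; rw [ZMod.val_natCast, pow_mod_of_pow_eq_one hu]

theorem pw_mul_eq_self {u : ZMod M} {x : ZMod M} (hx : u * x = x) (i : ZMod n) :
    pw u i * x = x := by
  unfold pw
  induction i.val with
  | zero => simp
  | succ k ih => rw [pow_succ, mul_assoc, hx, ih]

end Pw

/-- the split metacyclic group `Z/M ⋊ Z/n`, the generator of `Z/n` acting as multiplication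
by `u` -/
def MetaGrp (M n : ℕ) (_u : ZMod M) : Type := ZMod M × ZMod n

namespace MetaGrp

variable {M n : ℕ} {u : ZMod M}

instance [NeZero M] [NeZero n] : Finite (MetaGrp M n u) :=
  inferInstanceAs (Finite (ZMod M × ZMod n))

@[ext] theorem ext {a b : MetaGrp M n u} (h1 : a.1 = b.1) (h2 : a.2 = b.2) : a = b :=
  Prod.ext h1 h2

instance : Mul (MetaGrp M n u) := ⟨fun a b => (a.1 + pw u a.2 * b.1, a.2 + b.2)⟩
instance : One (MetaGrp M n u) := ⟨((0 : ZMod M), (0 : ZMod n))⟩
instance : Inv (MetaGrp M n u) := ⟨fun a => (-(pw u (-a.2) * a.1), -a.2)⟩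

theorem mul_fst (a b : MetaGrp M n u) : (a * b).1 = a.1 + pw u a.2 * b.1 := rfl
theorem mul_snd (a b : MetaGrp M n u) : (a * b).2 = a.2 + b.2 := rfl
theorem one_fst : (1 : MetaGrp M n u).1 = 0 := rfl
theorem one_snd : (1 : MetaGrp M n u).2 = 0 := rfl
theorem inv_fst (a : MetaGrp M n u) : (a⁻¹).1 = -(pw u (-a.2) * a.1) := rfl
theorem inv_snd (a : MetaGrp M n u) : (a⁻¹).2 = -a.2 := rfl

variable [NeZero n] [hu : Fact (u ^ n = 1)]

instance : Group (MetaGrp M n u) := Group.ofLeftAxioms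
  (by
    intro a b c; ext
    · simp only [mul_fst, mul_snd, pw_add hu.out]; ring
    · simp only [mul_snd]; ring)
  (by
    intro a; ext
    · simp only [mul_fst, one_fst, one_snd, pw_zero]; ring
    · simp only [mul_snd, one_snd]; ring)
  (by
    intro a; ext
    · simp only [mul_fst, inv_fst, inv_snd, one_fst]; ring
    · simp only [mul_snd, inv_snd, one_snd]; ring)

/-- the element `(x, i)` -/
def el (x : ZMod M) (i : ZMod n) : MetaGrp M n u := (x, i)

theorem el_fst (x : ZMod M) (i : ZMod n) : (el x i : MetaGrp M n u).1 = x := rfl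
theorem el_snd (x : ZMod M) (i : ZMod n) : (el x i : MetaGrp M n u).2 = i := rfl

theorem el_mul (x y : ZMod M) (i j : ZMod n) :
    (el x i : MetaGrp M n u) * el y j = el (x + pw u i * y) (i + j) := rfl

theorem el_eta (a : MetaGrp M n u) : el a.1 a.2 = a := rfl

theorem one_eq : (1 : MetaGrp M n u) = el 0 0 := rfl

theorem el_inv (x : ZMod M) (i : ZMod n) :
    (el x i : MetaGrp M n u)⁻¹ = el (-(pw u (-i) * x)) (-i) := rfl

theorem el_zero_pow (x : ZMod M) (k : ℕ) :
    (el x 0 : MetaGrp M n u) ^ k = el ((k : ZMod M) * x) 0 := by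
  induction k with
  | zero => simp [one_eq]
  | succ k ih =>
    rw [pow_succ, ih, el_mul, pw_zero]
    congr 1
    · push_cast; ring
    · simp

theorem el_zero_fst_pow (i : ZMod n) (k : ℕ) :
    (el 0 i : MetaGrp M n u) ^ k = el 0 ((k : ZMod n) * i) := by
  induction k with
  | zero => simp [one_eq]
  | succ k ih =>
    rw [pow_succ, ih, el_mul]
    congr 1
    · simp
    · push_cast; ring

theorem al_pow_mul_be_pow (x j : ℕ) :
    (el 1 0 : MetaGrp M n u) ^ x * (el 0 1) ^ j = el (x : ZMod M) (j : ZMod n) := by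
  rw [el_zero_pow, el_zero_fst_pow, el_mul]
  congr 1
  · simp
  · simp

/-- the basic commutator -/
theorem comm_be_al :
    (el 0 1 : MetaGrp M n u) * el 1 0 * (el 0 1)⁻¹ * (el 1 0)⁻¹ = el (u - 1) 0 := by
  have h1 : pw u (1 : ZMod n) = u := by
    have := pw_natCast (n := n) hu.out 1
    simpa using this
  rw [el_inv, el_inv, el_mul, el_mul, el_mul]
  ext
  · simp only [el_fst, pw_zero, h1, neg_zero]
    have h2 : pw u (1 + 0 + -1 : ZMod n) = 1 := by
      have : (1 + 0 + -1 : ZMod n) = 0 := by ring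
      rw [this, pw_zero]
    rw [h2]; ring
  · simp only [el_snd]; ring

theorem be_al_conj (u' : ℕ) (hu' : (u' : ZMod M) = u) :
    (el 0 1 : MetaGrp M n u) * el 1 0 * (el 0 1)⁻¹ = (el 1 0) ^ u' := by
  have h := comm_be_al (M := M) (n := n) (u := u)
  rw [mul_inv_eq_iff_eq_mul] at h
  rw [h, el_mul, pw_zero, el_zero_pow, hu']
  congr 1
  · ring
  · simp

theorem mem_commutator (y : ZMod M) [NeZero M] :
    (el ((u - 1) * y) 0 : MetaGrp M n u) ∈ commutator (MetaGrp M n u) := by
  have h1 : (el (u - 1) 0 : MetaGrp M n u) ∈ commutator (MetaGrp M n u) := by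
    rw [← comm_be_al, commutator_def]
    have := Subgroup.commutator_mem_commutator (Subgroup.mem_top (el 0 1 : MetaGrp M n u))
      (Subgroup.mem_top (el 1 0 : MetaGrp M n u))
    rw [commutatorElement_def] at this
    exact this
  have h2 := pow_mem h1 y.val
  rw [el_zero_pow, ZMod.natCast_zmod_val, mul_comm] at h2
  exact h2

/-- a criterion for centrality -/
theorem mem_center {x : ZMod M} {j : ZMod n} (hj : pw u j = 1) (hx : u * x = x) :
    (el x j : MetaGrp M n u) ∈ Subgroup.center (MetaGrp M n u) := by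
  rw [Subgroup.mem_center_iff]
  intro g
  rw [← el_eta g, el_mul, el_mul, hj, pw_mul_eq_self hx]
  ext
  · simp only [el_fst]; ring
  · simp only [el_snd]; ring

section Lift

variable {H : Type*} [Group H] [NeZero M]

theorem conj_pow_pow {A B : H} {u' : ℕ} (hAB : B * A * B⁻¹ = A ^ u') (k j : ℕ) :
    B ^ k * A ^ j = A ^ (u' ^ k * j) * B ^ k := by
  induction k generalizing j with
  | zero => simp
  | succ k ih =>
    have h1 : B * A ^ (u' ^ k * j) * B⁻¹ = A ^ (u' ^ (k + 1) * j) := by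
      rw [← conj_pow, hAB, ← pow_mul, pow_succ]
      congr 1; ring
    calc B ^ (k + 1) * A ^ j = B * (B ^ k * A ^ j) := by rw [pow_succ']; group
      _ = B * (A ^ (u' ^ k * j) * B ^ k) := by rw [ih]
      _ = (B * A ^ (u' ^ k * j) * B⁻¹) * B ^ (k + 1) := by rw [pow_succ']; group
      _ = A ^ (u' ^ (k + 1) * j) * B ^ (k + 1) := by rw [h1]

/-- the homomorphism from the split metacyclic group given by the images of the generators -/
def lift (A B : H) (hA : A ^ M = 1) (hB : B ^ n = 1) (u' : ℕ) (hu' : (u' : ZMod M) = u)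
    (hAB : B * A * B⁻¹ = A ^ u') : MetaGrp M n u →* H where
  toFun a := A ^ a.1.val * B ^ a.2.val
  map_one' := by simp [one_fst, one_snd]
  map_mul' := by
    intro a b
    have h1 : A ^ (a * b).1.val = A ^ (a.1.val + u' ^ a.2.val * b.1.val) := by
      apply pow_eq_pow_of_cast_eq hA
      rw [ZMod.natCast_zmod_val, mul_fst]
      push_cast
      rw [ZMod.natCast_zmod_val, ZMod.natCast_zmod_val, hu']
      rfl
    have h2 : B ^ (a * b).2.val = B ^ (a.2.val + b.2.val) := by
      rw [mul_snd, ZMod.val_add, pow_mod_of_pow_eq_one hB]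
    rw [h1, h2, pow_add, pow_add]
    calc A ^ a.1.val * A ^ (u' ^ a.2.val * b.1.val) * (B ^ a.2.val * B ^ b.2.val)
        = A ^ a.1.val * (A ^ (u' ^ a.2.val * b.1.val) * B ^ a.2.val) * B ^ b.2.val := by group
      _ = A ^ a.1.val * (B ^ a.2.val * A ^ b.1.val) * B ^ b.2.val := by
          rw [conj_pow_pow hAB]
      _ = A ^ a.1.val * B ^ a.2.val * (A ^ b.1.val * B ^ b.2.val) := by group

theorem lift_apply (A B : H) (hA : A ^ M = 1) (hB : B ^ n = 1) (u' : ℕ) (hu' : (u' : ZMod M) = u)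
    (hAB : B * A * B⁻¹ = A ^ u') (a : MetaGrp M n u) :
    lift A B hA hB u' hu' hAB a = A ^ a.1.val * B ^ a.2.val := rfl

theorem lift_natCast (A B : H) (hA : A ^ M = 1) (hB : B ^ n = 1) (u' : ℕ)
    (hu' : (u' : ZMod M) = u) (hAB : B * A * B⁻¹ = A ^ u') (k j : ℕ) :
    lift A B hA hB u' hu' hAB (el (k : ZMod M) (j : ZMod n)) = A ^ k * B ^ j := by
  rw [lift_apply, el_fst, el_snd, ZMod.val_natCast, ZMod.val_natCast,
    pow_mod_of_pow_eq_one hA, pow_mod_of_pow_eq_one hB]

end Lift

end MetaGrp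

end Cfsg.Agent.Lib.Helper35.Meta
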