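import Mathlib
import Cfsg.Prelude.Def_KGroupFacts
import Cfsg.Agent.Lib.Helper41.SL2TorusCyclic
import Cfsg.Agent.Lib.Helper5.PSL2
import Cfsg.Agent.Lib.Helper35.Schur
import Cfsg.Agent.Lib.Helper35.SL2Upper
import Cfsg.Agent.Lib.Helper35.SL2Dicyclic
import Cfsg.Agent.Lib.Helper35.SL2Mult
import Cfsg.Agent.Lib.Helper35.SchurLocal
import Cfsg.Agent.Lib.Helper35.MetaLocal
import Cfsg.Agent.Lib.Helper35.Hexa

set_option autoImplicit false
set_option linter.unusedSectionVars false

namespace Cfsg.Agent.Lib.Helper35.SL2Nine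

open Cfsg.Agent.Lib.Helper41 Cfsg.Agent.Lib.Helper35 Cfsg.Agent.Lib.Helper35.Meta

open scoped commutatorElement

variable {F : Type*} [Field F] [Fintype F]

theorem three_eq_zero (hF : Fintype.card F = 9) : (3 : F) = 0 := by
  have h := Nat.cast_card_eq_zero F
  rw [hF] at h
  have h9 : (3 : F) * 3 = 0 := by push_cast at h; linear_combination h
  exact mul_self_eq_zero.mp h9

theorem two_ne_zero_of_card (hF : Fintype.card F = 9) : (2 : F) ≠ 0 := by
  intro h2
  have := card_mod_two_of_two_eq_zero h2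
  omega

/-- the kernel of a stem extension of `SL₂(9)` has exponent dividing `9` (torus normalizers) -/
theorem pow_nine_eq_one (hF : Fintype.card F = 9) {Y : Type*} [Group Y]
    (τ : Y →* Matrix.SpecialLinearGroup (Fin 2) F) (hτ : IsStemExtension τ) {z : Y}
    (hzk : z ∈ τ.ker) : z ^ 9 = 1 := by
  classical
  have h2 := two_ne_zero_of_card hF
  have hz : z ∈ Subgroup.center Y := hτ.2.1 hzk
  have hz' : z ∈ commutator Y := hτ.2.2 hzk
  have hzk' : τ z = 1 := hzk
  have hG : Nat.card (Matrix.SpecialLinearGroup (Fin 2) F) = 720 := by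
    rw [Cfsg.Agent.Lib.Helper5.card_SL2, hF]; norm_num
  obtain ⟨W, hWo, hWno, hWc, -⟩ := exists_nonsplit_torus (F := F) h2
  have hW4 : W.1.trace * W.1.trace ≠ 4 := trace_sq_ne_four_of_nonsplit hWno
  have hN1 : z ^ 36 = 1 := by
    have hcard : Nat.card (Subgroup.normalizer
        (Subgroup.centralizer ({W} : Set (Matrix.SpecialLinearGroup (Fin 2) F)) :
          Set (Matrix.SpecialLinearGroup (Fin 2) F))) = 20 := by
      rw [card_normalizer_centralizer h2 W hW4, hWc, hF]
    rw [← index_of_card _ 20 36 (by omega) hcard (by rw [hG])]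
    apply pow_index_eq_one_of_comap τ hτ.1 hz hz' hzk'
    intro w hw hw1
    exact eq_one_of_mem_commutator_normalizer h2 τ hτ.1 hτ.2.1 W hW4 w hw hw1
  obtain ⟨a₀, ha₀⟩ := IsCyclic.exists_generator (α := Fˣ)
  have hoa : orderOf a₀ = 8 := by
    rw [orderOf_eq_card_of_forall_mem_zpowers ha₀, Nat.card_eq_fintype_card, Fintype.card_units,
      hF]
  have ha1 : (a₀ : F) * a₀ ≠ 1 := by
    intro h
    have h1 : a₀ ^ 2 = 1 := by
      apply Units.ext
      rw [Units.val_pow_eq_pow_val, pow_two, h]; rfl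
    have := orderOf_dvd_of_pow_eq_one h1
    rw [hoa] at this
    have := Nat.le_of_dvd (by norm_num) this
    omega
  have hne : (a₀ : F) ≠ 0 := a₀.ne_zero
  have hinv : ((a₀⁻¹ : Fˣ) : F) = (a₀ : F)⁻¹ := by simp
  have hx4 : (diagD a₀).1.trace * (diagD a₀).1.trace ≠ 4 := by
    rw [trace_diagD, hinv]
    intro h
    apply ha1
    have h1 : ((a₀ : F) * a₀ - 1) ^ 2 = 0 := by
      field_simp at h
      linear_combination h
    have h3 := pow_eq_zero_iff (two_ne_zero) |>.mp h1
    exact sub_eq_zero.mp h3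
  have hxc := not_mem_center_of_trace h2 (diagD a₀) hx4
  have hcardC : Nat.card (Subgroup.centralizer
      ({diagD a₀} : Set (Matrix.SpecialLinearGroup (Fin 2) F))) = 8 := by
    rcases card_centralizer_cases h2 (diagD a₀) hxc with h | h | h
    · exact absurd h.1 hx4
    · rw [h.2, hF]
    · exfalso
      apply h.1 (a₀ : F)
      rw [trace_diagD, hinv]
      field_simp
      ring
  have hN2 : z ^ 45 = 1 := by
    have hcard : Nat.card (Subgroup.normalizer
        (Subgroup.centralizer ({diagD a₀} : Set (Matrix.SpecialLinearGroup (Fin 2) F)) :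
          Set (Matrix.SpecialLinearGroup (Fin 2) F))) = 16 := by
      rw [card_normalizer_centralizer h2 (diagD a₀) hx4, hcardC]
    rw [← index_of_card _ 16 45 (by omega) hcard (by rw [hG])]
    apply pow_index_eq_one_of_comap τ hτ.1 hz hz' hzk'
    intro w hw hw1
    exact eq_one_of_mem_commutator_normalizer h2 τ hτ.1 hτ.2.1 (diagD a₀) hx4 w hw hw1
  have h45 : z ^ 45 = z ^ 36 * z ^ 9 := by rw [← pow_add]
  rw [hN2, hN1, one_mul] at h45
  exact h45.symm

theorem upperU_pow (s : F) (k : ℕ) : upperU s ^ k = upperU ((k : F) * s) := by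
  induction k with
  | zero =>
    apply Subtype.ext
    rw [pow_zero, upperU_coe]
    ext i j
    fin_cases i <;> fin_cases j <;> simp
  | succ k ih =>
    rw [pow_succ, ih, ← upperU_add']
    congr 1
    push_cast; ring

theorem upperU_injective : Function.Injective (upperU : F → Matrix.SpecialLinearGroup (Fin 2) F) := by
  intro s t hst
  have h1 : (upperU s).1 0 1 = (upperU t).1 0 1 := by rw [hst]
  rw [upperU_coe, upperU_coe] at h1
  simpa using h1

theorem upperU_zero : upperU (0 : F) = 1 := by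
  have := upperU_pow (0 : F) 0
  rw [pow_zero] at this
  rw [this]; simp

theorem natCast_mod_three (hF : Fintype.card F = 9) (k : ℕ) : ((k % 3 : ℕ) : F) = (k : F) := by
  have h3 := three_eq_zero hF
  conv_rhs => rw [← Nat.mod_add_div k 3]
  push_cast
  rw [h3, zero_mul, add_zero]

theorem exists_not_natCast (hF : Fintype.card F = 9) : ∃ i₀ : F, ∀ k : ℕ, i₀ ≠ (k : F) := by
  by_contra h
  push Not at h
  have hsurj : Function.Surjective (fun j : Fin 3 => ((j : ℕ) : F)) := by
    intro x
    obtain ⟨k, hk⟩ := h x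
    exact ⟨⟨k % 3, Nat.mod_lt _ (by norm_num)⟩, by
      show ((k % 3 : ℕ) : F) = x
      rw [natCast_mod_three hF, hk]⟩
  have := Fintype.card_le_of_surjective _ hsurj
  rw [hF, Fintype.card_fin] at this
  omega

/-- the kernel of a finite stem extension of `SL₂(9)` is cyclic of order dividing `3` -/
theorem ker_le_zpowers (hF : Fintype.card F = 9) {Y : Type*} [Group Y] [Finite Y]
    (τ : Y →* Matrix.SpecialLinearGroup (Fin 2) F) (hτ : IsStemExtension τ) :
    ∃ w : Y, w ^ 3 = 1 ∧ τ.ker ≤ Subgroup.zpowers w := by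
  classical
  have h3 := three_eq_zero hF
  obtain ⟨i₀, hi₀⟩ := exists_not_natCast hF
  have hG : Nat.card (Matrix.SpecialLinearGroup (Fin 2) F) = 720 := by
    rw [Cfsg.Agent.Lib.Helper5.card_SL2, hF]; norm_num
  set a : Matrix.SpecialLinearGroup (Fin 2) F := upperU 1 with ha
  set b : Matrix.SpecialLinearGroup (Fin 2) F := upperU i₀ with hb
  have ha3 : a ^ 3 = 1 := by
    rw [ha, upperU_pow]; push_cast; rw [h3, zero_mul, upperU_zero]
  have hb3 : b ^ 3 = 1 := by
    rw [hb, upperU_pow]; push_cast; rw [h3, zero_mul, upperU_zero]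
  have ha1 : a ≠ 1 := by
    rw [ha, ← upperU_zero]
    intro h
    exact one_ne_zero (upperU_injective h)
  have hp3 : Fact (Nat.Prime 3) := ⟨Nat.prime_three⟩
  have hord : orderOf a = 3 := orderOf_eq_prime ha3 ha1
  have hcomm : a * b = b * a := by
    rw [ha, hb, ← upperU_add', ← upperU_add', add_comm]
  have hab : b * a * b⁻¹ = a ^ 1 := by
    rw [← hcomm, mul_inv_cancel_right, pow_one]
  have htt : tt 3 1 0 = 0 := by simp [tt]
  have hee : ee 3 3 1 0 = 3 := by
    simp [ee, hh, dd, gg, NN]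
  obtain ⟨w, hw, hwz⟩ := meta_local τ hτ.1 hτ.2.1 a b 3 3 1 0 (by norm_num) (by norm_num)
    (by rfl) hord (by rw [htt, pow_zero]; exact hb3) hab
  rw [hee] at hw
  refine ⟨w, hw, ?_⟩
  -- the order of the subgroup generated by `a` and `b`
  have hb_not : b ∉ Subgroup.zpowers a := by
    intro hmem
    rw [← mem_powers_iff_mem_zpowers] at hmem
    obtain ⟨k, hk⟩ := hmem
    have hk' : a ^ k = b := hk
    rw [ha, hb, upperU_pow, mul_one] at hk'
    exact hi₀ k (upperU_injective hk').symm
  have hP : IsPGroup 3 (Subgroup.closure ({a, b} : Set (Matrix.SpecialLinearGroup (Fin 2) F))) := by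
    apply isPGroup_closure_of_comm
    · rintro x (rfl | rfl) y (rfl | rfl)
      · rfl
      · exact hcomm
      · exact hcomm.symm
      · rfl
    · rintro x (rfl | rfl)
      · exact ha3
      · exact hb3
  have h9 := pow_succ_dvd_card_of_pgroup (p := 3)
    (Subgroup.closure ({a, b} : Set (Matrix.SpecialLinearGroup (Fin 2) F)))
    (Subgroup.zpowers a) hP
    (Subgroup.zpowers_le.mpr (Subgroup.subset_closure (by simp))) 1
    (by rw [Nat.card_zpowers, hord]; norm_num) (x := b) (Subgroup.subset_closure (by simp))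
    hb_not
  obtain ⟨c, hc⟩ := h9
  have hidx : (Subgroup.closure ({a, b} : Set (Matrix.SpecialLinearGroup (Fin 2) F))).index * c
      = 80 := by
    have h1 := Subgroup.card_mul_index
      (Subgroup.closure ({a, b} : Set (Matrix.SpecialLinearGroup (Fin 2) F)))
    rw [hc, hG] at h1
    have h2 : 3 ^ (1 + 1) * (c * (Subgroup.closure
        ({a, b} : Set (Matrix.SpecialLinearGroup (Fin 2) F))).index) = 3 ^ (1 + 1) * 80 := by
      rw [← mul_assoc, h1]; norm_num
    have h3 := Nat.eq_of_mul_eq_mul_left (by norm_num) h2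
    rw [mul_comm]; exact h3
  intro z hz
  have hz9 := pow_nine_eq_one hF τ hτ hz
  have h80 : z ^ 80 ∈ Subgroup.zpowers w := by
    rw [← hidx, pow_mul]
    exact pow_mem (hwz z hz (hτ.2.2 hz)) c
  have hz81 : z * z ^ 80 = 1 := by
    rw [← pow_succ', show 80 + 1 = 9 * 9 from rfl, pow_mul, hz9, one_pow]
  have : z = (z ^ 80)⁻¹ := eq_inv_of_mul_eq_one_left hz81
  rw [this]
  exact inv_mem h80

end Cfsg.Agent.Lib.Helper35.SL2Nine
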