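import Mathlib
import Cfsg.Prelude.Def_KGroupFacts
import Cfsg.Agent.Lib.Helper5.PSL2
import Cfsg.Agent.Lib.Helper35.Hexa

set_option autoImplicit false
set_option linter.unusedSectionVars false

namespace Cfsg.Agent.Lib.Helper35.SL2Nine

open Cfsg.Agent.Lib.Helper35.Hexa Cfsg.Agent.Lib.Helper35.Hexa.Mon

open scoped commutatorElement

section Cover

variable {F : Type*} [Field F] [Fintype F]
  (e : Matrix.ProjectiveSpecialLinearGroup (Fin 2) F ≃* alternatingGroup (Fin 6))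

/-- the exotic action of `SL₂(9)` on six points -/
def rho : Matrix.SpecialLinearGroup (Fin 2) F →* Equiv.Perm (Fin 6) :=
  (alternatingGroup (Fin 6)).subtype.comp (e.toMonoidHom.comp
    (QuotientGroup.mk' (Subgroup.center (Matrix.SpecialLinearGroup (Fin 2) F))))

theorem rho_apply (s : Matrix.SpecialLinearGroup (Fin 2) F) :
    rho e s = ((e (QuotientGroup.mk s) : alternatingGroup (Fin 6)) : Equiv.Perm (Fin 6)) := rfl

theorem rho_mem (s : Matrix.SpecialLinearGroup (Fin 2) F) : rho e s ∈ alternatingGroup (Fin 6) :=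
  (e (QuotientGroup.mk s)).2

theorem exists_rho_eq {σ : Equiv.Perm (Fin 6)} (hσ : σ ∈ alternatingGroup (Fin 6)) :
    ∃ s, rho e s = σ := by
  obtain ⟨q, hq⟩ := e.surjective ⟨σ, hσ⟩
  obtain ⟨s, rfl⟩ := QuotientGroup.mk_surjective q
  exact ⟨s, congrArg Subtype.val hq⟩

theorem mem_center_of_rho_eq_one {s : Matrix.SpecialLinearGroup (Fin 2) F} (h : rho e s = 1) :
    s ∈ Subgroup.center (Matrix.SpecialLinearGroup (Fin 2) F) := by
  rw [rho_apply] at h
  have h1 : e (QuotientGroup.mk s) = 1 := Subtype.ext h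
  have h2 : (QuotientGroup.mk s : Matrix.ProjectiveSpecialLinearGroup (Fin 2) F) = 1 := by
    apply e.injective
    rw [h1, map_one]
  exact (QuotientGroup.eq_one_iff s).mp h2

/-- the fibre product `3.A₆ ×_{A₆} SL₂(9)` -/
def XX : Subgroup (Mon × Matrix.SpecialLinearGroup (Fin 2) F) :=
  (H.prod ⊤) ⊓ MonoidHom.eqLocus (proj.comp (MonoidHom.fst _ _))
    ((rho e).comp (MonoidHom.snd _ _))

theorem mem_XX (x : Mon × Matrix.SpecialLinearGroup (Fin 2) F) :
    x ∈ XX e ↔ x.1 ∈ H ∧ proj x.1 = rho e x.2 := by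
  unfold XX
  rw [Subgroup.mem_inf, Subgroup.mem_prod]
  constructor
  · rintro ⟨⟨h1, -⟩, h2⟩
    exact ⟨h1, h2⟩
  · rintro ⟨h1, h2⟩
    exact ⟨⟨h1, Subgroup.mem_top _⟩, h2⟩

/-- the projection of the fibre product onto `SL₂(9)` -/
def xi : XX e →* Matrix.SpecialLinearGroup (Fin 2) F :=
  (MonoidHom.snd _ _).comp (XX e).subtype

theorem xi_apply (x : XX e) : xi e x = (x : Mon × Matrix.SpecialLinearGroup (Fin 2) F).2 := rfl

theorem xi_surjective : Function.Surjective (xi e) := by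
  intro s
  obtain ⟨h, hh, hp⟩ := alt_le_Hbar (rho_mem e s)
  exact ⟨⟨(h, s), (mem_XX e _).mpr ⟨hh, hp⟩⟩, rfl⟩

theorem ker_xi_le_center : (xi e).ker ≤ Subgroup.center (XX e) := by
  rintro ⟨⟨h, s⟩, hx⟩ hk
  have hs : s = 1 := hk
  subst hs
  obtain ⟨hh, hp⟩ := (mem_XX e _).mp hx
  have h1 : h.1 = 1 := by
    have : proj h = rho e 1 := hp
    rw [map_one] at this
    exact this
  have hsc : h = scal (h.2 0) := eq_scal_of_mem_H hh h1
  rw [Subgroup.mem_center_iff]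
  rintro ⟨⟨h', s'⟩, hx'⟩
  apply Subtype.ext
  show (h' * h, s' * 1) = (h * h', 1 * s')
  rw [mul_one, one_mul, hsc, Subgroup.mem_center_iff.mp (scal_mem_center _) h']

theorem s1_mem_alt : s1 ∈ alternatingGroup (Fin 6) := by
  rw [Equiv.Perm.mem_alternatingGroup]; decide

theorem s2_mem_alt : s2 ∈ alternatingGroup (Fin 6) := by
  rw [Equiv.Perm.mem_alternatingGroup]; decide

theorem s1_s2_comm : s1 * s2 * s1⁻¹ * s2⁻¹ = 1 := by decide

theorem fin3_inj : ∀ k k' : Fin 3, ((k : ℕ) : ZMod 3) * 2 = ((k' : ℕ) : ZMod 3) * 2 → k = k' := by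
  decide

/-- the kernel of the fibre product meets its commutator subgroup in at least three elements -/
theorem three_le_card (hF2 : (2 : F) ≠ 0) :
    3 ≤ Nat.card ↥((xi e).ker ⊓ commutator (XX e)) := by
  obtain ⟨t1, ht1⟩ := exists_rho_eq e s1_mem_alt
  obtain ⟨t2, ht2⟩ := exists_rho_eq e s2_mem_alt
  let x1 : XX e := ⟨(Hexa.h1, t1), (mem_XX e _).mpr ⟨h1_mem, ht1.symm⟩⟩
  let x2 : XX e := ⟨(Hexa.h2, t2), (mem_XX e _).mpr ⟨h2_mem, ht2.symm⟩⟩
  let y : XX e := x1 * x2 * x1⁻¹ * x2⁻¹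
  have hy : (y : Mon × Matrix.SpecialLinearGroup (Fin 2) F) =
      (scal 2, t1 * t2 * t1⁻¹ * t2⁻¹) := by
    show ((Hexa.h1, t1) * (Hexa.h2, t2) * (Hexa.h1, t1)⁻¹ * (Hexa.h2, t2)⁻¹ :
      Mon × Matrix.SpecialLinearGroup (Fin 2) F) = _
    rw [← comm_h1_h2]; rfl
  have hs₀c : t1 * t2 * t1⁻¹ * t2⁻¹ ∈ Subgroup.center (Matrix.SpecialLinearGroup (Fin 2) F) := by
    apply mem_center_of_rho_eq_one e
    rw [map_mul, map_mul, map_mul, map_inv, map_inv, ht1, ht2]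
    exact s1_s2_comm
  have hs₀2 : (t1 * t2 * t1⁻¹ * t2⁻¹) ^ 2 = 1 := by
    have hc := Cfsg.Agent.Lib.Helper5.card_center_SL2_of_two_ne_zero hF2
    have h := pow_card_eq_one' (G := Subgroup.center (Matrix.SpecialLinearGroup (Fin 2) F))
      (x := ⟨_, hs₀c⟩)
    rw [hc] at h
    exact congrArg Subtype.val h
  have hycomm : y ∈ commutator (XX e) := by
    rw [commutator_def]
    have := Subgroup.commutator_mem_commutator (Subgroup.mem_top x1) (Subgroup.mem_top x2)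
    rw [commutatorElement_def] at this
    exact this
  have h82 : ∀ k : ℕ, ((k : ℕ) : ZMod 3) * (((4 : ℕ) : ZMod 3) * 2) = (k : ZMod 3) * 2 := by
    intro k
    have : (((4 : ℕ) : ZMod 3) * 2) = 2 := by decide
    rw [this]
  have hu : ∀ k : ℕ, (((y ^ 4) ^ k : XX e) : Mon × Matrix.SpecialLinearGroup (Fin 2) F) =
      (scal ((k : ZMod 3) * 2), 1) := by
    intro k
    rw [Subgroup.coe_pow, Subgroup.coe_pow, hy]
    apply Prod.ext
    · rw [Prod.pow_fst, Prod.pow_fst, scal_pow, scal_pow, h82]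
    · rw [Prod.pow_snd, Prod.pow_snd]
      show ((t1 * t2 * t1⁻¹ * t2⁻¹) ^ 4) ^ k = 1
      rw [show 4 = 2 * 2 from rfl, pow_mul, hs₀2, one_pow, one_pow]
  have humem : ∀ k : ℕ, (y ^ 4) ^ k ∈ (xi e).ker ⊓ commutator (XX e) := by
    intro k
    refine Subgroup.mem_inf.mpr ⟨?_, pow_mem (pow_mem hycomm 4) k⟩
    rw [MonoidHom.mem_ker, xi_apply, hu k]
  let φ : Fin 3 → ↥((xi e).ker ⊓ commutator (XX e)) := fun k => ⟨(y ^ 4) ^ (k : ℕ), humem k⟩
  have hinj : Function.Injective φ := by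
    intro k k' hkk
    have h1 : ((y ^ 4) ^ (k : ℕ) : XX e) = (y ^ 4) ^ (k' : ℕ) := congrArg Subtype.val hkk
    have h2 : (((y ^ 4) ^ (k : ℕ) : XX e) : Mon × Matrix.SpecialLinearGroup (Fin 2) F) =
        (((y ^ 4) ^ (k' : ℕ) : XX e) : Mon × Matrix.SpecialLinearGroup (Fin 2) F) := by rw [h1]
    rw [hu, hu] at h2
    have h3 : (scal (((k : ℕ) : ZMod 3) * 2)).2 0 = (scal (((k' : ℕ) : ZMod 3) * 2)).2 0 := by
      rw [(Prod.mk.inj h2).1]
    exact fin3_inj k k' h3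
  calc 3 = Nat.card (Fin 3) := (Nat.card_fin 3).symm
    _ ≤ _ := Nat.card_le_card_of_injective φ hinj

end Cover

end Cfsg.Agent.Lib.Helper35.SL2Nine
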