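import Mathlib
import Cfsg.Agent.Lib.Helper5.SLGen

set_option autoImplicit false

namespace Cfsg.Agent.Lib.Helper35.SLn

open Matrix
open scoped commutatorElement

variable {ι : Type*} [Fintype ι] [DecidableEq ι] {F : Type*} [Field F]

/-- root elements, total in the indices -/
noncomputable def ee (i j : ι) (t : F) : Matrix.SpecialLinearGroup ι F :=
  if h : i ≠ j then Matrix.SpecialLinearGroup.transvection h t else 1

theorem ee_of_ne {i j : ι} (hij : i ≠ j) (t : F) :
    ee i j t = Matrix.SpecialLinearGroup.transvection hij t := by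
  simp [ee, hij]

theorem ee_smul {i j : ι} (hij : i ≠ j) (t : F) (b : ι) :
    ee i j t • (Pi.single b 1 : ι → F) =
      Pi.single b 1 + if b = j then t • Pi.single i 1 else 0 := by
  rw [ee_of_ne hij]
  change (1 + single i j t) *ᵥ (Pi.single b 1 : ι → F) = _
  rw [add_mulVec, one_mulVec, single_mulVec_eq]
  by_cases hb : b = j
  · subst hb; simp
  · simp [hb, Ne.symm hb]

theorem ext_smul {g g' : Matrix.SpecialLinearGroup ι F}
    (h : ∀ b, g • (Pi.single b 1 : ι → F) = g' • Pi.single b 1) : g = g' :=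
  Subtype.ext (Matrix.ext_of_mulVec_single h)

/-- monomial elements -/
def IsMono (g : Matrix.SpecialLinearGroup ι F) (π : Equiv.Perm ι) (d : ι → F) : Prop :=
  ∀ b, g • (Pi.single b 1 : ι → F) = d b • Pi.single (π b) 1

theorem IsMono.one : IsMono (1 : Matrix.SpecialLinearGroup ι F) 1 (fun _ => 1) := by
  intro b; simp

theorem IsMono.mul {g g' : Matrix.SpecialLinearGroup ι F} {π π' : Equiv.Perm ι} {d d' : ι → F}
    (h : IsMono g π d) (h' : IsMono g' π' d') :
    IsMono (g * g') (π * π') (fun b => d' b * d (π' b)) := by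
  intro b
  rw [mul_smul, h' b, smul_comm, h (π' b), smul_smul, Equiv.Perm.mul_apply]

theorem IsMono.ne_zero {g : Matrix.SpecialLinearGroup ι F} {π : Equiv.Perm ι} {d : ι → F}
    (h : IsMono g π d) (b : ι) : d b ≠ 0 := by
  intro h0
  have h1 := h b
  rw [h0, zero_smul] at h1
  have h2 : g⁻¹ • g • (Pi.single b 1 : ι → F) = 0 := by rw [h1, smul_zero]
  rw [inv_smul_smul] at h2
  have := congrFun h2 b
  simp at this

theorem IsMono.inv {g : Matrix.SpecialLinearGroup ι F} {π : Equiv.Perm ι} {d : ι → F}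
    (h : IsMono g π d) : IsMono g⁻¹ π⁻¹ (fun b => (d (π⁻¹ b))⁻¹) := by
  intro b
  have h1 := h (π⁻¹ b)
  have hb : π (π⁻¹ b) = b := by simp
  rw [hb] at h1
  have h2 : g⁻¹ • g • (Pi.single (π⁻¹ b) 1 : ι → F) = g⁻¹ • d (π⁻¹ b) • Pi.single b 1 := by
    rw [h1]
  rw [inv_smul_smul, smul_comm] at h2
  rw [h2, smul_smul, inv_mul_cancel₀ (h.ne_zero _), one_smul]

theorem IsMono.congr {g : Matrix.SpecialLinearGroup ι F} {π π' : Equiv.Perm ι} {d d' : ι → F}
    (h : IsMono g π d) (hπ : π = π') (hd : ∀ b, d b = d' b) : IsMono g π' d' := by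
  subst hπ
  intro b
  rw [← hd b]; exact h b

theorem IsMono.unique {g g' : Matrix.SpecialLinearGroup ι F} {π : Equiv.Perm ι} {d : ι → F}
    (h : IsMono g π d) (h' : IsMono g' π d) : g = g' :=
  ext_smul fun b => by rw [h b, h' b]

theorem IsMono.perm_eq {g : Matrix.SpecialLinearGroup ι F} {π π' : Equiv.Perm ι} {d d' : ι → F}
    (h : IsMono g π d) (h' : IsMono g π' d') : π = π' := by
  ext b
  have h1 := (h b).symm.trans (h' b)
  have h2 := congrFun h1 (π b)
  simp only [Pi.smul_apply, Pi.single_eq_same, smul_eq_mul, mul_one, Pi.single_apply] at h2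
  by_contra hne
  rw [if_neg hne, mul_zero] at h2
  exact h.ne_zero b h2

theorem IsMono.coeff_eq {g : Matrix.SpecialLinearGroup ι F} {π π' : Equiv.Perm ι} {d d' : ι → F}
    (h : IsMono g π d) (h' : IsMono g π' d') (b : ι) : d b = d' b := by
  have hπ := h.perm_eq h'
  subst hπ
  have h1 := (h b).symm.trans (h' b)
  have h2 := congrFun h1 (π b)
  simpa using h2

/-- conjugation of a root element by a monomial element -/
theorem IsMono.conj {g : Matrix.SpecialLinearGroup ι F} {π : Equiv.Perm ι} {d : ι → F}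
    (h : IsMono g π d) {i j : ι} (hij : i ≠ j) (t : F) :
    g * ee i j t * g⁻¹ = ee (π i) (π j) (d i * (d j)⁻¹ * t) := by
  rw [mul_inv_eq_iff_eq_mul]
  have hπ : π i ≠ π j := fun h' => hij (π.injective h')
  refine ext_smul fun b => ?_
  rw [mul_smul, mul_smul, ee_smul hij, h b, smul_comm, ee_smul hπ, smul_add, h b, smul_add]
  congr 1
  by_cases hb : b = j
  · subst hb
    rw [if_pos rfl, if_pos rfl, smul_comm, h i, smul_smul, smul_smul]
    congr 1
    field_simp [h.ne_zero b]
  · have : π b ≠ π j := fun h' => hb (π.injective h')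
    rw [if_neg hb, if_neg this, smul_zero, smul_zero]


theorem ee_zero (i j : ι) : ee i j (0 : F) = 1 := by
  by_cases hij : i ≠ j
  · rw [ee_of_ne hij, Matrix.SpecialLinearGroup.transvection_coeff_zero]
  · simp [ee, hij]

theorem ee_add (i j : ι) (s t : F) : ee i j (s + t) = ee i j s * ee i j t := by
  by_cases hij : i ≠ j
  · rw [ee_of_ne hij, ee_of_ne hij, ee_of_ne hij, Matrix.SpecialLinearGroup.transvection_add]
  · simp [ee, hij]

theorem ee_neg (i j : ι) (t : F) : ee i j (-t) = (ee i j t)⁻¹ := by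
  rw [eq_inv_iff_mul_eq_one, ← ee_add, neg_add_cancel, ee_zero]

theorem ee_pow (i j : ι) (t : F) (n : ℕ) : ee i j t ^ n = ee i j (n • t) := by
  induction n with
  | zero => simp [ee_zero]
  | succ n ih => rw [pow_succ, ih, ← ee_add, succ_nsmul]

theorem ee_comm {i j k l : ι} (hjk : j ≠ k) (hil : i ≠ l) (s t : F) :
    Commute (ee i j s) (ee k l t) := by
  by_cases hij : i ≠ j
  · by_cases hkl : k ≠ l
    · rw [ee_of_ne hij, ee_of_ne hkl]
      apply Subtype.ext
      simp only [Matrix.SpecialLinearGroup.coe_mul, Matrix.SpecialLinearGroup.transvection_coe]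
      simp only [mul_add, add_mul, one_mul, mul_one, Matrix.single_mul_single_of_ne _ _ _ _ hjk,
        Matrix.single_mul_single_of_ne _ _ _ _ hil.symm, add_zero]
      abel
    · have : ee k l t = 1 := by simp [ee, hkl]
      rw [this]; exact Commute.one_right _
  · have : ee i j s = 1 := by simp [ee, hij]
    rw [this]; exact Commute.one_left _

theorem ee_commutator {i j k : ι} (hij : i ≠ j) (hjk : j ≠ k) (hik : i ≠ k) (s t : F) :
    ⁅ee i j s, ee j k t⁆ = ee i k (s * t) := by
  rw [ee_of_ne hij, ee_of_ne hjk, ee_of_ne hik]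
  exact Cfsg.Agent.Lib.Helper5.transvection_commutator hik hij hjk s t

/-- the Weyl elements -/
noncomputable def wS (i j : ι) (u : F) : Matrix.SpecialLinearGroup ι F :=
  ee i j u * ee j i (-u⁻¹) * ee i j u

/-- the coefficients of a Weyl element -/
def dW (i j : ι) (u : F) : ι → F := fun b => if b = i then -u⁻¹ else if b = j then u else 1

theorem ee_smul_of_ne {i j : ι} (hij : i ≠ j) (t : F) {b : ι} (hb : b ≠ j) :
    ee i j t • (Pi.single b 1 : ι → F) = Pi.single b 1 := by
  rw [ee_smul hij, if_neg hb, add_zero]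

theorem ee_smul_snd {i j : ι} (hij : i ≠ j) (t : F) :
    ee i j t • (Pi.single j 1 : ι → F) = Pi.single j 1 + t • Pi.single i 1 := by
  rw [ee_smul hij, if_pos rfl]

theorem isMono_wS {i j : ι} (hij : i ≠ j) {u : F} (hu : u ≠ 0) :
    IsMono (wS i j u) (Equiv.swap i j) (dW i j u) := by
  intro b
  unfold wS dW
  rw [mul_smul, mul_smul]
  by_cases hbi : b = i
  · subst hbi
    rw [if_pos rfl, Equiv.swap_apply_left, ee_smul_of_ne hij u hij, ee_smul_snd hij.symm,
      smul_add, ee_smul_of_ne hij u hij, smul_comm, ee_smul_snd hij, smul_add, smul_smul,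
      neg_mul, inv_mul_cancel₀ hu]
    simp
  · by_cases hbj : b = j
    · subst hbj
      rw [if_neg hbi, if_pos rfl, Equiv.swap_apply_right, ee_smul_snd hij, smul_add,
        ee_smul_of_ne hij.symm _ hij.symm, smul_comm (ee b i (-u⁻¹)) u, ee_smul_snd hij.symm]
      have h1 : (Pi.single b 1 : ι → F) + u • (Pi.single i 1 + (-u⁻¹) • Pi.single b 1) =
          u • Pi.single i 1 := by
        rw [smul_add, smul_smul, mul_neg, mul_inv_cancel₀ hu]
        simp
      rw [h1, smul_comm, ee_smul_of_ne hij u hij]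
    · rw [ee_smul_of_ne hij u hbj, ee_smul_of_ne hij.symm _ hbi, ee_smul_of_ne hij u hbj,
        if_neg hbi, if_neg hbj, one_smul, Equiv.swap_apply_of_ne_of_ne hbi hbj]

/-- diagonal elements -/
noncomputable def dg (d : ι → Fˣ) (h : ∏ i, d i = 1) : Matrix.SpecialLinearGroup ι F :=
  ⟨Matrix.diagonal (fun i => (d i : F)), by
    rw [Matrix.det_diagonal, ← Units.coe_prod, h, Units.val_one]⟩

theorem isMono_dg (d : ι → Fˣ) (h : ∏ i, d i = 1) :
    IsMono (dg d h) 1 (fun b => (d b : F)) := by
  intro b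
  change Matrix.diagonal (fun i => (d i : F)) *ᵥ (Pi.single b 1 : ι → F) = _
  ext a
  simp only [Matrix.mulVec_diagonal, Pi.smul_apply, Equiv.Perm.one_apply, smul_eq_mul,
    Pi.single_apply]
  by_cases hab : a = b
  · subst hab; simp
  · simp [hab]

theorem dg_pow (d : ι → Fˣ) (h : ∏ i, d i = 1) (n : ℕ) (hn : ∀ i, d i ^ n = 1) :
    dg d h ^ n = 1 := by
  apply Subtype.ext
  rw [Matrix.SpecialLinearGroup.coe_pow]
  change Matrix.diagonal (fun i => (d i : F)) ^ n = 1
  rw [Matrix.diagonal_pow]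
  have : (fun i => (d i : F)) ^ n = fun _ => (1 : F) := by
    funext i
    rw [Pi.pow_apply, ← Units.val_pow_eq_pow_val, hn i, Units.val_one]
  rw [this, Matrix.diagonal_one]

end Cfsg.Agent.Lib.Helper35.SLn
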