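import Mathlib
import Cfsg.Agent.Lib.Helper35.SLRoot

set_option autoImplicit false

namespace Cfsg.Agent.Lib.Helper35.SLn

open scoped commutatorElement

section Central

variable {E S : Type*} [Group E] [Group S] (τ : E →* S) (hK : τ.ker ≤ Subgroup.center E)
include hK

theorem comm_congr {x x' y y' : E} (hx : τ x = τ x') (hy : τ y = τ y') : ⁅x, y⁆ = ⁅x', y'⁆ := by
  have key : ∀ (a b z : E), z ∈ Subgroup.center E → ⁅a * z, b⁆ = ⁅a, b⁆ ∧ ⁅a, b * z⁆ = ⁅a, b⁆ := by
    intro a b z hz
    rw [Subgroup.mem_center_iff] at hz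
    have h1 : z * b * z⁻¹ = b := by rw [← hz b, mul_inv_cancel_right]
    have h2 : z * a⁻¹ * z⁻¹ = a⁻¹ := by rw [← hz a⁻¹, mul_inv_cancel_right]
    constructor
    · calc ⁅a * z, b⁆ = a * (z * b * z⁻¹) * a⁻¹ * b⁻¹ := by rw [commutatorElement_def]; group
        _ = ⁅a, b⁆ := by rw [h1, commutatorElement_def]
    · calc ⁅a, b * z⁆ = a * b * (z * a⁻¹ * z⁻¹) * b⁻¹ := by rw [commutatorElement_def]; group
        _ = ⁅a, b⁆ := by rw [h2, commutatorElement_def]
  have hzx : x⁻¹ * x' ∈ Subgroup.center E := hK (by rw [MonoidHom.mem_ker, map_mul, map_inv, hx]; simp)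
  have hzy : y⁻¹ * y' ∈ Subgroup.center E := hK (by rw [MonoidHom.mem_ker, map_mul, map_inv, hy]; simp)
  have e1 : x' = x * (x⁻¹ * x') := by group
  have e2 : y' = y * (y⁻¹ * y') := by group
  rw [e1, e2, (key _ _ _ hzx).1, (key _ _ _ hzy).2]

theorem comm_mem_center {x y : E} (h : Commute (τ x) (τ y)) : ⁅x, y⁆ ∈ Subgroup.center E := by
  apply hK
  rw [MonoidHom.mem_ker, map_commutatorElement, commutatorElement_eq_one_iff_commute]
  exact h

theorem comm_mul_left {x x' y : E} (h : Commute (τ x') (τ y)) :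
    ⁅x * x', y⁆ = ⁅x, y⁆ * ⁅x', y⁆ := by
  have hc := comm_mem_center τ hK h
  rw [Subgroup.mem_center_iff] at hc
  calc ⁅x * x', y⁆ = x * ⁅x', y⁆ * x⁻¹ * ⁅x, y⁆ := by
        simp only [commutatorElement_def]; group
    _ = ⁅x, y⁆ * ⁅x', y⁆ := by rw [hc x, mul_inv_cancel_right, hc]

theorem comm_mul_right {x y y' : E} (h : Commute (τ x) (τ y')) :
    ⁅x, y * y'⁆ = ⁅x, y⁆ * ⁅x, y'⁆ := by
  have hc := comm_mem_center τ hK h
  rw [Subgroup.mem_center_iff] at hc
  calc ⁅x, y * y'⁆ = ⁅x, y⁆ * (y * ⁅x, y'⁆ * y⁻¹) := by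
        simp only [commutatorElement_def]; group
    _ = ⁅x, y⁆ * ⁅x, y'⁆ := by rw [hc y, mul_inv_cancel_right]

theorem comm_one_of_map_one_left {x y : E} (hx : τ x = 1) : ⁅x, y⁆ = 1 := by
  rw [comm_congr τ hK (x' := 1) (y' := y) (by rw [hx, map_one]) rfl]
  simp

theorem comm_one_of_map_one_right {x y : E} (hy : τ y = 1) : ⁅x, y⁆ = 1 := by
  rw [comm_congr τ hK (x' := x) (y' := 1) rfl (by rw [hy, map_one])]
  simp

theorem comm_inv_right {x y : E} (h : Commute (τ x) (τ y)) : ⁅x, y⁻¹⁆ = ⁅x, y⁆⁻¹ := by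
  have h1 := comm_mul_right τ hK (x := x) (y := y) (y' := y⁻¹) (by rw [map_inv]; exact h.inv_right)
  rw [mul_inv_cancel] at h1
  have h2 : ⁅x, (1 : E)⁆ = 1 := by simp
  rw [h2] at h1
  exact eq_inv_of_mul_eq_one_right h1.symm

theorem commute_comm {a b c : E} (hb : Commute (τ a) (τ b)) (hc : Commute (τ a) (τ c)) :
    Commute a ⁅b, c⁆ := by
  have h1 : a * ⁅b, c⁆ * a⁻¹ = ⁅a * b * a⁻¹, a * c * a⁻¹⁆ := by
    simp only [commutatorElement_def]; group
  have h2 : ⁅a * b * a⁻¹, a * c * a⁻¹⁆ = ⁅b, c⁆ := by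
    apply comm_congr τ hK
    · rw [map_mul, map_mul, map_inv, hb.eq, mul_inv_cancel_right]
    · rw [map_mul, map_mul, map_inv, hc.eq, mul_inv_cancel_right]
  rw [h2] at h1
  exact mul_inv_eq_iff_eq_mul.1 h1

theorem commute_of_map_eq {x y y' : E} (hy : τ y = τ y') (h : Commute x y') : Commute x y := by
  rw [← commutatorElement_eq_one_iff_commute, comm_congr τ hK (x := x) (x' := x) rfl hy,
    commutatorElement_eq_one_iff_commute]
  exact h

theorem comm_pow_left {x y : E} (h : Commute (τ x) (τ y)) (n : ℕ) : ⁅x ^ n, y⁆ = ⁅x, y⁆ ^ n := by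
  induction n with
  | zero => simp
  | succ n ih => rw [pow_succ, comm_mul_left τ hK h, ih, pow_succ]

theorem comm_pow_right {x y : E} (h : Commute (τ x) (τ y)) (n : ℕ) : ⁅x, y ^ n⁆ = ⁅x, y⁆ ^ n := by
  induction n with
  | zero => simp
  | succ n ih => rw [pow_succ, comm_mul_right τ hK h, ih, pow_succ]

theorem comm_eq_one_of_coprime {x y : E} {a b : ℕ} (hx : τ x ^ a = 1) (hy : τ y ^ b = 1)
    (hab : Nat.Coprime a b) (h : Commute (τ x) (τ y)) : ⁅x, y⁆ = 1 := by
  have h1 : ⁅x, y⁆ ^ a = 1 := by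
    rw [← comm_pow_left τ hK h]
    exact comm_one_of_map_one_left τ hK (by rw [map_pow, hx])
  have h2 : ⁅x, y⁆ ^ b = 1 := by
    rw [← comm_pow_right τ hK h]
    exact comm_one_of_map_one_right τ hK (by rw [map_pow, hy])
  have h3 := pow_gcd_eq_one.2 ⟨h1, h2⟩
  rwa [hab.gcd_eq_one, pow_one] at h3

theorem conj_comm_eq {x y : E} (e : E) (h : Commute (τ x) (τ y)) :
    ⁅e * x * e⁻¹, e * y * e⁻¹⁆ = ⁅x, y⁆ := by
  have hcen := comm_mem_center τ hK h
  rw [Subgroup.mem_center_iff] at hcen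
  have h1 : e * ⁅x, y⁆ * e⁻¹ = ⁅e * x * e⁻¹, e * y * e⁻¹⁆ := by
    simp only [commutatorElement_def]; group
  rw [← h1, hcen e, mul_inv_cancel_right]

end Central

theorem f3_cases {F : Type*} [Field F] [Fintype F] (h3 : Fintype.card F = 3) (s : F) : s = 0 ∨ s = 1 ∨ s = -1 := by
  classical
  have h30 : (3 : F) = 0 := by
    have := FiniteField.cast_card_eq_zero F
    rw [h3] at this
    exact_mod_cast this
  have h1 : (1 : F) ≠ -1 := by
    intro h
    have h2 : (2 : F) = 0 := by linear_combination h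
    have : (1 : F) = 0 := by linear_combination h30 - h2
    exact one_ne_zero this
  by_contra hs
  rw [not_or, not_or] at hs
  have hcard : ({0, 1, -1, s} : Finset F).card = 4 := by
    rw [Finset.card_insert_of_notMem, Finset.card_insert_of_notMem, Finset.card_insert_of_notMem,
      Finset.card_singleton]
    · simp only [Finset.mem_singleton]; exact fun h => hs.2.2 h.symm
    · simp only [Finset.mem_insert, Finset.mem_singleton, not_or]
      exact ⟨h1, fun h => hs.2.1 h.symm⟩
    · simp only [Finset.mem_insert, Finset.mem_singleton, not_or]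
      refine ⟨zero_ne_one, ?_, fun h => hs.1 h.symm⟩
      intro h
      have : (1 : F) = 0 := by linear_combination h
      exact one_ne_zero this
  have := Finset.card_le_univ ({0, 1, -1, s} : Finset F)
  omega

section Lift

variable {ι : Type*} [Fintype ι] [DecidableEq ι] {F : Type*} [Field F] {E : Type*} [Group E]
  (τ : E →* Matrix.SpecialLinearGroup ι F) (hτ : Function.Surjective τ)
  (hK : τ.ker ≤ Subgroup.center E)

/-- lifts of commuting root elements commute -/
def CLP : Prop := ∀ (i j k l : ι) (s t : F) (x y : E), i ≠ j → k ≠ l → j ≠ k → i ≠ l →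
  τ x = ee i j s → τ y = ee k l t → Commute x y

include hτ hK

theorem cl_free {i j k l m : ι} (_hij : i ≠ j) (hkl : k ≠ l) (hjk : j ≠ k) (hil : i ≠ l)
    (hmi : m ≠ i) (hmj : m ≠ j) (hmk : m ≠ k) (hml : m ≠ l) {s t : F} {x y : E}
    (hx : τ x = ee i j s) (hy : τ y = ee k l t) : Commute x y := by
  obtain ⟨a, ha⟩ := hτ (ee k m t)
  obtain ⟨b, hb⟩ := hτ (ee m l 1)
  have h1 : τ ⁅a, b⁆ = τ y := by
    rw [map_commutatorElement, ha, hb, ee_commutator hmk.symm hml hkl, mul_one, hy]
  refine commute_of_map_eq τ hK h1.symm ?_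
  apply commute_comm τ hK
  · rw [hx, ha]; exact ee_comm hjk hmi.symm s t
  · rw [hx, hb]; exact ee_comm hmj.symm hil s 1

theorem cl_torus {i j k l : ι} (hij : i ≠ j) (hkl : k ≠ l) (hjk : j ≠ k) (hil : i ≠ l)
    (d : ι → Fˣ) (hd : ∏ b, d b = 1) (hdij : d i = d j) (hdkl : d k ≠ d l) {s t : F} {x y : E}
    (hx : τ x = ee i j s) (hy : τ y = ee k l t) : Commute x y := by
  obtain ⟨e, he⟩ := hτ (dg d hd)
  have hm := isMono_dg (F := F) d hd
  set c : F := (d k : F) * (d l : F)⁻¹ with hc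
  have hc1 : c - 1 ≠ 0 := by
    intro h0
    apply hdkl
    have : (d k : F) = d l := by
      have h1 : c = 1 := sub_eq_zero.1 h0
      rw [hc] at h1
      field_simp at h1
      exact h1
    exact Units.ext this
  have inv : ∀ (t : F) (y y' : E), τ y = ee k l t → τ y' = ee k l (c * t) →
      ⁅x, y⁆ = ⁅x, y'⁆ := by
    intro t y y' hy hy'
    rw [← conj_comm_eq τ hK e (by rw [hx, hy]; exact ee_comm hjk hil s t)]
    apply comm_congr τ hK
    · rw [map_mul, map_mul, map_inv, he, hx, hm.conj hij, hdij]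
      simp
    · rw [map_mul, map_mul, map_inv, he, hy, hm.conj hkl, hy']
      simp [hc]
  obtain ⟨y0, hy0⟩ := hτ (ee k l (t / (c - 1)))
  obtain ⟨y1, hy1⟩ := hτ (ee k l (c * (t / (c - 1))))
  have h3 : τ y = τ (y1 * y0⁻¹) := by
    rw [hy, map_mul, map_inv, hy1, hy0, ← ee_neg, ← ee_add]
    congr 1
    field_simp
    ring
  have hc0 : Commute (τ x) (τ y0) := by rw [hx, hy0]; exact ee_comm hjk hil _ _
  rw [← commutatorElement_eq_one_iff_commute, comm_congr τ hK (rfl : τ x = τ x) h3,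
    comm_mul_right τ hK (by rw [map_inv]; exact hc0.inv_right), comm_inv_right τ hK hc0,
    inv _ y0 y1 hy0 hy1, mul_inv_cancel]

omit hτ in
theorem comm_conj_mono {x y : E} (e : E) {π : Equiv.Perm ι} {d : ι → F} (hm : IsMono (τ e) π d)
    {i j k l : ι} (hij : i ≠ j) (hkl : k ≠ l) {s t : F} (hx : τ x = ee i j s)
    (hy : τ y = ee k l t) (hcomm : Commute (ee i j s) (ee k l t)) {x' y' : E}
    (hx' : τ x' = ee (π i) (π j) (d i * (d j)⁻¹ * s))
    (hy' : τ y' = ee (π k) (π l) (d k * (d l)⁻¹ * t)) : ⁅x, y⁆ = ⁅x', y'⁆ := by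
  rw [← conj_comm_eq τ hK e (by rw [hx, hy]; exact hcomm)]
  apply comm_congr τ hK
  · rw [map_mul, map_mul, map_inv, hx, hm.conj hij, hx']
  · rw [map_mul, map_mul, map_inv, hy, hm.conj hkl, hy']

theorem cl_weyl [Fintype F] (h3 : Fintype.card F = 3) {i j k l : ι} (hij : i ≠ j) (hkl : k ≠ l)
    (hjk : j ≠ k) (hil : i ≠ l) (hik : i ≠ k) (hjl : j ≠ l) {s t : F} {x y : E}
    (hx : τ x = ee i j s) (hy : τ y = ee k l t) : Commute x y := by
  have L : ∀ (a b : ι) (s : F), ∃ z, τ z = ee a b s := fun a b s => hτ _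
  choose lf hlf using L
  obtain ⟨e1, he1⟩ := hτ (wS i k 1)
  obtain ⟨e2, he2⟩ := hτ (wS j l 1)
  have hm1 : IsMono (τ e1) (Equiv.swap i k) (dW i k (1 : F)) := by
    rw [he1]; exact isMono_wS hik one_ne_zero
  have hm2 : IsMono (τ e2) (Equiv.swap j l) (dW j l (1 : F)) := by
    rw [he2]; exact isMono_wS hjl one_ne_zero
  have W1 : ∀ s t : F, ⁅lf i j s, lf k l t⁆ = ⁅lf k j (-s), lf i l t⁆ := by
    intro s t
    refine comm_conj_mono τ hK e1 hm1 hij hkl (hlf i j s) (hlf k l t) (ee_comm hjk hil s t) ?_ ?_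
    · rw [hlf, Equiv.swap_apply_left, Equiv.swap_apply_of_ne_of_ne hij.symm hjk]
      congr 1
      simp [dW, hij.symm, hjk]
    · rw [hlf, Equiv.swap_apply_right, Equiv.swap_apply_of_ne_of_ne hil.symm hkl.symm]
      congr 1
      simp [dW, hik.symm, hil.symm, hkl.symm]
  have W2 : ∀ s t : F, ⁅lf i j s, lf k l t⁆ = ⁅lf i l (-s), lf k j t⁆ := by
    intro s t
    refine comm_conj_mono τ hK e2 hm2 hij hkl (hlf i j s) (hlf k l t) (ee_comm hjk hil s t) ?_ ?_
    · rw [hlf, Equiv.swap_apply_left, Equiv.swap_apply_of_ne_of_ne hij hil]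
      congr 1
      simp [dW, hij, hil]
    · rw [hlf, Equiv.swap_apply_right, Equiv.swap_apply_of_ne_of_ne hjk.symm hkl]
      congr 1
      simp [dW, hjk.symm, hkl, hjl.symm]
  have hcomm : ∀ a b : F, Commute (τ (lf k j a)) (τ (lf i l b)) := by
    intro a b; rw [hlf, hlf]; exact ee_comm hij.symm hkl a b
  have g0l : ∀ t : F, ⁅lf k j 0, lf i l t⁆ = 1 := fun t =>
    comm_one_of_map_one_left τ hK (by rw [hlf, ee_zero])
  have g0r : ∀ s : F, ⁅lf k j s, lf i l 0⁆ = 1 := fun s =>
    comm_one_of_map_one_right τ hK (by rw [hlf, ee_zero])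
  have gaddl : ∀ a a' b : F, ⁅lf k j (a + a'), lf i l b⁆ =
      ⁅lf k j a, lf i l b⁆ * ⁅lf k j a', lf i l b⁆ := by
    intro a a' b
    rw [← comm_mul_left τ hK (hcomm a' b)]
    exact comm_congr τ hK (by rw [map_mul, hlf, hlf, hlf, ee_add]) rfl
  have gaddr : ∀ a b b' : F, ⁅lf k j a, lf i l (b + b')⁆ =
      ⁅lf k j a, lf i l b⁆ * ⁅lf k j a, lf i l b'⁆ := by
    intro a b b'
    rw [← comm_mul_right τ hK (hcomm a b')]
    exact comm_congr τ hK rfl (by rw [map_mul, hlf, hlf, hlf, ee_add])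
  have gnegl : ∀ a b : F, ⁅lf k j (-a), lf i l b⁆ = ⁅lf k j a, lf i l b⁆⁻¹ := by
    intro a b
    have := gaddl a (-a) b
    rw [add_neg_cancel, g0l] at this
    exact eq_inv_of_mul_eq_one_right this.symm
  have gnegr : ∀ a b : F, ⁅lf k j a, lf i l (-b)⁆ = ⁅lf k j a, lf i l b⁆⁻¹ := by
    intro a b
    have := gaddr a b (-b)
    rw [add_neg_cancel, g0r] at this
    exact eq_inv_of_mul_eq_one_right this.symm
  have skew : ∀ a b : F, ⁅lf k j a, lf i l b⁆ = ⁅lf k j b, lf i l a⁆⁻¹ := by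
    intro a b
    have h1 := (W1 (-a) b).symm.trans (W2 (-a) b)
    rw [neg_neg, ← commutatorElement_inv (lf k j b)] at h1
    exact h1
  have h11 : ⁅lf k j 1, lf i l 1⁆ = 1 := by
    have hsq : ⁅lf k j 1, lf i l 1⁆ * ⁅lf k j 1, lf i l 1⁆ = 1 := by
      nth_rewrite 2 [skew 1 1]
      exact mul_inv_cancel _
    have hcube : ⁅lf k j 1, lf i l 1⁆ * ⁅lf k j 1, lf i l 1⁆ * ⁅lf k j 1, lf i l 1⁆ = 1 := by
      rw [← gaddl, ← gaddl]
      have h30 : (1 + 1 + 1 : F) = 0 := by
        have := FiniteField.cast_card_eq_zero F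
        rw [h3] at this
        have h4 : ((3 : ℕ) : F) = 1 + 1 + 1 := by norm_num
        rw [← h4]; exact this
      rw [h30, g0l]
    rw [hsq, one_mul] at hcube
    exact hcube
  have hall : ∀ a b : F, ⁅lf k j a, lf i l b⁆ = 1 := by
    intro a b
    rcases f3_cases h3 a with rfl | rfl | rfl
    · exact g0l b
    · rcases f3_cases h3 b with rfl | rfl | rfl
      · exact g0r 1
      · exact h11
      · rw [gnegr, h11, inv_one]
    · rcases f3_cases h3 b with rfl | rfl | rfl
      · exact g0r _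
      · rw [gnegl, h11, inv_one]
      · rw [gnegl, gnegr, h11, inv_one, inv_one]
  rw [← commutatorElement_eq_one_iff_commute,
    comm_congr τ hK (hx.trans (hlf i j s).symm) (hy.trans (hlf k l t).symm), W1, hall]

theorem clp_of [Fintype F] (hn : 3 ≤ Fintype.card ι)
    (h3 : Fintype.card ι = 3 → ∃ a : Fˣ, a ^ 3 ≠ 1)
    (h4 : Fintype.card ι = 4 → (∃ a : Fˣ, a ^ 2 ≠ 1) ∨ Fintype.card F = 3) : CLP τ := by
  intro i j k l s t x y hij hkl hjk hil hx hy
  by_cases hm : ∃ m, m ≠ i ∧ m ≠ j ∧ m ≠ k ∧ m ≠ l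
  · obtain ⟨m, h1, h2, h3, h4⟩ := hm
    exact cl_free τ hτ hK hij hkl hjk hil h1 h2 h3 h4 hx hy
  · have huniv : ∀ m, m = i ∨ m = j ∨ m = k ∨ m = l := by
      intro m
      by_contra h
      rw [not_or, not_or, not_or] at h
      exact hm ⟨m, h.1, h.2.1, h.2.2.1, h.2.2.2⟩
    by_cases hik : i = k
    · subst hik
      by_cases hjl : j = l
      · subst hjl
        have hsub : (Finset.univ : Finset ι) ⊆ {i, j} := by
          intro m _
          rw [Finset.mem_insert, Finset.mem_singleton]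
          rcases huniv m with h | h | h | h
          · exact Or.inl h
          · exact Or.inr h
          · exact Or.inl h
          · exact Or.inr h
        have : Fintype.card ι ≤ 2 := (Finset.card_le_card hsub).trans Finset.card_le_two
        omega
      · have hsub : (Finset.univ : Finset ι) ⊆ {i, j, l} := by
          intro m _
          simp only [Finset.mem_insert, Finset.mem_singleton]
          rcases huniv m with h | h | h | h
          · exact Or.inl h
          · exact Or.inr (Or.inl h)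
          · exact Or.inl h
          · exact Or.inr (Or.inr h)
        have hc3 : Fintype.card ι = 3 :=
          le_antisymm ((Finset.card_le_card hsub).trans Finset.card_le_three) hn
        obtain ⟨a, ha⟩ := h3 hc3
        refine cl_torus τ hτ hK hij hkl hjk hil
          (Pi.mulSingle i a * Pi.mulSingle j a * Pi.mulSingle l (a⁻¹ ^ 2)) ?_ ?_ ?_ hx hy
        · simp only [Pi.mul_apply, Finset.prod_mul_distrib, Fintype.prod_pi_mulSingle']
          group
        · simp [Pi.mulSingle_apply, hij, hij.symm, hil, hjl]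
        · simp only [Pi.mul_apply, Pi.mulSingle_apply, hij, hij.symm, hil, hil.symm, hjl,
            Ne.symm hjl, if_true, if_false, mul_one, one_mul]
          intro h
          apply ha
          calc a ^ 3 = a * a ^ 2 := by group
            _ = a⁻¹ ^ 2 * a ^ 2 := by rw [← h]
            _ = 1 := by group
    · by_cases hjl : j = l
      · subst hjl
        have hsub : (Finset.univ : Finset ι) ⊆ {i, j, k} := by
          intro m _
          simp only [Finset.mem_insert, Finset.mem_singleton]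
          rcases huniv m with h | h | h | h
          · exact Or.inl h
          · exact Or.inr (Or.inl h)
          · exact Or.inr (Or.inr h)
          · exact Or.inr (Or.inl h)
        have hc3 : Fintype.card ι = 3 :=
          le_antisymm ((Finset.card_le_card hsub).trans Finset.card_le_three) hn
        obtain ⟨a, ha⟩ := h3 hc3
        refine cl_torus τ hτ hK hij hkl hjk hil
          (Pi.mulSingle i a * Pi.mulSingle j a * Pi.mulSingle k (a⁻¹ ^ 2)) ?_ ?_ ?_ hx hy
        · simp only [Pi.mul_apply, Finset.prod_mul_distrib, Fintype.prod_pi_mulSingle']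
          group
        · simp [Pi.mulSingle_apply, hij, hij.symm, hik, hjk]
        · simp only [Pi.mul_apply, Pi.mulSingle_apply, hij, hij.symm, hik, Ne.symm hik, hjk,
            hjk.symm, if_true, if_false, mul_one, one_mul]
          intro h
          apply ha
          calc a ^ 3 = a * a ^ 2 := by group
            _ = a⁻¹ ^ 2 * a ^ 2 := by rw [h]
            _ = 1 := by group
      · have hsub : (Finset.univ : Finset ι) ⊆ {i, j, k, l} := by
          intro m _
          simp only [Finset.mem_insert, Finset.mem_singleton]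
          exact huniv m
        have hc4' : ({i, j, k, l} : Finset ι).card = 4 := by
          rw [Finset.card_insert_of_notMem, Finset.card_insert_of_notMem,
            Finset.card_insert_of_notMem, Finset.card_singleton]
          · simp only [Finset.mem_singleton]; exact hkl
          · simp only [Finset.mem_insert, Finset.mem_singleton, not_or]; exact ⟨hjk, hjl⟩
          · simp only [Finset.mem_insert, Finset.mem_singleton, not_or]; exact ⟨hij, hik, hil⟩
        have hc4 : Fintype.card ι = 4 := by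
          have h1 := Finset.card_le_card hsub
          have h2 := Finset.card_le_univ ({i, j, k, l} : Finset ι)
          rw [hc4'] at h1 h2
          exact le_antisymm h1 h2
        rcases h4 hc4 with ⟨a, ha⟩ | hF3
        · refine cl_torus τ hτ hK hij hkl hjk hil
            (Pi.mulSingle k a * Pi.mulSingle l a⁻¹) ?_ ?_ ?_ hx hy
          · simp only [Pi.mul_apply, Finset.prod_mul_distrib, Fintype.prod_pi_mulSingle']
            group
          · simp [Pi.mulSingle_apply, hik, hil, hjk, hjl]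
          · simp only [Pi.mul_apply, Pi.mulSingle_apply, hkl, hkl.symm, if_true, if_false,
              mul_one, one_mul]
            intro h
            apply ha
            calc a ^ 2 = a * a := pow_two a
              _ = a⁻¹ * a := by rw [← h]
              _ = 1 := inv_mul_cancel a
        · exact cl_weyl τ hτ hK hF3 hij hkl hjk hil hik hjl hx hy

end Lift

theorem card_cubes_ge {F : Type*} [Field F] [Fintype F] [DecidableEq F] :
    Fintype.card F + 2 ≤ 3 * (Finset.univ.image (fun x : F => x ^ 3)).card := by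
  have h1 : ((Finset.univ : Finset F).erase 0).card ≤
      3 * (((Finset.univ : Finset F).erase 0).image (fun x : F => x ^ 3)).card := by
    apply Finset.card_le_mul_card_image
    intro b _
    have hsub : (((Finset.univ : Finset F).erase 0).filter (fun x => x ^ 3 = b)) ⊆
        (Polynomial.nthRoots 3 b).toFinset := by
      intro x hx
      rw [Finset.mem_filter] at hx
      rw [Multiset.mem_toFinset, Polynomial.mem_nthRoots (by norm_num)]
      exact hx.2
    exact (Finset.card_le_card hsub).trans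
      ((Multiset.toFinset_card_le _).trans (Polynomial.card_nthRoots 3 b))
  have h2 : (((Finset.univ : Finset F).erase 0).image (fun x : F => x ^ 3)) ⊆
      (Finset.univ.image (fun x : F => x ^ 3)).erase 0 := by
    intro y hy
    rw [Finset.mem_image] at hy
    obtain ⟨x, hx, rfl⟩ := hy
    rw [Finset.mem_erase] at hx ⊢
    exact ⟨pow_ne_zero 3 hx.1, Finset.mem_image_of_mem _ (Finset.mem_univ _)⟩
  have h3 := Finset.card_le_card h2
  have h0 : (0 : F) ∈ Finset.univ.image (fun x : F => x ^ 3) :=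
    Finset.mem_image.2 ⟨0, Finset.mem_univ _, by simp⟩
  rw [Finset.card_erase_of_mem h0] at h3
  rw [Finset.card_erase_of_mem (Finset.mem_univ _), Finset.card_univ] at h1
  have h4 : 0 < (Finset.univ.image (fun x : F => x ^ 3)).card := Finset.card_pos.2 ⟨0, h0⟩
  have h5 : 2 ≤ Fintype.card F := Fintype.one_lt_card
  omega

theorem subfield_eq_top_of_cubes {F : Type*} [Field F] [Fintype F] (K : Subfield F)
    (hK : ∀ a : F, a ^ 3 ∈ K) (hq : Fintype.card F ≠ 4) : K = ⊤ := by
  classical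
  have hC := card_cubes_ge (F := F)
  have hsub : ((Finset.univ.image (fun x : F => x ^ 3) : Finset F) : Set F) ⊆ (K : Set F) := by
    intro y hy
    rw [Finset.mem_coe, Finset.mem_image] at hy
    obtain ⟨x, _, rfl⟩ := hy
    exact hK x
  have hle : (Finset.univ.image (fun x : F => x ^ 3)).card ≤ Nat.card K := by
    rw [← Set.ncard_coe_finset, show Nat.card K = (K : Set F).ncard from Nat.card_coe_set_eq _]
    exact Set.ncard_le_ncard hsub (Set.toFinite _)
  have hpow : Nat.card F = Nat.card K ^ Module.finrank K F :=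
    Module.natCard_eq_pow_finrank (K := K) (V := F)
  rw [Nat.card_eq_fintype_card] at hpow
  have hr : 0 < Module.finrank K F := Module.finrank_pos
  by_cases h1 : Module.finrank K F = 1
  · rw [h1, pow_one] at hpow
    have h2 : K.toSubring.toAddSubgroup = ⊤ := by
      apply AddSubgroup.eq_top_of_card_eq
      rw [Nat.card_eq_fintype_card (α := F), hpow]
      rfl
    rw [eq_top_iff]
    intro x _
    have : x ∈ K.toSubring.toAddSubgroup := by rw [h2]; trivial
    exact this
  · exfalso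
    have h2 : 2 ≤ Module.finrank K F := by omega
    have hL : 1 ≤ Nat.card K := Nat.card_pos
    have h3 : Nat.card K ^ 2 ≤ Fintype.card F := by
      rw [hpow]
      exact Nat.pow_le_pow_right hL h2
    have h4 : Fintype.card F + 2 ≤ 3 * Nat.card K := hC.trans (by omega)
    have h5 : 2 ≤ Fintype.card F := Fintype.one_lt_card
    have h6 : Fintype.card F ≤ 4 := by nlinarith
    have h7 : 2 ≤ Nat.card K := by omega
    have h8 : 4 ≤ Fintype.card F := by nlinarith
    omega

section CC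

variable {ι : Type*} [Fintype ι] [DecidableEq ι] {F : Type*} [Field F] {E : Type*} [Group E]
  (τ : E →* Matrix.SpecialLinearGroup ι F) (hτ : Function.Surjective τ)
  (hK : τ.ker ≤ Subgroup.center E) (hCL : CLP τ)

/-- canonical commutators of lifts -/
noncomputable def cc (i k j : ι) (s u : F) : E :=
  ⁅Function.surjInv hτ (ee i k s), Function.surjInv hτ (ee k j u)⁆

include hK

theorem cc_eq {i k j : ι} {s u : F} {x y : E} (hx : τ x = ee i k s) (hy : τ y = ee k j u) :
    ⁅x, y⁆ = cc τ hτ i k j s u :=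
  comm_congr τ hK (by rw [hx, Function.surjInv_eq hτ]) (by rw [hy, Function.surjInv_eq hτ])

omit hK in
theorem map_cc {i k j : ι} (hik : i ≠ k) (hkj : k ≠ j) (hij : i ≠ j) (s u : F) :
    τ (cc τ hτ i k j s u) = ee i j (s * u) := by
  unfold cc
  rw [map_commutatorElement, Function.surjInv_eq hτ, Function.surjInv_eq hτ,
    ee_commutator hik hkj hij]

include hCL

theorem cc_add_left {i k j : ι} (hik : i ≠ k) (hkj : k ≠ j) (hij : i ≠ j) (s s' u : F) :
    cc τ hτ i k j (s + s') u = cc τ hτ i k j s u * cc τ hτ i k j s' u := by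
  obtain ⟨x, hx⟩ := hτ (ee i k s)
  obtain ⟨x', hx'⟩ := hτ (ee i k s')
  obtain ⟨y, hy⟩ := hτ (ee k j u)
  rw [← cc_eq τ hτ hK hx hy, ← cc_eq τ hτ hK hx' hy,
    ← cc_eq τ hτ hK (x := x * x') (by rw [map_mul, hx, hx', ee_add]) hy]
  have h1 : τ ⁅x', y⁆ = ee i j (s' * u) := by
    rw [map_commutatorElement, hx', hy, ee_commutator hik hkj hij]
  have h2 : τ ⁅x, y⁆ = ee i j (s * u) := by
    rw [map_commutatorElement, hx, hy, ee_commutator hik hkj hij]
  have c1 : Commute x ⁅x', y⁆ := hCL i k i j s (s' * u) x _ hik hij hik.symm hij hx h1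
  have c2 : Commute ⁅x', y⁆ ⁅x, y⁆ := hCL i j i j _ _ _ _ hij hij hij.symm hij h1 h2
  calc ⁅x * x', y⁆ = x * ⁅x', y⁆ * x⁻¹ * ⁅x, y⁆ := by
        simp only [commutatorElement_def]; group
    _ = ⁅x, y⁆ * ⁅x', y⁆ := by rw [c1.eq, mul_inv_cancel_right, c2.eq]

theorem cc_add_right {i k j : ι} (hik : i ≠ k) (hkj : k ≠ j) (hij : i ≠ j) (s u u' : F) :
    cc τ hτ i k j s (u + u') = cc τ hτ i k j s u * cc τ hτ i k j s u' := by
  obtain ⟨x, hx⟩ := hτ (ee i k s)
  obtain ⟨y, hy⟩ := hτ (ee k j u)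
  obtain ⟨y', hy'⟩ := hτ (ee k j u')
  rw [← cc_eq τ hτ hK hx hy, ← cc_eq τ hτ hK hx hy',
    ← cc_eq τ hτ hK (y := y * y') hx (by rw [map_mul, hy, hy', ee_add])]
  have h1 : τ ⁅x, y'⁆ = ee i j (s * u') := by
    rw [map_commutatorElement, hx, hy', ee_commutator hik hkj hij]
  have c1 : Commute y ⁅x, y'⁆ := hCL k j i j u (s * u') y _ hkj hij hij.symm hkj hy h1
  calc ⁅x, y * y'⁆ = ⁅x, y⁆ * (y * ⁅x, y'⁆ * y⁻¹) := by
        simp only [commutatorElement_def]; group
    _ = ⁅x, y⁆ * ⁅x, y'⁆ := by rw [c1.eq, mul_inv_cancel_right]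

omit hCL in
theorem cc_zero_left (i k j : ι) (u : F) : cc τ hτ i k j 0 u = 1 := by
  unfold cc
  exact comm_one_of_map_one_left τ hK (by rw [Function.surjInv_eq hτ, ee_zero])

omit hCL in
theorem cc_zero_right (i k j : ι) (s : F) : cc τ hτ i k j s 0 = 1 := by
  unfold cc
  exact comm_one_of_map_one_right τ hK (by rw [Function.surjInv_eq hτ, ee_zero])

theorem cc_neg_left {i k j : ι} (hik : i ≠ k) (hkj : k ≠ j) (hij : i ≠ j) (s u : F) :
    cc τ hτ i k j (-s) u = (cc τ hτ i k j s u)⁻¹ := by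
  have := cc_add_left τ hτ hK hCL hik hkj hij s (-s) u
  rw [add_neg_cancel, cc_zero_left τ hτ hK] at this
  exact eq_inv_of_mul_eq_one_right this.symm

theorem cc_neg_right {i k j : ι} (hik : i ≠ k) (hkj : k ≠ j) (hij : i ≠ j) (s u : F) :
    cc τ hτ i k j s (-u) = (cc τ hτ i k j s u)⁻¹ := by
  have := cc_add_right τ hτ hK hCL hik hkj hij s u (-u)
  rw [add_neg_cancel, cc_zero_right τ hτ hK] at this
  exact eq_inv_of_mul_eq_one_right this.symm

/-- associativity with a fourth index -/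
theorem cc_assoc {i k j m : ι} (hik : i ≠ k) (hkj : k ≠ j) (hij : i ≠ j) (him : i ≠ m)
    (hkm : k ≠ m) (hmj : m ≠ j) (s t u : F) :
    cc τ hτ i k j s (t * u) = cc τ hτ i m j (s * t) u := by
  obtain ⟨a, ha⟩ := hτ (ee i k s)
  obtain ⟨b, hb⟩ := hτ (ee k m t)
  obtain ⟨c, hc⟩ := hτ (ee m j u)
  have hbc : τ ⁅b, c⁆ = ee k j (t * u) := by
    rw [map_commutatorElement, hb, hc, ee_commutator hkm hmj hkj]
  obtain ⟨y, hy⟩ : ∃ y, y = ⁅a, b⁆ := ⟨_, rfl⟩
  have hτy : τ y = ee i m (s * t) := by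
    rw [hy, map_commutatorElement, ha, hb, ee_commutator hik hkm him]
  have hyc : τ ⁅y, c⁆ = ee i j (s * t * u) := by
    rw [map_commutatorElement, hτy, hc, ee_commutator him hmj hij]
  rw [← cc_eq τ hτ hK ha hbc, ← cc_eq τ hτ hK hτy hc]
  have c1 : Commute a c := hCL i k m j s u a c hik hmj hkm hij ha hc
  have c2 : Commute y ⁅b, c⁆ := hCL i m k j _ _ y _ him hkj hkm.symm hij hτy hbc
  have c3 : Commute ⁅b, c⁆ ⁅y, c⁆ := hCL k j i j _ _ _ _ hkj hij hij.symm hkj hbc hyc
  have e1 : a * c * a⁻¹ = c := by rw [c1.eq, mul_inv_cancel_right]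
  have e2 : a * b * a⁻¹ = y * b := by rw [hy]; simp only [commutatorElement_def]; group
  calc ⁅a, ⁅b, c⁆⁆ = ⁅a * b * a⁻¹, a * c * a⁻¹⁆ * ⁅b, c⁆⁻¹ := by
        simp only [commutatorElement_def]; group
    _ = ⁅y * b, c⁆ * ⁅b, c⁆⁻¹ := by rw [e1, e2]
    _ = y * ⁅b, c⁆ * y⁻¹ * ⁅y, c⁆ * ⁅b, c⁆⁻¹ := by
        simp only [commutatorElement_def]; group
    _ = ⁅y, c⁆ := by rw [c2.eq, mul_inv_cancel_right, c3.eq, mul_inv_cancel_right]

omit hCL in
theorem cc_cube [Fintype F] {i k j : ι} (hik : i ≠ k) (hkj : k ≠ j) (hij : i ≠ j) (a : Fˣ)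
    (s u : F) : cc τ hτ i k j ((a : F) ^ 3 * s) u = cc τ hτ i k j s ((a : F) ^ 3 * u) := by
  obtain ⟨d, hd⟩ : ∃ d : ι → Fˣ, d = Pi.mulSingle i a * Pi.mulSingle j a *
      Pi.mulSingle k (a⁻¹ ^ 2) := ⟨_, rfl⟩
  have hprod : ∏ b, d b = 1 := by
    rw [hd]
    simp only [Pi.mul_apply, Finset.prod_mul_distrib, Fintype.prod_pi_mulSingle']
    group
  have hdi : d i = a := by rw [hd]; simp [Pi.mulSingle_apply, hij, hik]
  have hdj : d j = a := by rw [hd]; simp [Pi.mulSingle_apply, hij.symm, hkj.symm]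
  have hdk : d k = a⁻¹ ^ 2 := by rw [hd]; simp [Pi.mulSingle_apply, hik.symm, hkj]
  obtain ⟨e, he⟩ := hτ (dg d hprod)
  have hm : IsMono (τ e) 1 (fun b => (d b : F)) := by rw [he]; exact isMono_dg d hprod
  have ha0 : (a : F) ≠ 0 := a.ne_zero
  have key : ∀ s u : F, cc τ hτ i k j ((a : F) ^ 3 * s) (((a : F)⁻¹) ^ 3 * u) =
      cc τ hτ i k j s u := by
    intro s u
    obtain ⟨x, hx⟩ := hτ (ee i k s)
    obtain ⟨y, hy⟩ := hτ (ee k j u)
    have h1 : τ (e * x * e⁻¹) = ee i k ((a : F) ^ 3 * s) := by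
      rw [map_mul, map_mul, map_inv, hx, hm.conj hik, hdi, hdk]
      simp only [Equiv.Perm.one_apply]
      congr 1
      simp only [Units.val_pow_eq_pow_val, Units.val_inv_eq_inv_val]
      field_simp
    have h2 : τ (e * y * e⁻¹) = ee k j (((a : F)⁻¹) ^ 3 * u) := by
      rw [map_mul, map_mul, map_inv, hy, hm.conj hkj, hdj, hdk]
      simp only [Equiv.Perm.one_apply]
      congr 1
      simp only [Units.val_pow_eq_pow_val, Units.val_inv_eq_inv_val]
      field_simp
    rw [← cc_eq τ hτ hK h1 h2, ← cc_eq τ hτ hK hx hy]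
    have h3 : ⁅e * x * e⁻¹, e * y * e⁻¹⁆ = e * ⁅x, y⁆ * e⁻¹ := by
      simp only [commutatorElement_def]; group
    have hxy : τ ⁅x, y⁆ = ee i j (s * u) := by
      rw [map_commutatorElement, hx, hy, ee_commutator hik hkj hij]
    have hcomm : Commute e ⁅x, y⁆ := by
      rw [← commutatorElement_eq_one_iff_commute]
      obtain ⟨n, hp, hn⟩ := FiniteField.card F (ringChar F)
      refine comm_eq_one_of_coprime τ hK (a := Fintype.card F - 1) (b := ringChar F) ?_ ?_ ?_ ?_
      · rw [he]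
        refine dg_pow d hprod _ (fun b => ?_)
        apply Units.ext
        rw [Units.val_pow_eq_pow_val, Units.val_one]
        exact FiniteField.pow_card_sub_one_eq_one _ (Units.ne_zero _)
      · rw [hxy, ee_pow, nsmul_eq_mul, CharP.cast_eq_zero F (ringChar F), zero_mul, ee_zero]
      · rw [Nat.coprime_comm, Nat.Prime.coprime_iff_not_dvd hp]
        intro hdvd
        have h5 : ringChar F ∣ Fintype.card F := by rw [hn]; exact dvd_pow_self _ n.ne_zero
        have h6 : 0 < Fintype.card F := Fintype.card_pos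
        have h7 : ringChar F ∣ 1 := by
          have := Nat.dvd_sub h5 hdvd
          rwa [Nat.sub_sub_self h6] at this
        exact hp.one_lt.ne' (Nat.dvd_one.1 h7)
      · rw [hxy]
        have := hm.conj hij (s * u)
        rw [hdi, hdj, mul_inv_cancel₀ ha0, one_mul] at this
        exact mul_inv_eq_iff_eq_mul.1 this
    rw [h3, hcomm.eq, mul_inv_cancel_right]
  have h := key s ((a : F) ^ 3 * u)
  have h' : ((a : F)⁻¹) ^ 3 * ((a : F) ^ 3 * u) = u := by field_simp
  rw [h'] at h
  exact h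

end CC

section Stein

variable {ι : Type*} [Fintype ι] [DecidableEq ι] {F : Type*} [Field F] [Fintype F]
  {E : Type*} [Group E]
  (τ : E →* Matrix.SpecialLinearGroup ι F) (hτ : Function.Surjective τ)

omit [DecidableEq ι] in
theorem exists_ne2 (hn : 3 ≤ Fintype.card ι) (i j : ι) : ∃ m, m ≠ i ∧ m ≠ j := by
  classical
  by_contra hm
  have hsub : (Finset.univ : Finset ι) ⊆ {i, j} := by
    intro m _
    rw [Finset.mem_insert, Finset.mem_singleton]
    by_contra h
    rw [not_or] at h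
    exact hm ⟨m, h.1, h.2⟩
  have : Fintype.card ι ≤ 2 := (Finset.card_le_card hsub).trans Finset.card_le_two
  omega

omit [DecidableEq ι] in
theorem exists_ne3 (hn : 4 ≤ Fintype.card ι) (i k j : ι) : ∃ m, m ≠ i ∧ m ≠ k ∧ m ≠ j := by
  classical
  by_contra hm
  have hsub : (Finset.univ : Finset ι) ⊆ {i, k, j} := by
    intro m _
    simp only [Finset.mem_insert, Finset.mem_singleton]
    by_contra h
    rw [not_or, not_or] at h
    exact hm ⟨m, h.1, h.2.1, h.2.2⟩
  have : Fintype.card ι ≤ 3 := (Finset.card_le_card hsub).trans Finset.card_le_three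
  omega

variable (hK : τ.ker ≤ Subgroup.center E) (hCL : CLP τ)
  (hn : 3 ≤ Fintype.card ι) (h3 : Fintype.card ι = 3 → Fintype.card F ≠ 4)

include hK hCL

omit [Fintype F] in
theorem cc_indep {i k m j : ι} (hik : i ≠ k) (hkj : k ≠ j) (hij : i ≠ j) (him : i ≠ m)
    (hmj : m ≠ j) (s u : F) : cc τ hτ i k j s u = cc τ hτ i m j s u := by
  by_cases hkm : k = m
  · subst hkm; rfl
  · have := cc_assoc τ hτ hK hCL hik hkj hij him hkm hmj s 1 u
    rwa [one_mul, mul_one] at this

include hn h3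

theorem cc_bal {i k j : ι} (hik : i ≠ k) (hkj : k ≠ j) (hij : i ≠ j) (s t u : F) :
    cc τ hτ i k j s (t * u) = cc τ hτ i k j (s * t) u := by
  by_cases h4 : 4 ≤ Fintype.card ι
  · obtain ⟨m, hmi, hmk, hmj⟩ := exists_ne3 h4 i k j
    rw [cc_assoc τ hτ hK hCL hik hkj hij hmi.symm hmk.symm hmj s t u]
    have := cc_assoc τ hτ hK hCL (i := i) (k := m) (j := j) (m := k) hmi.symm hmj hij hik hmk
      hkj (s * t) 1 u
    rw [one_mul, mul_one] at this
    exact this
  · have hc3 : Fintype.card ι = 3 := by omega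
    have hq := h3 hc3
    let K : Subfield F :=
      { carrier := {l | ∀ s u, cc τ hτ i k j (l * s) u = cc τ hτ i k j s (l * u)}
        mul_mem' := by
          intro a b ha hb s u
          rw [mul_assoc, ha, hb, ← mul_assoc, mul_comm b a]
        one_mem' := by intro s u; rw [one_mul, one_mul]
        add_mem' := by
          intro a b ha hb s u
          rw [add_mul, add_mul, cc_add_left τ hτ hK hCL hik hkj hij,
            cc_add_right τ hτ hK hCL hik hkj hij, ha, hb]
        zero_mem' := by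
          intro s u
          rw [zero_mul, zero_mul, cc_zero_left τ hτ hK, cc_zero_right τ hτ hK]
        neg_mem' := by
          intro a ha s u
          rw [neg_mul, neg_mul, cc_neg_left τ hτ hK hCL hik hkj hij,
            cc_neg_right τ hτ hK hCL hik hkj hij, ha]
        inv_mem' := by
          intro x hx s u
          by_cases hx0 : x = 0
          · rw [hx0, inv_zero, zero_mul, zero_mul, cc_zero_left τ hτ hK, cc_zero_right τ hτ hK]
          · have h1 := hx (x⁻¹ * s) (x⁻¹ * u)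
            rw [mul_inv_cancel_left₀ hx0, mul_inv_cancel_left₀ hx0] at h1
            exact h1.symm }
    have hK' : K = ⊤ := by
      refine subfield_eq_top_of_cubes K (fun a => ?_) hq
      by_cases ha : a = 0
      · rw [ha]; simp only [ne_eq, OfNat.ofNat_ne_zero, not_false_eq_true, zero_pow]
        exact K.zero_mem
      · intro s u
        exact cc_cube τ hτ hK hik hkj hij (Units.mk0 a ha) s u
    have ht : t ∈ K := by rw [hK']; trivial
    have h5 := ht s u
    rw [mul_comm s t]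
    exact h5.symm

/-- the canonical lifts of the root elements -/
noncomputable def XX (i j : ι) (t : F) : E :=
  cc τ hτ i (Classical.choose (exists_ne2 hn i j)) j t 1

theorem XX_eq {i k j : ι} (hik : i ≠ k) (hkj : k ≠ j) (hij : i ≠ j) (s u : F) :
    cc τ hτ i k j s u = XX τ hτ hn i j (s * u) := by
  unfold XX
  have hs := Classical.choose_spec (exists_ne2 hn i j)
  rw [cc_indep τ hτ hK hCL hik hkj hij hs.1.symm hs.2 s u]
  have := cc_bal τ hτ hK hCL hn h3 hs.1.symm hs.2 hij s u 1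
  rwa [mul_one] at this

omit hK hCL h3 in
theorem map_XX {i j : ι} (hij : i ≠ j) (t : F) : τ (XX τ hτ hn i j t) = ee i j t := by
  unfold XX
  have hs := Classical.choose_spec (exists_ne2 hn i j)
  rw [map_cc τ hτ hs.1.symm hs.2 hij, mul_one]

theorem XX_add {i j : ι} (hij : i ≠ j) (s t : F) :
    XX τ hτ hn i j (s + t) = XX τ hτ hn i j s * XX τ hτ hn i j t := by
  unfold XX
  have hs := Classical.choose_spec (exists_ne2 hn i j)
  exact cc_add_left τ hτ hK hCL hs.1.symm hs.2 hij s t 1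

theorem XX_comm {i j k : ι} (hij : i ≠ j) (hjk : j ≠ k) (hik : i ≠ k) (s t : F) :
    ⁅XX τ hτ hn i j s, XX τ hτ hn j k t⁆ = XX τ hτ hn i k (s * t) := by
  rw [cc_eq τ hτ hK (map_XX τ hτ hn hij s) (map_XX τ hτ hn hjk t),
    XX_eq τ hτ hK hCL hn h3 hij hjk hik]

omit hK h3 in
theorem XX_commute {i j k l : ι} (hij : i ≠ j) (hkl : k ≠ l) (hjk : j ≠ k) (hil : i ≠ l)
    (s t : F) : Commute (XX τ hτ hn i j s) (XX τ hτ hn k l t) :=
  hCL i j k l s t _ _ hij hkl hjk hil (map_XX τ hτ hn hij s) (map_XX τ hτ hn hkl t)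

theorem XX_conj {e : E} {π : Equiv.Perm ι} {d : ι → F} (hm : IsMono (τ e) π d) {i j : ι}
    (hij : i ≠ j) (t : F) :
    e * XX τ hτ hn i j t * e⁻¹ = XX τ hτ hn (π i) (π j) (d i * (d j)⁻¹ * t) := by
  have hs := Classical.choose_spec (exists_ne2 hn i j)
  obtain ⟨k, hk⟩ : ∃ k, k = Classical.choose (exists_ne2 hn i j) := ⟨_, rfl⟩
  rw [← hk] at hs
  have hX : XX τ hτ hn i j t = cc τ hτ i k j t 1 := by unfold XX; rw [hk]
  obtain ⟨x, hx⟩ := hτ (ee i k t)
  obtain ⟨y, hy⟩ := hτ (ee k j 1)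
  rw [hX, ← cc_eq τ hτ hK hx hy]
  have h3' : e * ⁅x, y⁆ * e⁻¹ = ⁅e * x * e⁻¹, e * y * e⁻¹⁆ := by
    simp only [commutatorElement_def]; group
  have h1 : τ (e * x * e⁻¹) = ee (π i) (π k) (d i * (d k)⁻¹ * t) := by
    rw [map_mul, map_mul, map_inv, hx, hm.conj hs.1.symm]
  have h2 : τ (e * y * e⁻¹) = ee (π k) (π j) (d k * (d j)⁻¹ * 1) := by
    rw [map_mul, map_mul, map_inv, hy, hm.conj hs.2]
  have hπ : ∀ {a b : ι}, a ≠ b → π a ≠ π b := fun h h' => h (π.injective h')
  rw [h3', cc_eq τ hτ hK h1 h2, XX_eq τ hτ hK hCL hn h3 (hπ hs.1.symm) (hπ hs.2) (hπ hij)]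
  congr 1
  have := hm.ne_zero k
  field_simp

end Stein

/-- Steinberg data for a central extension of `SL` -/
structure IsStein {ι : Type*} [Fintype ι] [DecidableEq ι] {F : Type*} [Field F]
    {E : Type*} [Group E] (τ : E →* Matrix.SpecialLinearGroup ι F) (X : ι → ι → F → E) :
    Prop where
  map : ∀ i j t, i ≠ j → τ (X i j t) = ee i j t
  add : ∀ i j s t, i ≠ j → X i j (s + t) = X i j s * X i j t
  comm : ∀ i j k s t, i ≠ j → j ≠ k → i ≠ k → ⁅X i j s, X j k t⁆ = X i k (s * t)
  commute : ∀ i j k l s t, i ≠ j → k ≠ l → j ≠ k → i ≠ l → Commute (X i j s) (X k l t)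
  conj : ∀ (e : E) (π : Equiv.Perm ι) (d : ι → F), IsMono (τ e) π d → ∀ i j t, i ≠ j →
    e * X i j t * e⁻¹ = X (π i) (π j) (d i * (d j)⁻¹ * t)

theorem exists_isStein {ι : Type*} [Fintype ι] [DecidableEq ι] {F : Type*} [Field F] [Fintype F]
    {E : Type*} [Group E] (τ : E →* Matrix.SpecialLinearGroup ι F) (hτ : Function.Surjective τ)
    (hK : τ.ker ≤ Subgroup.center E) (hn : 3 ≤ Fintype.card ι)
    (h3 : Fintype.card ι = 3 → ∃ a : Fˣ, a ^ 3 ≠ 1)
    (h4 : Fintype.card ι = 4 → (∃ a : Fˣ, a ^ 2 ≠ 1) ∨ Fintype.card F = 3) :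
    ∃ X : ι → ι → F → E, IsStein τ X := by
  have hCL := clp_of τ hτ hK hn h3 h4
  have h3' : Fintype.card ι = 3 → Fintype.card F ≠ 4 := by
    intro hc hq
    obtain ⟨a, ha⟩ := h3 hc
    apply ha
    apply Units.ext
    rw [Units.val_pow_eq_pow_val, Units.val_one]
    have := FiniteField.pow_card_sub_one_eq_one (a : F) (Units.ne_zero _)
    rwa [hq] at this
  exact ⟨XX τ hτ hn, fun i j t hij => map_XX τ hτ hn hij t,
    fun i j s t hij => XX_add τ hτ hK hCL hn h3' hij s t,
    fun i j k s t hij hjk hik => XX_comm τ hτ hK hCL hn h3' hij hjk hik s t,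
    fun i j k l s t hij hkl hjk hil => XX_commute τ hτ hCL hn hij hkl hjk hil s t,
    fun e π d hm i j t hij => XX_conj τ hτ hK hCL hn h3' hm hij t⟩

end Cfsg.Agent.Lib.Helper35.SLn
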