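import Mathlib
import Cfsg.Agent.Lib.Helper35.SLLift

set_option autoImplicit false

namespace Cfsg.Agent.Lib.Helper35.SLn

open scoped commutatorElement

section Sym

variable {ι : Type*} [Fintype ι] [DecidableEq ι] {F : Type*} [Field F] {E : Type*} [Group E]
  {τ : E →* Matrix.SpecialLinearGroup ι F} {X : ι → ι → F → E}

/-- lifted Weyl elements -/
def ww (X : ι → ι → F → E) (i j : ι) (u : F) : E := X i j u * X j i (-u⁻¹) * X i j u

/-- lifted torus elements -/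
def hh (X : ι → ι → F → E) (i j : ι) (u : F) : E := ww X i j u * ww X i j (-1)

/-- coefficients of the torus elements -/
def dH (i j : ι) (u : F) : ι → F := fun b => if b = i then u else if b = j then u⁻¹ else 1

theorem IsStein.zero (hX : IsStein τ X) {i j : ι} (hij : i ≠ j) : X i j 0 = 1 := by
  have := hX.add i j 0 0 hij
  rw [add_zero] at this
  exact (mul_eq_left.1 this.symm)

theorem IsStein.neg (hX : IsStein τ X) {i j : ι} (hij : i ≠ j) (t : F) :
    X i j (-t) = (X i j t)⁻¹ := by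
  have := hX.add i j t (-t) hij
  rw [add_neg_cancel, hX.zero hij] at this
  exact eq_inv_of_mul_eq_one_right this.symm

theorem map_ww (hX : IsStein τ X) {i j : ι} (hij : i ≠ j) (u : F) :
    τ (ww X i j u) = wS i j u := by
  unfold ww wS
  rw [map_mul, map_mul, hX.map i j u hij, hX.map j i _ hij.symm]

theorem isMono_ww (hX : IsStein τ X) {i j : ι} (hij : i ≠ j) {u : F} (hu : u ≠ 0) :
    IsMono (τ (ww X i j u)) (Equiv.swap i j) (dW i j u) := by
  rw [map_ww hX hij]; exact isMono_wS hij hu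

theorem ww_neg (hX : IsStein τ X) {i j : ι} (hij : i ≠ j) (u : F) :
    ww X i j (-u) = (ww X i j u)⁻¹ := by
  unfold ww
  rw [mul_inv_rev, mul_inv_rev, ← hX.neg hij, ← hX.neg hij.symm]
  simp only [inv_neg, neg_neg, mul_assoc]

theorem ww_conj (hX : IsStein τ X) {e : E} {π : Equiv.Perm ι} {d : ι → F}
    (hm : IsMono (τ e) π d) {i j : ι} (hij : i ≠ j) {u : F} (hu : u ≠ 0) :
    e * ww X i j u * e⁻¹ = ww X (π i) (π j) (d i * (d j)⁻¹ * u) := by
  have h1 : e * ww X i j u * e⁻¹ =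
      (e * X i j u * e⁻¹) * (e * X j i (-u⁻¹) * e⁻¹) * (e * X i j u * e⁻¹) := by
    unfold ww; group
  rw [h1, hX.conj e π d hm i j u hij, hX.conj e π d hm j i _ hij.symm]
  unfold ww
  congr 3
  have := hm.ne_zero i
  have := hm.ne_zero j
  field_simp

theorem ww_symm (hX : IsStein τ X) {i j : ι} (hij : i ≠ j) {u : F} (hu : u ≠ 0) :
    ww X j i u = ww X i j (-u⁻¹) := by
  have hr : -u⁻¹ ≠ 0 := neg_ne_zero.2 (inv_ne_zero hu)
  have hc := hX.conj _ _ _ (isMono_ww hX hij hr) i j (-u⁻¹) hij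
  rw [Equiv.swap_apply_left, Equiv.swap_apply_right] at hc
  have hcoef : dW i j (-u⁻¹) i * (dW i j (-u⁻¹) j)⁻¹ * -u⁻¹ = u := by
    simp only [dW, if_true, hij.symm, if_false]
    field_simp
  rw [hcoef] at hc
  have h2 : ww X i j (-u⁻¹) = X i j (-u⁻¹) * X j i u * X i j (-u⁻¹) := by
    unfold ww
    rw [inv_neg, inv_inv, neg_neg]
  have h3 : ww X j i u = X j i u * X i j (-u⁻¹) * X j i u := rfl
  rw [mul_inv_eq_iff_eq_mul] at hc
  rw [h3]
  rw [h2] at hc ⊢
  have := mul_right_cancel (b := X i j (-u⁻¹)) (by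
    calc X i j (-u⁻¹) * X j i u * X i j (-u⁻¹) * X i j (-u⁻¹) = _ := hc
      _ = X j i u * X i j (-u⁻¹) * X j i u * X i j (-u⁻¹) := by group)
  exact this.symm

theorem isMono_hh (hX : IsStein τ X) {i j : ι} (hij : i ≠ j) {u : F} (hu : u ≠ 0) :
    IsMono (τ (hh X i j u)) 1 (dH i j u) := by
  unfold hh
  rw [map_mul]
  have h1 := (isMono_ww hX hij hu).mul (isMono_ww hX hij (u := -1) (by simp))
  refine h1.congr ?_ ?_
  · ext b; simp
  · intro b
    simp only [dW, dH]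
    by_cases hbi : b = i
    · subst hbi; simp [hij, hij.symm]
    · by_cases hbj : b = j
      · subst hbj; simp [hij, hij.symm]
      · simp [hbi, hbj, Equiv.swap_apply_of_ne_of_ne hbi hbj]

theorem hh_conj (hX : IsStein τ X) {e : E} {π : Equiv.Perm ι} {d : ι → F}
    (hm : IsMono (τ e) π d) {i j : ι} (hij : i ≠ j) {u : F} (hu : u ≠ 0) :
    e * hh X i j u * e⁻¹ = hh X (π i) (π j) (d i * (d j)⁻¹ * u) *
      (hh X (π i) (π j) (d i * (d j)⁻¹))⁻¹ := by
  have hπ : π i ≠ π j := fun h => hij (π.injective h)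
  have h1 : e * hh X i j u * e⁻¹ = (e * ww X i j u * e⁻¹) * (e * ww X i j (-1) * e⁻¹) := by
    unfold hh; group
  rw [h1, ww_conj hX hm hij hu, ww_conj hX hm hij (u := -1) (by simp)]
  unfold hh
  rw [mul_inv_rev, mul_neg, mul_one, ww_neg hX hπ (d i * (d j)⁻¹)]
  group

theorem hh_one (hX : IsStein τ X) {i j : ι} (hij : i ≠ j) : hh X i j 1 = 1 := by
  unfold hh
  rw [ww_neg hX hij, mul_inv_cancel]

end Sym

theorem exists_nonsquare_pair {F : Type*} [Field F] [Fintype F] (hF : ringChar F ≠ 2) :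
    ∃ v : F, ¬IsSquare v ∧ ¬IsSquare (1 - v) := by
  classical
  by_contra hcon
  have hcon' : ∀ v : F, ¬IsSquare v → IsSquare (1 - v) := by
    intro v hv
    by_contra h
    exact hcon ⟨v, hv, h⟩
  obtain ⟨g, hg⟩ := FiniteField.exists_nonsquare hF
  have hg0 : g ≠ 0 := by
    intro h; apply hg; rw [h]; exact IsSquare.zero
  obtain ⟨N, hN⟩ : ∃ N : Finset F, N = Finset.univ.filter (fun v => ¬IsSquare v) := ⟨_, rfl⟩
  obtain ⟨S, hS⟩ : ∃ S : Finset F, S = Finset.univ.filter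
      (fun v => IsSquare v ∧ v ≠ 0 ∧ v ≠ 1) := ⟨_, rfl⟩
  have h1 : N.card ≤ S.card := by
    apply Finset.card_le_card_of_injOn (fun v => 1 - v)
    · intro v hv
      rw [hN, Finset.coe_filter] at hv
      rw [hS, Finset.coe_filter]
      simp only [Finset.mem_univ, true_and, Set.mem_setOf_eq] at hv ⊢
      refine ⟨hcon' v hv, ?_, ?_⟩
      · intro h
        apply hv
        rw [show v = 1 by linear_combination -h]
        exact IsSquare.one
      · intro h
        apply hv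
        rw [show v = 0 by linear_combination -h]
        exact IsSquare.zero
    · intro a _ b _ h
      simpa using h
  have h2 : (insert 1 S).card ≤ N.card := by
    apply Finset.card_le_card_of_injOn (fun s => g * s)
    · intro s hs
      have hs' : IsSquare s ∧ s ≠ 0 := by
        rw [Finset.coe_insert, Set.mem_insert_iff] at hs
        rcases hs with rfl | hs
        · exact ⟨IsSquare.one, one_ne_zero⟩
        · rw [hS, Finset.coe_filter] at hs
          exact ⟨hs.2.1, hs.2.2.1⟩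
      rw [hN, Finset.coe_filter]
      simp only [Finset.mem_univ, true_and, Set.mem_setOf_eq]
      intro hgs
      obtain ⟨r, hr⟩ := hs'.1
      obtain ⟨t, ht⟩ := hgs
      apply hg
      have hr0 : r ≠ 0 := by
        intro h; apply hs'.2; rw [hr, h, mul_zero]
      refine ⟨t / r, ?_⟩
      rw [hr] at ht
      field_simp
      linear_combination ht
    · intro a _ b _ h
      exact mul_left_cancel₀ hg0 h
  have h3 : (insert 1 S).card = S.card + 1 :=
    Finset.card_insert_of_notMem (by rw [hS]; simp)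
  omega

section Bet

variable {ι : Type*} [Fintype ι] [DecidableEq ι] {F : Type*} [Field F] {E : Type*} [Group E]
  {τ : E →* Matrix.SpecialLinearGroup ι F} {X : ι → ι → F → E}

/-- the symbol -/
def bet (X : ι → ι → F → E) (i j : ι) (a v : F) : E :=
  hh X i j (a * v) * (hh X i j a)⁻¹ * (hh X i j v)⁻¹

theorem isMono_one_commute {g g' : Matrix.SpecialLinearGroup ι F} {d d' : ι → F}
    (h : IsMono g 1 d) (h' : IsMono g' 1 d') : Commute g g' := by
  have h1 := h.mul h'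
  have h2 := h'.mul h
  exact (h1.congr (d' := fun b => d b * d' b) rfl (fun b => by simp [mul_comm])).unique
    (h2.congr (d' := fun b => d b * d' b) rfl (fun b => by simp))

variable (hX : IsStein τ X) (hK : τ.ker ≤ Subgroup.center E)
include hX

theorem comm_hh_eq_bet {e : E} {d : ι → F} (hm : IsMono (τ e) 1 d) {i j : ι} (hij : i ≠ j)
    {a v : F} (ha : d i * (d j)⁻¹ = a) (hv : v ≠ 0) : ⁅e, hh X i j v⁆ = bet X i j a v := by
  have := hh_conj hX hm hij hv
  rw [Equiv.Perm.one_apply, Equiv.Perm.one_apply, ha] at this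
  rw [commutatorElement_def, this]
  rfl

include hK

theorem bet_spec {i j k : ι} (hij : i ≠ j) (hik : i ≠ k) (hjk : j ≠ k) {a v : F} (ha : a ≠ 0)
    (hv : v ≠ 0) : bet X i j a v = ⁅hh X i k a, hh X i j v⁆ ∧
      Commute (τ (hh X i k a)) (τ (hh X i j v)) := by
  have hm := isMono_hh hX hik ha
  refine ⟨(comm_hh_eq_bet hX hm hij ?_ hv).symm,
    isMono_one_commute hm (isMono_hh hX hij hv)⟩
  simp [dH, hij.symm, hjk]

theorem map_bet {i j k : ι} (hij : i ≠ j) (hik : i ≠ k) (hjk : j ≠ k) {a v : F} (ha : a ≠ 0)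
    (hv : v ≠ 0) : τ (bet X i j a v) = 1 := by
  obtain ⟨h1, h2⟩ := bet_spec hX hK hij hik hjk ha hv
  rw [h1, map_commutatorElement, commutatorElement_eq_one_iff_commute]
  exact h2

theorem bet_mem_center {i j k : ι} (hij : i ≠ j) (hik : i ≠ k) (hjk : j ≠ k) {a v : F}
    (ha : a ≠ 0) (hv : v ≠ 0) : bet X i j a v ∈ Subgroup.center E :=
  hK (map_bet hX hK hij hik hjk ha hv)

omit hX hK in
theorem hh_mul_eq (i j : ι) (a v : F) :
    hh X i j (a * v) = bet X i j a v * hh X i j v * hh X i j a := by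
  unfold bet; group

theorem bet_mul_right {i j k : ι} (hij : i ≠ j) (hik : i ≠ k) (hjk : j ≠ k) {a v v' : F}
    (ha : a ≠ 0) (hv : v ≠ 0) (hv' : v' ≠ 0) :
    bet X i j a (v * v') = bet X i j a v * bet X i j a v' := by
  obtain ⟨h1, h2⟩ := bet_spec hX hK hij hik hjk ha hv
  obtain ⟨h1', h2'⟩ := bet_spec hX hK hij hik hjk ha hv'
  obtain ⟨h1'', -⟩ := bet_spec hX hK hij hik hjk ha (mul_ne_zero hv hv')
  have h3 : τ (hh X i j (v * v')) = τ (hh X i j v' * hh X i j v) := by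
    rw [hh_mul_eq, map_mul, map_mul, map_bet hX hK hij hik hjk hv hv', one_mul, map_mul]
  rw [h1'', comm_congr τ hK (rfl : τ (hh X i k a) = _) h3, comm_mul_right τ hK h2, ← h1, ← h1']
  have hc := bet_mem_center hX hK hij hik hjk ha hv
  rw [Subgroup.mem_center_iff] at hc
  exact hc _

theorem bet_mul_left {i j k : ι} (hij : i ≠ j) (hik : i ≠ k) (hjk : j ≠ k) {a a' v : F}
    (ha : a ≠ 0) (ha' : a' ≠ 0) (hv : v ≠ 0) :
    bet X i j (a * a') v = bet X i j a v * bet X i j a' v := by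
  obtain ⟨h1, h2⟩ := bet_spec hX hK hij hik hjk ha hv
  obtain ⟨h1', h2'⟩ := bet_spec hX hK hij hik hjk ha' hv
  have hm := (isMono_hh hX hik ha).mul (isMono_hh hX hik ha')
  rw [← map_mul] at hm
  have h3 := comm_hh_eq_bet hX hm hij (a := a * a') (v := v) (by
    simp [dH, hij.symm, hjk]; ring) hv
  rw [← h3, comm_mul_left τ hK h2', ← h1, ← h1']

theorem bet_skew {i j k : ι} (hij : i ≠ j) (hik : i ≠ k) (hjk : j ≠ k) {a v : F}
    (ha : a ≠ 0) (hv : v ≠ 0) : bet X i j v a * bet X i j a v = 1 := by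
  have h1 : ⁅hh X i j v, hh X i j a⁆ = bet X i j (v * v) a :=
    comm_hh_eq_bet hX (isMono_hh hX hij hv) hij (by simp [dH, hij.symm]) ha
  rw [bet_mul_left hX hK hij hik hjk hv hv ha] at h1
  have h2 : ⁅hh X i j v, hh X i j a⁆ = (bet X i j a v)⁻¹ * bet X i j v a := by
    have e1 := hh_mul_eq (X := X) i j a v
    have e2 := hh_mul_eq (X := X) i j v a
    rw [mul_comm v a] at e2
    have hc := bet_mem_center hX hK hij hik hjk hv ha
    rw [Subgroup.mem_center_iff] at hc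
    have e3 : hh X i j v * hh X i j a = (bet X i j a v)⁻¹ * hh X i j (a * v) := by
      rw [e1]; group
    have e4 : hh X i j a * hh X i j v = (bet X i j v a)⁻¹ * hh X i j (a * v) := by
      rw [e2]; group
    calc ⁅hh X i j v, hh X i j a⁆ = hh X i j v * hh X i j a * (hh X i j a * hh X i j v)⁻¹ := by
          rw [commutatorElement_def]; group
      _ = (bet X i j a v)⁻¹ * bet X i j v a := by rw [e3, e4]; group
  rw [h1] at h2
  have h3 : bet X i j v a = (bet X i j a v)⁻¹ := mul_right_cancel h2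
  rw [h3, inv_mul_cancel]

omit hK in
theorem X_eq_ww {i j : ι} (hij : i ≠ j) {t : F} (ht : t ≠ 0) :
    X j i t = X i j t⁻¹ * ww X i j (-t⁻¹) * X i j t⁻¹ := by
  unfold ww
  have h1 : -(-t⁻¹)⁻¹ = t := by rw [inv_neg, inv_inv, neg_neg]
  rw [h1, hX.neg hij]
  group

omit hK in
theorem ww_conj_X {i j : ι} (hij : i ≠ j) {a : F} (ha : a ≠ 0) (t : F) :
    ww X i j a * X i j t * (ww X i j a)⁻¹ = X j i (-a⁻¹ * a⁻¹ * t) := by
  have := hX.conj _ _ _ (isMono_ww hX hij ha) i j t hij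
  rw [Equiv.swap_apply_left, Equiv.swap_apply_right] at this
  rw [this]
  congr 1
  simp [dW, hij.symm]

omit hK in
theorem ww_conj_X' {i j : ι} (hij : i ≠ j) {a : F} (ha : a ≠ 0) (t : F) :
    ww X i j a * X j i t * (ww X i j a)⁻¹ = X i j (-(a * a * t)) := by
  have := hX.conj _ _ _ (isMono_ww hX hij ha) j i t hij.symm
  rw [Equiv.swap_apply_left, Equiv.swap_apply_right] at this
  rw [this]
  congr 1
  simp only [dW, hij.symm, if_true, if_false]
  field_simp

omit hK in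
theorem ww_ww_conj_X {i j : ι} (hij : i ≠ j) {a b : F} (ha : a ≠ 0) (hb : b ≠ 0) (t : F) :
    (ww X i j a * ww X i j b) * X i j t * (ww X i j a * ww X i j b)⁻¹ =
      X i j (a * a * (b⁻¹ * b⁻¹) * t) := by
  have h1 : (ww X i j a * ww X i j b) * X i j t * (ww X i j a * ww X i j b)⁻¹ =
      ww X i j a * (ww X i j b * X i j t * (ww X i j b)⁻¹) * (ww X i j a)⁻¹ := by group
  rw [h1, ww_conj_X hX hij hb, ww_conj_X' hX hij ha]
  congr 1
  ring

omit hK in
theorem hh_steinberg {i j : ι} (hij : i ≠ j) {v : F} (hv0 : v ≠ 0) (hv1 : v ≠ 1) :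
    hh X i j (1 - v)⁻¹ * hh X i j v = hh X i j (v * (1 - v)⁻¹) := by
  have hc : (1 - v) ≠ 0 := sub_ne_zero.2 (Ne.symm hv1)
  obtain ⟨c, hcdef⟩ : ∃ c, c = 1 - v := ⟨_, rfl⟩
  rw [← hcdef] at hc ⊢
  obtain ⟨x1, hx1⟩ : ∃ z, z = X i j 1 := ⟨_, rfl⟩
  obtain ⟨xmv, hxmv⟩ : ∃ z, z = X i j (-v) := ⟨_, rfl⟩
  obtain ⟨xmci, hxmci⟩ : ∃ z, z = X i j (-c⁻¹) := ⟨_, rfl⟩
  obtain ⟨xc, hxc⟩ : ∃ z, z = X i j c := ⟨_, rfl⟩
  obtain ⟨xs, hxs⟩ : ∃ z, z = X i j (-(v * v * c⁻¹)) := ⟨_, rfl⟩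
  obtain ⟨xmr, hxmr⟩ : ∃ z, z = X i j (-(v * c⁻¹)) := ⟨_, rfl⟩
  obtain ⟨wm1, hwm1⟩ : ∃ z, z = ww X i j (-1) := ⟨_, rfl⟩
  obtain ⟨wv, hwv⟩ : ∃ z, z = ww X i j v := ⟨_, rfl⟩
  obtain ⟨wci, hwci⟩ : ∃ z, z = ww X i j c⁻¹ := ⟨_, rfl⟩
  obtain ⟨wr, hwr⟩ : ∃ z, z = ww X i j (v * c⁻¹) := ⟨_, rfl⟩
  obtain ⟨ymc, hymc⟩ : ∃ z, z = X j i (-c) := ⟨_, rfl⟩
  have hA : X j i 1 = x1 * wm1 * x1 := by
    have := X_eq_ww hX hij (t := (1 : F)) one_ne_zero
    rw [inv_one] at this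
    rw [this, hx1, hwm1]
  have hB : X j i (-v⁻¹) = xmv * wv * xmv := by
    have := X_eq_ww hX hij (t := -v⁻¹) (neg_ne_zero.2 (inv_ne_zero hv0))
    rw [inv_neg, inv_inv, neg_neg] at this
    rw [this, hxmv, hwv]
  have hC : X j i (1 + -v⁻¹) = xmr * wr * xmr := by
    have ht : (1 + -v⁻¹ : F) ≠ 0 := by
      intro h
      apply hv1
      field_simp at h
      linear_combination h
    have := X_eq_ww hX hij ht
    have e1 : (1 + -v⁻¹ : F)⁻¹ = -(v * c⁻¹) := by
      rw [hcdef, inv_eq_iff_eq_inv, inv_neg, mul_inv, inv_inv]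
      field_simp
      ring
    rw [e1, neg_neg] at this
    rw [this, hxmr, hwr]
  have hadd : X j i 1 * X j i (-v⁻¹) = X j i (1 + -v⁻¹) := (hX.add j i _ _ hij.symm).symm
  have hD : wm1 * xc * wm1⁻¹ = ymc := by
    rw [hwm1, hxc, hymc, ww_conj_X hX hij (by simp)]
    congr 1
    simp
  have hE : ymc = xmci * wci * xmci := by
    have := X_eq_ww hX hij (t := -c) (neg_ne_zero.2 hc)
    rw [inv_neg, neg_neg] at this
    rw [hymc, this, hxmci, hwci]
  have hF : (wm1 * wv) * xs * (wm1 * wv)⁻¹ = xmci := by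
    rw [hwm1, hwv, hxs, hxmci, ww_ww_conj_X hX hij (by simp) hv0]
    congr 1
    field_simp
  have hG : x1 * xmv = xc := by
    rw [hx1, hxmv, hxc, ← hX.add i j _ _ hij, hcdef]
    congr 1
    ring
  have hH : x1 * xmci = xmr := by
    rw [hx1, hxmci, hxmr, ← hX.add i j _ _ hij]
    congr 1
    rw [hcdef]
    rw [hcdef] at hc
    field_simp
    ring
  have hI : xs * xmv = xmr := by
    rw [hxs, hxmv, hxmr, ← hX.add i j _ _ hij]
    congr 1
    rw [hcdef]
    rw [hcdef] at hc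
    field_simp
    ring
  have e1 : xmr * wr * xmr = x1 * wm1 * x1 * (xmv * wv * xmv) := by
    rw [← hC, ← hadd, hA, hB]
  have hwr' : wr = xmr⁻¹ * (x1 * wm1 * x1 * (xmv * wv * xmv)) * xmr⁻¹ := by
    rw [← e1]; group
  have hxs' : xs⁻¹ = xmv * xmci⁻¹ * x1⁻¹ := by
    have : xs = x1 * xmci * xmv⁻¹ := by rw [hH, ← hI]; group
    rw [this]; group
  have e7 : (wm1 * wv) * (xmv * xmci⁻¹ * x1⁻¹) = xmci⁻¹ * (wm1 * wv) := by
    rw [← hxs', ← hF]; group
  have hwci' : wci = xmci⁻¹ * ymc * xmci⁻¹ := by rw [hE]; group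
  have key : wr = wci * wm1 * wv := by
    rw [hwr', hwci', ← hD, ← hG, ← hH]
    calc (x1 * xmci)⁻¹ * (x1 * wm1 * x1 * (xmv * wv * xmv)) * (x1 * xmci)⁻¹
        = xmci⁻¹ * wm1 * x1 * xmv * wm1⁻¹ * ((wm1 * wv) * (xmv * xmci⁻¹ * x1⁻¹)) := by group
      _ = xmci⁻¹ * wm1 * x1 * xmv * wm1⁻¹ * (xmci⁻¹ * (wm1 * wv)) := by rw [e7]
      _ = xmci⁻¹ * (wm1 * (x1 * xmv) * wm1⁻¹) * xmci⁻¹ * wm1 * wv := by group
  unfold hh
  rw [← hwci, ← hwm1, ← hwv, ← hwr, key]
  group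

theorem bet_steinberg {i j k : ι} (hij : i ≠ j) (hik : i ≠ k) (hjk : j ≠ k) {v : F}
    (hv0 : v ≠ 0) (hv1 : v ≠ 1) : bet X i j v (1 - v)⁻¹ = 1 := by
  have h1 := hh_steinberg hX hij hv0 hv1
  unfold bet
  rw [← h1]
  group

theorem bet_eq_one [Fintype F] {i j k : ι} (hij : i ≠ j) (hik : i ≠ k) (hjk : j ≠ k) {a v : F}
    (ha : a ≠ 0) (hv : v ≠ 0) : bet X i j a v = 1 := by
  let L : Fˣ → Fˣ →* E := fun v => MonoidHom.mk' (fun a : Fˣ => bet X i j (a : F) (v : F))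
    (fun a a' => by
      rw [Units.val_mul]
      exact bet_mul_left hX hK hij hik hjk a.ne_zero a'.ne_zero v.ne_zero)
  let R : Fˣ → Fˣ →* E := fun a => MonoidHom.mk' (fun v : Fˣ => bet X i j (a : F) (v : F))
    (fun v v' => by
      rw [Units.val_mul]
      exact bet_mul_right hX hK hij hik hjk a.ne_zero v.ne_zero v'.ne_zero)
  obtain ⟨γ, hγ⟩ := IsCyclic.exists_generator (α := Fˣ)
  obtain ⟨ε, hε⟩ : ∃ ε, ε = bet X i j (γ : F) (γ : F) := ⟨_, rfl⟩
  have hε2 : ε * ε = 1 := by rw [hε]; exact bet_skew hX hK hij hik hjk γ.ne_zero γ.ne_zero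
  have key : ∀ m l : ℤ, bet X i j ((γ ^ m : Fˣ) : F) ((γ ^ l : Fˣ) : F) = (ε ^ l) ^ m := by
    intro m l
    have h1 : bet X i j ((γ ^ m : Fˣ) : F) ((γ ^ l : Fˣ) : F) = L (γ ^ l) (γ ^ m) := rfl
    have h2 : L (γ ^ l) γ = R γ (γ ^ l) := rfl
    have h3 : R γ γ = ε := by rw [hε]; rfl
    rw [h1, map_zpow, h2, map_zpow, h3]
  have hodd : ∃ m l : ℤ, Odd m ∧ Odd l ∧ (ε ^ l) ^ m = 1 := by
    by_cases hF : ringChar F = 2
    · refine ⟨((Fintype.card F - 1 : ℕ) : ℤ), 1, ?_, odd_one, ?_⟩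
      · rw [Int.odd_coe_nat]
        have h1 := FiniteField.even_card_iff_char_two.1 hF
        have h2 : 2 ≤ Fintype.card F := Fintype.one_lt_card
        rw [Nat.odd_iff]
        omega
      · rw [← key]
        have h1 : γ ^ ((Fintype.card F - 1 : ℕ) : ℤ) = 1 := by
          rw [zpow_natCast]
          apply Units.ext
          rw [Units.val_pow_eq_pow_val, Units.val_one]
          exact FiniteField.pow_card_sub_one_eq_one _ (Units.ne_zero _)
        rw [h1]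
        exact map_one (L (γ ^ (1 : ℤ)))
    · obtain ⟨w, hw, hw'⟩ := exists_nonsquare_pair hF
      have hw0 : w ≠ 0 := by intro h; apply hw; rw [h]; exact IsSquare.zero
      have hw1 : w ≠ 1 := by intro h; apply hw; rw [h]; exact IsSquare.one
      have hc0 : (1 - w)⁻¹ ≠ 0 := inv_ne_zero (sub_ne_zero.2 (Ne.symm hw1))
      obtain ⟨m, hm⟩ := Subgroup.mem_zpowers_iff.1 (hγ (Units.mk0 w hw0))
      obtain ⟨l, hl⟩ := Subgroup.mem_zpowers_iff.1 (hγ (Units.mk0 (1 - w)⁻¹ hc0))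
      refine ⟨m, l, ?_, ?_, ?_⟩
      · rw [← Int.not_even_iff_odd]
        rintro ⟨r, hr⟩
        apply hw
        refine ⟨((γ ^ r : Fˣ) : F), ?_⟩
        rw [← Units.val_mul, ← zpow_add, ← hr, hm]
        rfl
      · rw [← Int.not_even_iff_odd]
        rintro ⟨r, hr⟩
        apply hw'
        rw [← isSquare_inv]
        refine ⟨((γ ^ r : Fˣ) : F), ?_⟩
        rw [← Units.val_mul, ← zpow_add, ← hr, hl]
        rfl
      · rw [← key, hm, hl]
        exact bet_steinberg hX hK hij hik hjk hw0 hw1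
  have hε1 : ε = 1 := by
    obtain ⟨m, l, hm, hl, h⟩ := hodd
    rw [← zpow_mul] at h
    obtain ⟨r, hr⟩ := hl.mul hm
    rw [hr, zpow_add, zpow_mul, zpow_two, hε2, one_zpow, one_mul, zpow_one] at h
    exact h
  obtain ⟨m, hm⟩ := Subgroup.mem_zpowers_iff.1 (hγ (Units.mk0 a ha))
  obtain ⟨l, hl⟩ := Subgroup.mem_zpowers_iff.1 (hγ (Units.mk0 v hv))
  have := key m l
  rw [hm, hl, hε1, one_zpow, one_zpow] at this
  exact this

theorem hh_mul [Fintype F] {i j k : ι} (hij : i ≠ j) (hik : i ≠ k) (hjk : j ≠ k) {a v : F}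
    (ha : a ≠ 0) (hv : v ≠ 0) : hh X i j (a * v) = hh X i j a * hh X i j v := by
  have h1 := hh_mul_eq (X := X) i j v a
  rw [bet_eq_one hX hK hij hik hjk hv ha, one_mul, mul_comm v a] at h1
  exact h1

theorem hh_inv [Fintype F] {i j k : ι} (hij : i ≠ j) (hik : i ≠ k) (hjk : j ≠ k) {a : F}
    (ha : a ≠ 0) : hh X i j a⁻¹ = (hh X i j a)⁻¹ := by
  have h1 := hh_mul hX hK hij hik hjk ha (inv_ne_zero ha)
  rw [mul_inv_cancel₀ ha, hh_one hX hij] at h1
  exact eq_inv_of_mul_eq_one_right h1.symm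

/-- monomial lifts act on the torus elements through the permutation -/
theorem hh_conj' [Fintype F] (hn : 3 ≤ Fintype.card ι) {e : E} {π : Equiv.Perm ι} {d : ι → F}
    (hm : IsMono (τ e) π d) {i j : ι} (hij : i ≠ j) {u : F} (hu : u ≠ 0) :
    e * hh X i j u * e⁻¹ = hh X (π i) (π j) u := by
  have hπ : π i ≠ π j := fun h => hij (π.injective h)
  obtain ⟨k, hk1, hk2⟩ := exists_ne2 hn (π i) (π j)
  have hc : d i * (d j)⁻¹ ≠ 0 := mul_ne_zero (hm.ne_zero i) (inv_ne_zero (hm.ne_zero j))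
  rw [hh_conj hX hm hij hu, mul_comm (d i * (d j)⁻¹) u,
    hh_mul hX hK hπ hk1.symm hk2.symm hu hc, mul_inv_cancel_right]

theorem hh_symm [Fintype F] (hn : 3 ≤ Fintype.card ι) {i j : ι} (hij : i ≠ j) {u : F}
    (hu : u ≠ 0) : hh X j i u = (hh X i j u)⁻¹ := by
  obtain ⟨k, hk1, hk2⟩ := exists_ne2 hn i j
  have h1 : hh X j i u = ww X i j (-u⁻¹) * ww X i j 1 := by
    unfold hh
    rw [ww_symm hX hij hu, ww_symm hX hij (u := -1) (by simp)]
    simp
  have h2 : ww X i j (-u⁻¹) * ww X i j 1 = hh X i j (-u⁻¹) * (hh X i j (-1))⁻¹ := by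
    unfold hh
    rw [ww_neg hX hij 1]
    group
  have hu' : u⁻¹ ≠ 0 := inv_ne_zero hu
  have h3 : hh X i j (-u⁻¹) = hh X i j u⁻¹ * hh X i j (-1) := by
    rw [← hh_mul hX hK hij hk1.symm hk2.symm hu' (by simp), mul_neg, mul_one]
  rw [h1, h2, h3, mul_inv_cancel_right, hh_inv hX hK hij hk1.symm hk2.symm hu]

theorem hh_trans [Fintype F] {i j k : ι} (hij : i ≠ j) (hik : i ≠ k) (hjk : j ≠ k) {u : F}
    (hu : u ≠ 0) : hh X i k u = hh X i j u * hh X j k u := by
  have hn : 3 ≤ Fintype.card ι := by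
    have h1 : ({i, j, k} : Finset ι).card = 3 := Finset.card_eq_three.2 ⟨i, j, k, hij, hik, hjk, rfl⟩
    have := Finset.card_le_univ ({i, j, k} : Finset ι)
    omega
  have hm := isMono_ww hX hjk (u := 1) one_ne_zero
  have h1 := hh_conj' hX hK hn hm hij hu
  rw [Equiv.swap_apply_of_ne_of_ne hij hik, Equiv.swap_apply_left] at h1
  have hm2 := isMono_hh hX hij (inv_ne_zero hu)
  have h2 := ww_conj hX hm2 hjk (u := 1) one_ne_zero
  rw [Equiv.Perm.one_apply, Equiv.Perm.one_apply] at h2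
  have hcoef : dH i j u⁻¹ j * (dH i j u⁻¹ k)⁻¹ * 1 = u := by
    simp [dH, hij.symm, hik.symm, hjk.symm]
  rw [hcoef, hh_inv hX hK hij hik hjk hu, inv_inv] at h2
  have h3 : hh X j k u = ww X j k u * (ww X j k 1)⁻¹ := by
    unfold hh; rw [ww_neg hX hjk 1]
  rw [← h1, h3, ← h2]
  group

end Bet

end Cfsg.Agent.Lib.Helper35.SLn
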