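import Mathlib
import Cfsg.Prelude.Def_KGroupFacts
import Cfsg.Agent.Lib.Helper35.Schur

set_option autoImplicit false

namespace Cfsg.Agent.Lib.Helper35

open scoped commutatorElement

section SchurExp

/-- trace of left multiplication by a group element on the group algebra -/
theorem trace_mul_single {Γ : Type*} [Group Γ] [Fintype Γ] [DecidableEq Γ] (g : Γ) :
    LinearMap.trace ℂ (MonoidAlgebra ℂ Γ) (LinearMap.mul ℂ (MonoidAlgebra ℂ Γ) (MonoidAlgebra.single g 1))
      = if g = 1 then (Fintype.card Γ : ℂ) else 0 := by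
  rw [LinearMap.trace_eq_matrix_trace ℂ (MonoidAlgebra.basis Γ ℂ), Matrix.trace]
  simp only [Matrix.diag_apply, LinearMap.toMatrix_apply, MonoidAlgebra.basis_apply,
    LinearMap.mul_apply', MonoidAlgebra.single_mul_single, mul_one]
  have h : ∀ h : Γ, (MonoidAlgebra.basis Γ ℂ).repr (MonoidAlgebra.single (g * h) (1 : ℂ)) h =
      if g = 1 then 1 else 0 := by
    intro h
    show (MonoidAlgebra.single (g * h) (1 : ℂ)).coeff h = _
    rw [MonoidAlgebra.coeff_single, Finsupp.single_apply]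
    by_cases hg : g = 1
    · rw [if_pos hg, if_pos (by rw [hg, one_mul])]
    · rw [if_neg hg, if_neg (by intro h'; exact hg (mul_eq_right.mp h'))]
  simp_rw [h]
  split_ifs <;> simp

/-- trace of left multiplication by the `i`-th unit of a product of matrix algebras -/
theorem trace_mul_pi_single {n : ℕ} (d : Fin n → ℕ) (i : Fin n) :
    LinearMap.trace ℂ (Π j, Matrix (Fin (d j)) (Fin (d j)) ℂ)
      (LinearMap.mul ℂ (Π j, Matrix (Fin (d j)) (Fin (d j)) ℂ) (Pi.single i 1)) =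
        ((d i ^ 2 : ℕ) : ℂ) := by
  classical
  let S := Π j, Matrix (Fin (d j)) (Fin (d j)) ℂ
  let f : S →ₗ[ℂ] S := LinearMap.mul ℂ S (Pi.single i 1)
  have hfapp : ∀ z : S, f z = Pi.single i (z i) := by
    intro z
    funext j
    show ((Pi.single i (1 : Matrix (Fin (d i)) (Fin (d i)) ℂ) : S) * z) j = _
    rw [Pi.mul_apply]
    by_cases hj : j = i
    · subst hj
      rw [Pi.single_eq_same, Pi.single_eq_same, one_mul]
    · rw [Pi.single_eq_of_ne hj, Pi.single_eq_of_ne hj, zero_mul]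
  have hidem : IsIdempotentElem f := by
    apply LinearMap.ext
    intro z
    rw [Module.End.mul_apply, hfapp, hfapp, Pi.single_eq_same]
  have hproj := LinearMap.IsIdempotentElem.isProj_range f hidem
  have hrange : LinearMap.range f =
      LinearMap.range (LinearMap.single ℂ (fun j => Matrix (Fin (d j)) (Fin (d j)) ℂ) i) := by
    ext z
    constructor
    · rintro ⟨w, rfl⟩
      exact ⟨w i, (hfapp w).symm⟩
    · rintro ⟨m, rfl⟩
      refine ⟨Pi.single i m, ?_⟩
      rw [hfapp, Pi.single_eq_same]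
      rfl
  have hinj : Function.Injective
      (LinearMap.single ℂ (fun j => Matrix (Fin (d j)) (Fin (d j)) ℂ) i) := by
    intro a b hab
    have := congr_fun hab i
    simpa using this
  have hfr : Module.finrank ℂ (LinearMap.range f) = d i ^ 2 := by
    rw [hrange, LinearMap.finrank_range_of_inj hinj,
      Module.finrank_matrix]
    simp [sq]
  show LinearMap.trace ℂ S f = _
  rw [hproj.trace, hfr]

/-- If a finite abelian group `A` embeds in `Z(Γ) ∩ [Γ,Γ]` then `exp(A)^2 * |A|` divides `|Γ|`. -/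
theorem exponent_sq_mul_card_dvd {Γ : Type*} [Group Γ] [Finite Γ] {A : Type*} [CommGroup A]
    [Finite A] (ι : A →* Γ) (hι : Function.Injective ι) (hc : ∀ a, ι a ∈ Subgroup.center Γ)
    (hd : ∀ a, ι a ∈ commutator Γ) : Monoid.exponent A ^ 2 * Nat.card A ∣ Nat.card Γ := by
  classical
  have : Fintype Γ := Fintype.ofFinite Γ
  have : Fintype A := Fintype.ofFinite A
  have hne : NeZero (Nat.card Γ : ℂ) := ⟨Nat.cast_ne_zero.mpr Nat.card_pos.ne'⟩
  have hfd : FiniteDimensional ℂ (MonoidAlgebra ℂ Γ) :=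
    Module.Finite.of_basis (MonoidAlgebra.basis Γ ℂ)
  obtain ⟨n, d, hdne, ⟨Φ⟩⟩ :=
    IsSemisimpleRing.exists_algEquiv_pi_matrix_of_isAlgClosed ℂ (MonoidAlgebra ℂ Γ)
  have hexpA : NeZero ((Monoid.exponent A : ℕ) : ℂ) :=
    ⟨Nat.cast_ne_zero.mpr Monoid.exponent_ne_zero_of_finite⟩
  obtain ⟨E⟩ := CommGroup.monoidHom_mulEquiv_of_hasEnoughRootsOfUnity A ℂ
  have hfinD : Finite (A →* ℂˣ) := Finite.of_equiv _ E.symm.toEquiv
  have hEE : Monoid.ExponentExists (A →* ℂˣ) :=
    ⟨Nat.card (A →* ℂˣ), Nat.card_pos, fun g => pow_card_eq_one'⟩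
  obtain ⟨lam, hlam⟩ := Monoid.exists_orderOf_eq_exponent hEE
  have hexp : Monoid.exponent (A →* ℂˣ) = Monoid.exponent A := Monoid.exponent_eq_of_mulEquiv E
  let w : A → MonoidAlgebra ℂ Γ := fun a => MonoidAlgebra.single (ι a) (((lam a)⁻¹ : ℂˣ) : ℂ)
  obtain ⟨ε, hε⟩ : ∃ ε : MonoidAlgebra ℂ Γ, ε = ((Fintype.card A : ℂ))⁻¹ • ∑ a, w a := ⟨_, rfl⟩
  have hP1 : ∀ b : A, MonoidAlgebra.single (ι b) (1 : ℂ) * ε = ((lam b : ℂˣ) : ℂ) • ε := by
    intro b
    rw [hε, mul_smul_comm, smul_comm ((lam b : ℂˣ) : ℂ)]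
    congr 1
    rw [Finset.mul_sum, Finset.smul_sum]
    rw [← Equiv.sum_comp (Equiv.mulLeft b) (fun a => ((lam b : ℂˣ) : ℂ) • w a)]
    apply Finset.sum_congr rfl
    intro a _
    show MonoidAlgebra.single (ι b) (1 : ℂ) * MonoidAlgebra.single (ι a) (((lam a)⁻¹ : ℂˣ) : ℂ) =
      ((lam b : ℂˣ) : ℂ) • MonoidAlgebra.single (ι (b * a)) (((lam (b * a))⁻¹ : ℂˣ) : ℂ)
    rw [MonoidAlgebra.single_mul_single, MonoidAlgebra.smul_single, map_mul, map_mul, one_mul,
      smul_eq_mul]
    congr 1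
    rw [mul_inv_rev, Units.val_mul, ← mul_assoc, mul_comm ((lam b : ℂˣ) : ℂ), mul_assoc,
      ← Units.val_mul, mul_inv_cancel, Units.val_one, mul_one]
  have hcardA : (Fintype.card A : ℂ) ≠ 0 := Nat.cast_ne_zero.mpr Fintype.card_ne_zero
  have hwε : ∀ a : A, w a * ε = ε := by
    intro a
    have h1 : w a = (((lam a)⁻¹ : ℂˣ) : ℂ) • MonoidAlgebra.single (ι a) (1 : ℂ) := by
      show MonoidAlgebra.single (ι a) (((lam a)⁻¹ : ℂˣ) : ℂ) = _
      rw [MonoidAlgebra.smul_single, smul_eq_mul, mul_one]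
    rw [h1, smul_mul_assoc, hP1, smul_smul, ← Units.val_mul, inv_mul_cancel, Units.val_one,
      one_smul]
  have hP2 : ε * ε = ε := by
    have h1 : ε * ε = ((Fintype.card A : ℂ))⁻¹ • ∑ a, w a * ε := by
      calc ε * ε = (((Fintype.card A : ℂ))⁻¹ • ∑ a, w a) * ε := by rw [← hε]
        _ = ((Fintype.card A : ℂ))⁻¹ • ∑ a, w a * ε := by rw [smul_mul_assoc, Finset.sum_mul]
    rw [h1, Finset.sum_congr rfl (fun a _ => hwε a), Finset.sum_const, Finset.card_univ,
      ← Nat.cast_smul_eq_nsmul ℂ, smul_smul, inv_mul_cancel₀ hcardA, one_smul]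
  have hP3 : ∀ x : MonoidAlgebra ℂ Γ, x * ε = ε * x := by
    have hw : ∀ (a : A) (g : Γ), MonoidAlgebra.of ℂ Γ g * w a = w a * MonoidAlgebra.of ℂ Γ g := by
      intro a g
      show MonoidAlgebra.single g (1 : ℂ) * MonoidAlgebra.single (ι a) (((lam a)⁻¹ : ℂˣ) : ℂ) =
        MonoidAlgebra.single (ι a) (((lam a)⁻¹ : ℂˣ) : ℂ) * MonoidAlgebra.single g (1 : ℂ)
      rw [MonoidAlgebra.single_mul_single, MonoidAlgebra.single_mul_single, one_mul, mul_one,
        Subgroup.mem_center_iff.mp (hc a) g]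
    intro x
    induction x using MonoidAlgebra.induction_on with
    | of g =>
      rw [hε, mul_smul_comm, smul_mul_assoc, Finset.mul_sum, Finset.sum_mul]
      congr 1
      exact Finset.sum_congr rfl (fun a _ => hw a g)
    | add x y hx hy => rw [add_mul, mul_add, hx, hy]
    | smul r x hx => rw [smul_mul_assoc, mul_smul_comm, hx]
  -- the image of `ε` in the product of matrix algebras
  have hy_idem : ∀ i, Φ ε i * Φ ε i = Φ ε i := by
    intro i
    have h1 : Φ ε * Φ ε = Φ ε := by rw [← map_mul, hP2]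
    exact congr_fun h1 i
  have hy_cent : ∀ i (m : Matrix (Fin (d i)) (Fin (d i)) ℂ), m * Φ ε i = Φ ε i * m := by
    intro i m
    have h1 := hP3 (Φ.symm (Pi.single i m))
    have h2 : Pi.single i m * Φ ε = Φ ε * Pi.single i m := by
      have := congrArg Φ h1
      rwa [map_mul, map_mul, Φ.apply_symm_apply] at this
    have h3 := congr_fun h2 i
    rwa [Pi.mul_apply, Pi.mul_apply, Pi.single_eq_same] at h3
  have hy01 : ∀ i, Φ ε i = 0 ∨ Φ ε i = 1 := by
    intro i
    have : NeZero (d i) := hdne i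
    have hmem : Φ ε i ∈ Set.center (Matrix (Fin (d i)) (Fin (d i)) ℂ) := by
      rw [Semigroup.mem_center_iff]
      intro m
      exact hy_cent i m
    rw [Matrix.center_eq_scalar_image] at hmem
    obtain ⟨c, -, hc'⟩ := hmem
    have h1 := hy_idem i
    rw [← hc', ← map_mul] at h1
    have hcc : c * c = c := Matrix.scalar_inj.mp h1
    have h2 : c * (c - 1) = 0 := by rw [mul_sub, hcc, mul_one, sub_self]
    rcases mul_eq_zero.mp h2 with h | h
    · left; rw [← hc', h, map_zero]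
    · right; rw [← hc', sub_eq_zero.mp h, map_one]
  let I : Finset (Fin n) := Finset.univ.filter (fun i => Φ ε i = 1)
  have hy : Φ ε = ∑ i ∈ I, (Pi.single i 1 : Π j, Matrix (Fin (d j)) (Fin (d j)) ℂ) := by
    funext j
    rw [Finset.sum_apply, Finset.sum_pi_single]
    by_cases hj : j ∈ I
    · rw [if_pos hj]; exact (Finset.mem_filter.mp hj).2
    · rw [if_neg hj]
      rcases hy01 j with h | h
      · exact h
      · have hjI : j ∈ I := Finset.mem_filter.mpr ⟨Finset.mem_univ j, h⟩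
        exact absurd hjI hj
  -- the trace of left multiplication by `ε`, computed on both sides
  have htr : LinearMap.trace ℂ (MonoidAlgebra ℂ Γ) (LinearMap.mul ℂ (MonoidAlgebra ℂ Γ) ε) =
      LinearMap.trace ℂ (Π j, Matrix (Fin (d j)) (Fin (d j)) ℂ)
        (LinearMap.mul ℂ (Π j, Matrix (Fin (d j)) (Fin (d j)) ℂ) (Φ ε)) := by
    have hconj : Φ.toLinearEquiv.conj (LinearMap.mul ℂ (MonoidAlgebra ℂ Γ) ε) =
        LinearMap.mul ℂ (Π j, Matrix (Fin (d j)) (Fin (d j)) ℂ) (Φ ε) := by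
      apply LinearMap.ext
      intro z
      rw [LinearEquiv.conj_apply_apply]
      show Φ (ε * Φ.symm z) = Φ ε * z
      rw [map_mul, Φ.apply_symm_apply]
    rw [← hconj, LinearMap.trace_conj']
  have hL : LinearMap.trace ℂ (MonoidAlgebra ℂ Γ) (LinearMap.mul ℂ (MonoidAlgebra ℂ Γ) ε) =
      (Fintype.card Γ : ℂ) * ((Fintype.card A : ℂ))⁻¹ := by
    have hwt : ∀ a : A, LinearMap.trace ℂ (MonoidAlgebra ℂ Γ)
        (LinearMap.mul ℂ (MonoidAlgebra ℂ Γ) (w a)) = if a = 1 then (Fintype.card Γ : ℂ) else 0 := by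
      intro a
      have h1 : w a = (((lam a)⁻¹ : ℂˣ) : ℂ) • MonoidAlgebra.single (ι a) (1 : ℂ) := by
        show MonoidAlgebra.single (ι a) (((lam a)⁻¹ : ℂˣ) : ℂ) = _
        rw [MonoidAlgebra.smul_single, smul_eq_mul, mul_one]
      rw [h1, map_smul, map_smul, trace_mul_single]
      by_cases ha : a = 1
      · rw [if_pos ha, if_pos (by rw [ha, map_one]), ha, map_one, inv_one, Units.val_one,
          one_smul]
      · rw [if_neg ha, if_neg (by
          intro h
          exact ha (hι (h.trans (map_one ι).symm))), smul_zero]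
    rw [hε, map_smul, map_smul, map_sum, map_sum, Finset.sum_congr rfl (fun a _ => hwt a),
      Finset.sum_ite_eq' Finset.univ (1 : A), if_pos (Finset.mem_univ _), smul_eq_mul, mul_comm]
  have hRt : LinearMap.trace ℂ (Π j, Matrix (Fin (d j)) (Fin (d j)) ℂ)
      (LinearMap.mul ℂ (Π j, Matrix (Fin (d j)) (Fin (d j)) ℂ) (Φ ε)) =
        ((∑ i ∈ I, d i ^ 2 : ℕ) : ℂ) := by
    rw [hy, map_sum, map_sum, Nat.cast_sum]
    exact Finset.sum_congr rfl (fun i _ => trace_mul_pi_single d i)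
  have hsum : (∑ i ∈ I, d i ^ 2) * Fintype.card A = Fintype.card Γ := by
    have h1 : ((∑ i ∈ I, d i ^ 2 : ℕ) : ℂ) = (Fintype.card Γ : ℂ) * ((Fintype.card A : ℂ))⁻¹ := by
      rw [← hRt, ← htr, hL]
    have h2 : ((∑ i ∈ I, d i ^ 2 : ℕ) : ℂ) * (Fintype.card A : ℂ) = (Fintype.card Γ : ℂ) := by
      rw [h1, mul_assoc, inv_mul_cancel₀ hcardA, mul_one]
    exact_mod_cast h2
  -- for `i ∈ I` the exponent divides `d i`
  have hdvd : ∀ i ∈ I, Monoid.exponent A ∣ d i := by
    intro i hi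
    have hyi : Φ ε i = 1 := (Finset.mem_filter.mp hi).2
    let ρ : Γ →* Matrix (Fin (d i)) (Fin (d i)) ℂ :=
      { toFun := fun g => Φ (MonoidAlgebra.single g (1 : ℂ)) i
        map_one' := by
          have h0 : (MonoidAlgebra.single (1 : Γ) (1 : ℂ)) = 1 := rfl
          rw [h0, map_one]; rfl
        map_mul' := by
          intro g h
          have h0 : MonoidAlgebra.single (g * h) (1 : ℂ) =
              MonoidAlgebra.single g 1 * MonoidAlgebra.single h 1 := by
            rw [MonoidAlgebra.single_mul_single, mul_one]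
          rw [h0, map_mul]; rfl }
    have hρapp : ∀ g, ρ g = Φ (MonoidAlgebra.single g (1 : ℂ)) i := fun g => rfl
    have hρ : ∀ a : A, ρ (ι a) = ((lam a : ℂˣ) : ℂ) • (1 : Matrix (Fin (d i)) (Fin (d i)) ℂ) := by
      intro a
      have h1 := congrArg (fun x => Φ x i) (hP1 a)
      simp only [map_mul, Pi.mul_apply, hyi, mul_one, map_smul, Pi.smul_apply] at h1
      rw [hρapp]
      exact h1
    let D : Γ →* ℂˣ := (Matrix.detMonoidHom.comp ρ).toHomUnits
    have hDval : ∀ g, ((D g : ℂˣ) : ℂ) = Matrix.det (ρ g) := fun g => rfl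
    have hD : ∀ a : A, D (ι a) = 1 := by
      intro a
      have := Abelianization.commutator_subset_ker D (hd a)
      exact this
    have hpow : lam ^ (d i) = 1 := by
      ext a
      have h1 := congrArg Units.val (hD a)
      rw [hDval, hρ, Matrix.det_smul, Matrix.det_one, mul_one, Fintype.card_fin] at h1
      rw [MonoidHom.pow_apply, Units.val_pow_eq_pow_val, h1]
      rfl
    rw [← hexp, ← hlam]
    exact orderOf_dvd_of_pow_eq_one hpow
  have h1 : Monoid.exponent A ^ 2 ∣ ∑ i ∈ I, d i ^ 2 :=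
    Finset.dvd_sum (fun i hi => pow_dvd_pow_of_dvd (hdvd i hi) 2)
  rw [Nat.card_eq_fintype_card, Nat.card_eq_fintype_card, ← hsum]
  exact Nat.mul_dvd_mul_right h1 _

end SchurExp

end Cfsg.Agent.Lib.Helper35
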