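import Mathlib
import Cfsg.Prelude.Def_KGroupFacts
import Cfsg.Agent.Lib.Helper35.Schur

set_option autoImplicit false

namespace Cfsg.Agent.Lib.Helper35

universe u v w x

open scoped commutatorElement

section Prod

variable {Q₁ : Type u} {Q₂ : Type v} [Group Q₁] [Group Q₂] {Δ : Type w} [Group Δ]
  (τ : Δ →* Q₁ × Q₂)

/-- preimage of the first factor -/
def D1 : Subgroup Δ := ((MonoidHom.snd Q₁ Q₂).comp τ).ker

/-- preimage of the second factor -/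
def D2 : Subgroup Δ := ((MonoidHom.fst Q₁ Q₂).comp τ).ker

instance D1_normal : (D1 τ).Normal := by unfold D1; infer_instance

instance D2_normal : (D2 τ).Normal := by unfold D2; infer_instance

theorem mem_D1 {d : Δ} : d ∈ D1 τ ↔ (τ d).2 = 1 := Iff.rfl

theorem mem_D2 {d : Δ} : d ∈ D2 τ ↔ (τ d).1 = 1 := Iff.rfl

theorem ker_le_D1 : τ.ker ≤ D1 τ := by
  intro d hd
  rw [mem_D1, MonoidHom.mem_ker.mp hd]; rfl

theorem ker_le_D2 : τ.ker ≤ D2 τ := by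
  intro d hd
  rw [mem_D2, MonoidHom.mem_ker.mp hd]; rfl

variable {τ}

theorem exists_mul_D (hτ : Function.Surjective τ) (d : Δ) :
    ∃ d₁ ∈ D1 τ, ∃ d₂ ∈ D2 τ, d = d₁ * d₂ := by
  obtain ⟨d₁, hd₁⟩ := hτ ((τ d).1, 1)
  refine ⟨d₁, ?_, d₁⁻¹ * d, ?_, by group⟩
  · rw [mem_D1, hd₁]
  · rw [mem_D2, map_mul, map_inv, hd₁]
    show ((τ d).1)⁻¹ * (τ d).1 = 1
    group

theorem comm_D_le_ker : ⁅D1 τ, D2 τ⁆ ≤ τ.ker := by
  rw [Subgroup.commutator_le]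
  intro a ha b hb
  rw [MonoidHom.mem_ker, map_commutatorElement]
  apply Prod.ext
  · show ⁅(τ a).1, (τ b).1⁆ = 1
    rw [(mem_D2 τ).mp hb, commutatorElement_one_right]
  · show ⁅(τ a).2, (τ b).2⁆ = 1
    rw [(mem_D1 τ).mp ha, commutatorElement_one_left]

theorem commutator_le_sup (hτ : Function.Surjective τ) :
    commutator Δ ≤ ⁅D1 τ, D1 τ⁆ ⊔ ⁅D2 τ, D2 τ⁆ ⊔ ⁅D1 τ, D2 τ⁆ := by
  have hN : (⁅D1 τ, D1 τ⁆ ⊔ ⁅D2 τ, D2 τ⁆ ⊔ ⁅D1 τ, D2 τ⁆).Normal := inferInstance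
  have h11 : ⁅D1 τ, D1 τ⁆ ≤ ⁅D1 τ, D1 τ⁆ ⊔ ⁅D2 τ, D2 τ⁆ ⊔ ⁅D1 τ, D2 τ⁆ :=
    le_sup_left.trans le_sup_left
  have h22 : ⁅D2 τ, D2 τ⁆ ≤ ⁅D1 τ, D1 τ⁆ ⊔ ⁅D2 τ, D2 τ⁆ ⊔ ⁅D1 τ, D2 τ⁆ :=
    le_sup_right.trans le_sup_left
  have h12 : ⁅D1 τ, D2 τ⁆ ≤ ⁅D1 τ, D1 τ⁆ ⊔ ⁅D2 τ, D2 τ⁆ ⊔ ⁅D1 τ, D2 τ⁆ := le_sup_right
  have h21 : ⁅D2 τ, D1 τ⁆ ≤ ⁅D1 τ, D1 τ⁆ ⊔ ⁅D2 τ, D2 τ⁆ ⊔ ⁅D1 τ, D2 τ⁆ := by
    rw [Subgroup.commutator_comm]; exact h12
  rw [commutator_def, Subgroup.commutator_le]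
  intro x _ y _
  obtain ⟨x₁, hx₁, x₂, hx₂, rfl⟩ := exists_mul_D hτ x
  obtain ⟨y₁, hy₁, y₂, hy₂, rfl⟩ := exists_mul_D hτ y
  have key : ∀ a, a ∈ D1 τ ∨ a ∈ D2 τ →
      ⁅a, y₁ * y₂⁆ ∈ ⁅D1 τ, D1 τ⁆ ⊔ ⁅D2 τ, D2 τ⁆ ⊔ ⁅D1 τ, D2 τ⁆ := by
    intro a ha
    rw [commutatorElement_mul_right_eq_mul_conj, mul_assoc, mul_assoc]
    rcases ha with ha | ha
    · refine mul_mem (h11 (Subgroup.commutator_mem_commutator ha hy₁)) ?_
      rw [← mul_assoc]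
      exact hN.conj_mem _ (h12 (Subgroup.commutator_mem_commutator ha hy₂)) _
    · refine mul_mem (h21 (Subgroup.commutator_mem_commutator ha hy₁)) ?_
      rw [← mul_assoc]
      exact hN.conj_mem _ (h22 (Subgroup.commutator_mem_commutator ha hy₂)) _
  rw [commutatorElement_mul_left_eq_conj_mul]
  exact mul_mem (hN.conj_mem _ (key x₂ (Or.inr hx₂)) _) (key x₁ (Or.inl hx₁))

/-- decomposition of the part of the kernel inside the commutator subgroup -/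
theorem ker_decomp (hτ : Function.Surjective τ) {k : Δ} (hk : k ∈ τ.ker)
    (hk' : k ∈ commutator Δ) :
    ∃ a ∈ τ.ker ⊓ ⁅D1 τ, D1 τ⁆, ∃ b ∈ τ.ker ⊓ ⁅D2 τ, D2 τ⁆, ∃ c ∈ ⁅D1 τ, D2 τ⁆,
      k = a * b * c := by
  have h := commutator_le_sup hτ hk'
  obtain ⟨ab, hab, c, hc, rfl⟩ := Subgroup.mem_sup_of_normal_right.mp h
  obtain ⟨a, ha, b, hb, rfl⟩ := Subgroup.mem_sup_of_normal_right.mp hab
  have hc1 : τ c = 1 := comm_D_le_ker hc
  have ha1 : a ∈ D1 τ := Subgroup.commutator_le_left _ _ ha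
  have hb2 : b ∈ D2 τ := Subgroup.commutator_le_left _ _ hb
  have hk1 : τ a * τ b = 1 := by
    have : τ (a * b * c) = 1 := hk
    rw [map_mul, map_mul, hc1, mul_one] at this
    exact this
  have e1 : (τ a).1 = 1 := by
    have := congrArg Prod.fst hk1
    have h2 : (τ a).1 * (τ b).1 = 1 := this
    rw [(mem_D2 τ).mp hb2, mul_one] at h2
    exact h2
  have e2 : (τ b).2 = 1 := by
    have := congrArg Prod.snd hk1
    have h2 : (τ a).2 * (τ b).2 = 1 := this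
    rw [(mem_D1 τ).mp ha1, one_mul] at h2
    exact h2
  have hta : τ a = 1 := Prod.ext e1 ((mem_D1 τ).mp ha1)
  have htb : τ b = 1 := Prod.ext ((mem_D2 τ).mp hb2) e2
  exact ⟨a, Subgroup.mem_inf.mpr ⟨hta, ha⟩, b, Subgroup.mem_inf.mpr ⟨htb, hb⟩, c, hc, rfl⟩

/-- the first factor's multiplier maps onto the part of the kernel in `[Δ₁, Δ₁]` -/
theorem exists_surj_K1 [Finite Q₁] {A : Type x} [CommGroup A] (hA : HasSchurMultiplier Q₁ A)
    (hτ : Function.Surjective τ) (hc : τ.ker ≤ Subgroup.center Δ) :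
    ∃ p : A →* ↥(τ.ker ⊓ ⁅D1 τ, D1 τ⁆), Function.Surjective p := by
  let τ₁ : D1 τ →* Q₁ := ((MonoidHom.fst Q₁ Q₂).comp τ).comp (D1 τ).subtype
  have hτ₁ : Function.Surjective τ₁ := by
    intro q
    obtain ⟨d, hd⟩ := hτ (q, 1)
    exact ⟨⟨d, by rw [mem_D1, hd]⟩, by show (τ d).1 = q; rw [hd]⟩
  have hker : ∀ d : D1 τ, d ∈ τ₁.ker ↔ (d : Δ) ∈ τ.ker := by
    intro d
    constructor
    · intro h
      exact Prod.ext h ((mem_D1 τ).mp d.2)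
    · intro h
      show (τ d).1 = 1
      rw [MonoidHom.mem_ker.mp h]; rfl
  have hc₁ : τ₁.ker ≤ Subgroup.center (D1 τ) := by
    intro d hd
    have h1 := hc ((hker d).mp hd)
    rw [Subgroup.mem_center_iff] at h1 ⊢
    intro g
    exact Subtype.ext (h1 g)
  obtain ⟨p, hp⟩ := exists_surj_of_central hA τ₁ hτ₁ hc₁
  have hmem : ∀ y : ↥(τ₁.ker ⊓ commutator (D1 τ)),
      ((y : D1 τ) : Δ) ∈ τ.ker ⊓ ⁅D1 τ, D1 τ⁆ := by
    intro y
    have hy := Subgroup.mem_inf.mp y.2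
    refine Subgroup.mem_inf.mpr ⟨(hker _).mp hy.1, ?_⟩
    rw [← Subgroup.map_subtype_commutator]
    exact Subgroup.mem_map_of_mem _ hy.2
  let j : ↥(τ₁.ker ⊓ commutator (D1 τ)) →* ↥(τ.ker ⊓ ⁅D1 τ, D1 τ⁆) :=
    { toFun := fun y => ⟨((y : D1 τ) : Δ), hmem y⟩
      map_one' := rfl
      map_mul' := fun _ _ => rfl }
  refine ⟨j.comp p, ?_⟩
  rintro ⟨k, hk⟩
  have hk' := Subgroup.mem_inf.mp hk
  have h2 := hk'.2
  rw [← Subgroup.map_subtype_commutator] at h2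
  obtain ⟨y, hy, rfl⟩ := h2
  have hy' : y ∈ τ₁.ker ⊓ commutator (D1 τ) :=
    Subgroup.mem_inf.mpr ⟨(hker y).mpr hk'.1, hy⟩
  obtain ⟨a, ha⟩ := hp ⟨y, hy'⟩
  refine ⟨a, ?_⟩
  show j (p a) = _
  rw [ha]; rfl

/-- the second factor's multiplier maps onto the part of the kernel in `[Δ₂, Δ₂]` -/
theorem exists_surj_K2 [Finite Q₂] {B : Type x} [CommGroup B] (hB : HasSchurMultiplier Q₂ B)
    (hτ : Function.Surjective τ) (hc : τ.ker ≤ Subgroup.center Δ) :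
    ∃ p : B →* ↥(τ.ker ⊓ ⁅D2 τ, D2 τ⁆), Function.Surjective p := by
  let τ₂ : D2 τ →* Q₂ := ((MonoidHom.snd Q₁ Q₂).comp τ).comp (D2 τ).subtype
  have hτ₂ : Function.Surjective τ₂ := by
    intro q
    obtain ⟨d, hd⟩ := hτ (1, q)
    exact ⟨⟨d, by rw [mem_D2, hd]⟩, by show (τ d).2 = q; rw [hd]⟩
  have hker : ∀ d : D2 τ, d ∈ τ₂.ker ↔ (d : Δ) ∈ τ.ker := by
    intro d
    constructor
    · intro h
      exact Prod.ext ((mem_D2 τ).mp d.2) h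
    · intro h
      show (τ d).2 = 1
      rw [MonoidHom.mem_ker.mp h]; rfl
  have hc₂ : τ₂.ker ≤ Subgroup.center (D2 τ) := by
    intro d hd
    have h1 := hc ((hker d).mp hd)
    rw [Subgroup.mem_center_iff] at h1 ⊢
    intro g
    exact Subtype.ext (h1 g)
  obtain ⟨p, hp⟩ := exists_surj_of_central hB τ₂ hτ₂ hc₂
  have hmem : ∀ y : ↥(τ₂.ker ⊓ commutator (D2 τ)),
      ((y : D2 τ) : Δ) ∈ τ.ker ⊓ ⁅D2 τ, D2 τ⁆ := by
    intro y
    have hy := Subgroup.mem_inf.mp y.2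
    refine Subgroup.mem_inf.mpr ⟨(hker _).mp hy.1, ?_⟩
    rw [← Subgroup.map_subtype_commutator]
    exact Subgroup.mem_map_of_mem _ hy.2
  let j : ↥(τ₂.ker ⊓ commutator (D2 τ)) →* ↥(τ.ker ⊓ ⁅D2 τ, D2 τ⁆) :=
    { toFun := fun y => ⟨((y : D2 τ) : Δ), hmem y⟩
      map_one' := rfl
      map_mul' := fun _ _ => rfl }
  refine ⟨j.comp p, ?_⟩
  rintro ⟨k, hk⟩
  have hk' := Subgroup.mem_inf.mp hk
  have h2 := hk'.2
  rw [← Subgroup.map_subtype_commutator] at h2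
  obtain ⟨y, hy, rfl⟩ := h2
  have hy' : y ∈ τ₂.ker ⊓ commutator (D2 τ) :=
    Subgroup.mem_inf.mpr ⟨(hker y).mpr hk'.1, hy⟩
  obtain ⟨a, ha⟩ := hp ⟨y, hy'⟩
  refine ⟨a, ?_⟩
  show j (p a) = _
  rw [ha]; rfl

end Prod

section Pairing

open scoped IsMulCommutative

variable {Q₁ : Type u} {Q₂ : Type v} [Group Q₁] [Group Q₂] {Δ : Type w} [Group Δ]
  {τ : Δ →* Q₁ × Q₂}

/-- restriction of `τ` to the preimage of the first factor -/
def tau1 (τ : Δ →* Q₁ × Q₂) : D1 τ →* Q₁ :=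
  ((MonoidHom.fst Q₁ Q₂).comp τ).comp (D1 τ).subtype

/-- restriction of `τ` to the preimage of the second factor -/
def tau2 (τ : Δ →* Q₁ × Q₂) : D2 τ →* Q₂ :=
  ((MonoidHom.snd Q₁ Q₂).comp τ).comp (D2 τ).subtype

theorem tau1_surjective (hτ : Function.Surjective τ) : Function.Surjective (tau1 τ) := by
  intro q
  obtain ⟨d, hd⟩ := hτ (q, 1)
  exact ⟨⟨d, by rw [mem_D1, hd]⟩, by show (τ d).1 = q; rw [hd]⟩

theorem tau2_surjective (hτ : Function.Surjective τ) : Function.Surjective (tau2 τ) := by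
  intro q
  obtain ⟨d, hd⟩ := hτ (1, q)
  exact ⟨⟨d, by rw [mem_D2, hd]⟩, by show (τ d).2 = q; rw [hd]⟩

theorem mem_ker_tau1 (d : D1 τ) : d ∈ (tau1 τ).ker ↔ (d : Δ) ∈ τ.ker := by
  constructor
  · intro h
    exact Prod.ext h ((mem_D1 τ).mp d.2)
  · intro h
    show (τ d).1 = 1
    rw [MonoidHom.mem_ker.mp h]; rfl

theorem mem_ker_tau2 (d : D2 τ) : d ∈ (tau2 τ).ker ↔ (d : Δ) ∈ τ.ker := by
  constructor
  · intro h
    exact Prod.ext ((mem_D2 τ).mp d.2) h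
  · intro h
    show (τ d).2 = 1
    rw [MonoidHom.mem_ker.mp h]; rfl

theorem pair_central (hc : τ.ker ≤ Subgroup.center Δ) {x y : Δ} (hx : x ∈ D1 τ)
    (hy : y ∈ D2 τ) : ⁅x, y⁆ ∈ Subgroup.center Δ :=
  hc (comm_D_le_ker (Subgroup.commutator_mem_commutator hx hy))

theorem pair_mul_left (hc : τ.ker ≤ Subgroup.center Δ) {x x' y : Δ} (hx' : x' ∈ D1 τ)
    (hy : y ∈ D2 τ) : ⁅x * x', y⁆ = ⁅x, y⁆ * ⁅x', y⁆ := by
  have h := Subgroup.mem_center_iff.mp (pair_central hc hx' hy)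
  rw [commutatorElement_mul_left_eq_conj_mul]
  calc x * ⁅x', y⁆ * x⁻¹ * ⁅x, y⁆ = ⁅x', y⁆ * x * x⁻¹ * ⁅x, y⁆ := by rw [h x]
    _ = ⁅x', y⁆ * ⁅x, y⁆ := by group
    _ = ⁅x, y⁆ * ⁅x', y⁆ := (h _).symm

theorem pair_mul_right (hc : τ.ker ≤ Subgroup.center Δ) {x y y' : Δ} (hx : x ∈ D1 τ)
    (hy' : y' ∈ D2 τ) : ⁅x, y * y'⁆ = ⁅x, y⁆ * ⁅x, y'⁆ := by
  have h := Subgroup.mem_center_iff.mp (pair_central hc hx hy')
  rw [commutatorElement_mul_right_eq_mul_conj]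
  calc ⁅x, y⁆ * y * ⁅x, y'⁆ * y⁻¹ = ⁅x, y⁆ * (y * ⁅x, y'⁆) * y⁻¹ := by group
    _ = ⁅x, y⁆ * (⁅x, y'⁆ * y) * y⁻¹ := by rw [h y]
    _ = ⁅x, y⁆ * ⁅x, y'⁆ := by group

/-- the pairing as a hom in the first variable -/
def pairL (hc : τ.ker ≤ Subgroup.center Δ) (y : D2 τ) : D1 τ →* Subgroup.center Δ :=
  MonoidHom.mk' (fun x => ⟨⁅(x : Δ), (y : Δ)⁆, pair_central hc x.2 y.2⟩)
    (fun _ b => Subtype.ext (pair_mul_left hc b.2 y.2))

/-- the pairing as a hom in the second variable -/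
def pairR (hc : τ.ker ≤ Subgroup.center Δ) (x : D1 τ) : D2 τ →* Subgroup.center Δ :=
  MonoidHom.mk' (fun y => ⟨⁅(x : Δ), (y : Δ)⁆, pair_central hc x.2 y.2⟩)
    (fun _ b => Subtype.ext (pair_mul_right hc x.2 b.2))

theorem pairL_apply (hc : τ.ker ≤ Subgroup.center Δ) (y : D2 τ) (x : D1 τ) :
    ((pairL hc y x : Subgroup.center Δ) : Δ) = ⁅(x : Δ), (y : Δ)⁆ := rfl

theorem pairR_apply (hc : τ.ker ≤ Subgroup.center Δ) (x : D1 τ) (y : D2 τ) :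
    ((pairR hc x y : Subgroup.center Δ) : Δ) = ⁅(x : Δ), (y : Δ)⁆ := rfl

theorem ker_tau1_le_ker_pairL (hc : τ.ker ≤ Subgroup.center Δ) (y : D2 τ) :
    (tau1 τ).ker ≤ (pairL hc y).ker := by
  intro k hk
  have h1 : (k : Δ) ∈ Subgroup.center Δ := hc ((mem_ker_tau1 k).mp hk)
  rw [MonoidHom.mem_ker]
  apply Subtype.ext
  rw [pairL_apply]
  show ⁅(k : Δ), (y : Δ)⁆ = 1
  rw [commutatorElement_eq_one_iff_mul_comm]
  exact (Subgroup.mem_center_iff.mp h1 _).symm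

theorem ker_tau2_le_ker_pairR (hc : τ.ker ≤ Subgroup.center Δ) (x : D1 τ) :
    (tau2 τ).ker ≤ (pairR hc x).ker := by
  intro k hk
  have h1 : (k : Δ) ∈ Subgroup.center Δ := hc ((mem_ker_tau2 k).mp hk)
  rw [MonoidHom.mem_ker]
  apply Subtype.ext
  rw [pairR_apply]
  show ⁅(x : Δ), (k : Δ)⁆ = 1
  rw [commutatorElement_eq_one_iff_mul_comm]
  exact Subgroup.mem_center_iff.mp h1 _

/-- a hom from `G` to a commutative group that kills the kernel of a surjection `φ : G → Q`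
kills every `card (Abelianization Q)`-th power -/
theorem pow_card_abelianization_mem_ker {G Q C : Type*} [Group G] [Group Q] [CommGroup C]
    [Finite Q] (φ : G →* Q) (hφ : Function.Surjective φ) (h : G →* C) (hk : φ.ker ≤ h.ker)
    (g : G) : h g ^ Nat.card (Abelianization Q) = 1 := by
  have h1 : φ g ^ Nat.card (Abelianization Q) ∈ commutator Q := by
    rw [← Abelianization.ker_of, MonoidHom.mem_ker, map_pow]
    exact pow_card_eq_one'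
  rw [← map_commutator_of_surjective φ hφ] at h1
  obtain ⟨d, hd, hdg⟩ := h1
  have hk1 : d⁻¹ * g ^ Nat.card (Abelianization Q) ∈ φ.ker := by
    rw [MonoidHom.mem_ker, map_mul, map_inv, hdg, map_pow]; group
  have h2 : h (d⁻¹ * g ^ Nat.card (Abelianization Q)) = 1 := hk hk1
  have h3 : h d = 1 := Abelianization.commutator_subset_ker h hd
  rw [map_mul, map_inv, h3, inv_one, one_mul, map_pow] at h2
  exact h2

/-- the two preimages commute when the commutator quotients have coprime orders -/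
theorem comm_D_eq_bot_of_coprime [Finite Q₁] [Finite Q₂] (hτ : Function.Surjective τ)
    (hc : τ.ker ≤ Subgroup.center Δ)
    (hcop : Nat.Coprime (Nat.card (Abelianization Q₁)) (Nat.card (Abelianization Q₂))) :
    ⁅D1 τ, D2 τ⁆ = ⊥ := by
  rw [eq_bot_iff, Subgroup.commutator_le]
  intro x hx y hy
  rw [Subgroup.mem_bot]
  have h1 := pow_card_abelianization_mem_ker (tau1 τ) (tau1_surjective hτ) (pairL hc ⟨y, hy⟩)
    (ker_tau1_le_ker_pairL hc ⟨y, hy⟩) ⟨x, hx⟩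
  have h2 := pow_card_abelianization_mem_ker (tau2 τ) (tau2_surjective hτ) (pairR hc ⟨x, hx⟩)
    (ker_tau2_le_ker_pairR hc ⟨x, hx⟩) ⟨y, hy⟩
  have h1' : ⁅x, y⁆ ^ Nat.card (Abelianization Q₁) = 1 := by
    have := congrArg (fun z : Subgroup.center Δ => (z : Δ)) h1
    simp only [Subgroup.coe_pow, Subgroup.coe_one] at this
    exact this
  have h2' : ⁅x, y⁆ ^ Nat.card (Abelianization Q₂) = 1 := by
    have := congrArg (fun z : Subgroup.center Δ => (z : Δ)) h2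
    simp only [Subgroup.coe_pow, Subgroup.coe_one] at this
    exact this
  have hd := Nat.dvd_gcd (orderOf_dvd_of_pow_eq_one h1') (orderOf_dvd_of_pow_eq_one h2')
  rw [hcop.gcd_eq_one, Nat.dvd_one] at hd
  exact orderOf_eq_one_iff.mp hd

end Pairing

section ProdMap

variable {Q₁ : Type u} {Q₂ : Type v} [Group Q₁] [Group Q₂] {Γ₁ : Type w} {Γ₂ : Type x}
  [Group Γ₁] [Group Γ₂]

theorem commutator_prod : commutator (Γ₁ × Γ₂) = (commutator Γ₁).prod (commutator Γ₂) := by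
  rw [commutator_def, commutator_def, commutator_def, ← Subgroup.top_prod_top,
    Subgroup.commutator_prod_prod]

theorem isStemExtension_prodMap {σ₁ : Γ₁ →* Q₁} {σ₂ : Γ₂ →* Q₂} (h₁ : IsStemExtension σ₁)
    (h₂ : IsStemExtension σ₂) : IsStemExtension (σ₁.prodMap σ₂) := by
  refine ⟨Function.Surjective.prodMap h₁.1 h₂.1, ?_, ?_⟩
  · rw [MonoidHom.ker_prodMap, Subgroup.center_prod]
    exact Subgroup.prod_mono h₁.2.1 h₂.2.1
  · rw [MonoidHom.ker_prodMap, commutator_prod]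
    exact Subgroup.prod_mono h₁.2.2 h₂.2.2

/-- the kernel of a product map -/
noncomputable def kerProdMapEquiv (σ₁ : Γ₁ →* Q₁) (σ₂ : Γ₂ →* Q₂) :
    (σ₁.prodMap σ₂).ker ≃* σ₁.ker × σ₂.ker :=
  (MulEquiv.subgroupCongr (MonoidHom.ker_prodMap σ₁ σ₂)).trans (Subgroup.prodEquiv _ _)

end ProdMap

end Cfsg.Agent.Lib.Helper35
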