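import Mathlib
import Cfsg.Prelude.Def_KGroupFacts
import Cfsg.Agent.Lib.Helper35.Schur
import Cfsg.Agent.Lib.Helper35.SchurProd

set_option autoImplicit false

namespace Cfsg.Agent.Lib.Helper35

universe u v w x x'

open scoped commutatorElement

section Heis

open TensorProduct

/-- the tensor product of the abelianizations, multiplicatively -/
abbrev TT (Q₁ : Type u) (Q₂ : Type v) [Group Q₁] [Group Q₂] : Type (max u v) :=
  Multiplicative (Additive (Abelianization Q₁) ⊗[ℤ] Additive (Abelianization Q₂))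

theorem map_commutator_le {G H : Type*} [Group G] [Group H] (φ : G →* H) {x : G}
    (hx : x ∈ commutator G) : φ x ∈ commutator H := by
  have : (commutator G).map φ ≤ commutator H := by
    rw [commutator_def, commutator_def, Subgroup.map_commutator]
    exact Subgroup.commutator_mono le_top le_top
  exact this (Subgroup.mem_map_of_mem φ hx)

instance finite_TT (Q₁ : Type u) (Q₂ : Type v) [Group Q₁] [Group Q₂] [Finite Q₁] [Finite Q₂] :
    Finite (TT Q₁ Q₂) := by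
  have h2 : Module.IsTorsion ℤ
      (Additive (Abelianization Q₁) ⊗[ℤ] Additive (Abelianization Q₂)) := by
    intro x
    have hne : (Nat.card (Abelianization Q₁) : ℤ) ≠ 0 := by
      have : 0 < Nat.card (Abelianization Q₁) := Nat.card_pos
      exact_mod_cast this.ne'
    refine ⟨⟨(Nat.card (Abelianization Q₁) : ℤ), mem_nonZeroDivisors_of_ne_zero hne⟩, ?_⟩
    show (Nat.card (Abelianization Q₁) : ℤ) • x = 0
    induction x using TensorProduct.induction_on with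
    | zero => rw [smul_zero]
    | tmul a b =>
      rw [TensorProduct.smul_tmul', natCast_zsmul]
      have : Nat.card (Abelianization Q₁) • a = 0 := by
        have h := card_nsmul_eq_zero' (G := Additive (Abelianization Q₁)) (x := a)
        rw [Nat.card_congr Additive.ofMul.symm] at h
        exact h
      rw [this, TensorProduct.zero_tmul]
    | add x y hx hy => rw [smul_add, hx, hy, add_zero]
  have h1 : Module.Finite ℤ (Additive (Abelianization Q₁) ⊗[ℤ] Additive (Abelianization Q₂)) :=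
    Module.Finite.tensorProduct ℤ _ _
  have h3 : Finite (Additive (Abelianization Q₁) ⊗[ℤ] Additive (Abelianization Q₂)) :=
    Module.finite_of_fg_torsion _ h2
  exact Finite.of_equiv _ Multiplicative.ofAdd

variable {Q₁ : Type u} {Q₂ : Type v} [Group Q₁] [Group Q₂] {Γ₁ : Type w} {Γ₂ : Type x}
  [Group Γ₁] [Group Γ₂] (σ₁ : Γ₁ →* Q₁) (σ₂ : Γ₂ →* Q₂)

/-- the bimultiplicative cocycle -/
def omega (g₁ : Γ₁) (g₂ : Γ₂) : TT Q₁ Q₂ :=
  Multiplicative.ofAdd (Additive.ofMul (Abelianization.of (σ₁ g₁)) ⊗ₜ[ℤ]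
    Additive.ofMul (Abelianization.of (σ₂ g₂)))

theorem omega_mul_left (g g' : Γ₁) (h : Γ₂) :
    omega σ₁ σ₂ (g * g') h = omega σ₁ σ₂ g h * omega σ₁ σ₂ g' h := by
  unfold omega
  rw [map_mul, map_mul, ofMul_mul, TensorProduct.add_tmul]
  rfl

theorem omega_mul_right (g : Γ₁) (h h' : Γ₂) :
    omega σ₁ σ₂ g (h * h') = omega σ₁ σ₂ g h * omega σ₁ σ₂ g h' := by
  unfold omega
  rw [map_mul, map_mul, ofMul_mul, TensorProduct.tmul_add]
  rfl

theorem omega_ker_left {g : Γ₁} (hg : g ∈ σ₁.ker) (h : Γ₂) : omega σ₁ σ₂ g h = 1 := by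
  unfold omega
  rw [MonoidHom.mem_ker.mp hg, map_one, ofMul_one, TensorProduct.zero_tmul]
  rfl

theorem omega_ker_right (g : Γ₁) {h : Γ₂} (hh : h ∈ σ₂.ker) : omega σ₁ σ₂ g h = 1 := by
  unfold omega
  rw [MonoidHom.mem_ker.mp hh, map_one, ofMul_one, TensorProduct.tmul_zero]
  rfl

theorem omega_one_left (h : Γ₂) : omega σ₁ σ₂ 1 h = 1 :=
  omega_ker_left σ₁ σ₂ (Subgroup.one_mem _) h

theorem omega_one_right (g : Γ₁) : omega σ₁ σ₂ g 1 = 1 :=
  omega_ker_right σ₁ σ₂ g (Subgroup.one_mem _)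

/-- the action of `Γ₁` on `Γ₂ × T` defining the twisted product -/
def heisAct : Γ₁ →* MulAut (Γ₂ × TT Q₁ Q₂) where
  toFun g :=
    { toFun := fun n => (n.1, n.2 * omega σ₁ σ₂ g n.1)
      invFun := fun n => (n.1, n.2 * (omega σ₁ σ₂ g n.1)⁻¹)
      left_inv := fun n => by simp
      right_inv := fun n => by simp
      map_mul' := fun n n' => by
        apply Prod.ext
        · rfl
        · show n.2 * n'.2 * omega σ₁ σ₂ g (n.1 * n'.1) =
            n.2 * omega σ₁ σ₂ g n.1 * (n'.2 * omega σ₁ σ₂ g n'.1)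
          rw [omega_mul_right, mul_mul_mul_comm] }
  map_one' := by
    apply MulEquiv.ext
    intro n
    apply Prod.ext
    · rfl
    · show n.2 * omega σ₁ σ₂ 1 n.1 = n.2
      rw [omega_one_left, mul_one]
  map_mul' := fun g g' => by
    apply MulEquiv.ext
    intro n
    apply Prod.ext
    · rfl
    · show n.2 * omega σ₁ σ₂ (g * g') n.1 = n.2 * omega σ₁ σ₂ g' n.1 * omega σ₁ σ₂ g n.1
      rw [omega_mul_left, mul_comm (omega σ₁ σ₂ g n.1), mul_assoc]

theorem heisAct_apply (g : Γ₁) (n : Γ₂ × TT Q₁ Q₂) :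
    heisAct σ₁ σ₂ g n = (n.1, n.2 * omega σ₁ σ₂ g n.1) := rfl

/-- the twisted product -/
abbrev Heis := (Γ₂ × TT Q₁ Q₂) ⋊[heisAct σ₁ σ₂] Γ₁

theorem heis_mul_left_fst (a b : Heis σ₁ σ₂) : (a * b).left.1 = a.left.1 * b.left.1 := rfl

theorem heis_mul_left_snd (a b : Heis σ₁ σ₂) :
    (a * b).left.2 = a.left.2 * (b.left.2 * omega σ₁ σ₂ a.right b.left.1) := rfl

/-- the projection of the twisted product -/
def heisProj : Heis σ₁ σ₂ →* Q₁ × Q₂ :=
  MonoidHom.mk' (fun z => (σ₁ z.right, σ₂ z.left.1)) (by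
    intro a b
    apply Prod.ext
    · show σ₁ (a * b).right = σ₁ a.right * σ₁ b.right
      rw [SemidirectProduct.mul_right, map_mul]
    · show σ₂ (a * b).left.1 = σ₂ a.left.1 * σ₂ b.left.1
      rw [heis_mul_left_fst, map_mul])

theorem heisProj_apply (z : Heis σ₁ σ₂) : heisProj σ₁ σ₂ z = (σ₁ z.right, σ₂ z.left.1) := rfl

theorem mem_ker_heisProj (z : Heis σ₁ σ₂) :
    z ∈ (heisProj σ₁ σ₂).ker ↔ z.right ∈ σ₁.ker ∧ z.left.1 ∈ σ₂.ker := by
  rw [MonoidHom.mem_ker, heisProj_apply, Prod.ext_iff]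
  rfl

variable {σ₁ σ₂}

theorem heisProj_surjective (h₁ : Function.Surjective σ₁) (h₂ : Function.Surjective σ₂) :
    Function.Surjective (heisProj σ₁ σ₂) := by
  rintro ⟨q₁, q₂⟩
  obtain ⟨g₁, rfl⟩ := h₁ q₁
  obtain ⟨g₂, rfl⟩ := h₂ q₂
  exact ⟨⟨(g₂, 1), g₁⟩, rfl⟩

theorem heis_ker_le_center (hc₁ : σ₁.ker ≤ Subgroup.center Γ₁)
    (hc₂ : σ₂.ker ≤ Subgroup.center Γ₂) :
    (heisProj σ₁ σ₂).ker ≤ Subgroup.center (Heis σ₁ σ₂) := by
  intro z hz
  obtain ⟨hz1, hz2⟩ := (mem_ker_heisProj σ₁ σ₂ z).mp hz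
  rw [Subgroup.mem_center_iff]
  intro w
  apply SemidirectProduct.ext
  · apply Prod.ext
    · rw [heis_mul_left_fst, heis_mul_left_fst]
      exact Subgroup.mem_center_iff.mp (hc₂ hz2) _
    · rw [heis_mul_left_snd, heis_mul_left_snd, omega_ker_right σ₁ σ₂ _ hz2,
        omega_ker_left σ₁ σ₂ hz1, mul_one, mul_one, mul_comm]
  · rw [SemidirectProduct.mul_right, SemidirectProduct.mul_right]
    exact Subgroup.mem_center_iff.mp (hc₁ hz1) _

theorem heis_ker_le_commutator (h₁ : Function.Surjective σ₁) (h₂ : Function.Surjective σ₂)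
    (hk₁ : σ₁.ker ≤ commutator Γ₁) (hk₂ : σ₂.ker ≤ commutator Γ₂) :
    (heisProj σ₁ σ₂).ker ≤ commutator (Heis σ₁ σ₂) := by
  let iT : TT Q₁ Q₂ →* Heis σ₁ σ₂ :=
    (SemidirectProduct.inl).comp (MonoidHom.inr Γ₂ (TT Q₁ Q₂))
  let i₂ : Γ₂ →* Heis σ₁ σ₂ := (SemidirectProduct.inl).comp (MonoidHom.inl Γ₂ (TT Q₁ Q₂))
  let i₁ : Γ₁ →* Heis σ₁ σ₂ := SemidirectProduct.inr
  have key : ∀ (g₁ : Γ₁) (g₂ : Γ₂), iT (omega σ₁ σ₂ g₁ g₂) = ⁅i₁ g₁, i₂ g₂⁆ := by
    intro g₁ g₂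
    have h : i₁ g₁ * i₂ g₂ = iT (omega σ₁ σ₂ g₁ g₂) * i₂ g₂ * i₁ g₁ := by
      apply SemidirectProduct.ext
      · apply Prod.ext
        · simp [iT, i₂, i₁, heisAct_apply]
        · simp [iT, i₂, i₁, heisAct_apply]
      · simp [iT, i₂, i₁]
    rw [commutatorElement_def, h]
    group
  have hT : ∀ t : TT Q₁ Q₂, iT t ∈ commutator (Heis σ₁ σ₂) := by
    intro t
    obtain ⟨t, rfl⟩ := Multiplicative.ofAdd.surjective t
    induction t using TensorProduct.induction_on with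
    | zero =>
      have : iT (Multiplicative.ofAdd (0 : Additive (Abelianization Q₁) ⊗[ℤ]
          Additive (Abelianization Q₂))) = 1 := map_one iT
      rw [this]; exact Subgroup.one_mem _
    | tmul a b =>
      obtain ⟨q₁, hq₁⟩ := QuotientGroup.mk_surjective (Additive.toMul a)
      obtain ⟨q₂, hq₂⟩ := QuotientGroup.mk_surjective (Additive.toMul b)
      obtain ⟨g₁, rfl⟩ := h₁ q₁
      obtain ⟨g₂, rfl⟩ := h₂ q₂
      have ha : a = Additive.ofMul (Abelianization.of (σ₁ g₁)) := by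
        rw [← ofMul_toMul a]; exact congrArg Additive.ofMul hq₁.symm
      have hb : b = Additive.ofMul (Abelianization.of (σ₂ g₂)) := by
        rw [← ofMul_toMul b]; exact congrArg Additive.ofMul hq₂.symm
      have h3 : Multiplicative.ofAdd (a ⊗ₜ[ℤ] b) = omega σ₁ σ₂ g₁ g₂ := by
        rw [ha, hb]; rfl
      rw [h3, key]
      exact Subgroup.commutator_mem_commutator (Subgroup.mem_top _) (Subgroup.mem_top _)
    | add s t hs ht =>
      have : iT (Multiplicative.ofAdd (s + t)) =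
          iT (Multiplicative.ofAdd s) * iT (Multiplicative.ofAdd t) := by
        rw [← map_mul]; rfl
      rw [this]
      exact mul_mem hs ht
  intro z hz
  obtain ⟨hz1, hz2⟩ := (mem_ker_heisProj σ₁ σ₂ z).mp hz
  have hdec : z = i₂ z.left.1 * iT z.left.2 * i₁ z.right := by
    apply SemidirectProduct.ext
    · apply Prod.ext
      · simp [iT, i₂, i₁]
      · simp [iT, i₂, i₁]
    · simp [iT, i₂, i₁]
  rw [hdec]
  exact mul_mem (mul_mem (map_commutator_le i₂ (hk₂ hz2)) (hT _)) (map_commutator_le i₁ (hk₁ hz1))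

theorem exists_heisKerEquiv :
    Nonempty ((heisProj σ₁ σ₂).ker ≃* σ₁.ker × σ₂.ker × TT Q₁ Q₂) := by
  let κ : σ₁.ker × σ₂.ker × TT Q₁ Q₂ →* Heis σ₁ σ₂ :=
    MonoidHom.mk' (fun k => ⟨((k.2.1 : Γ₂), k.2.2), (k.1 : Γ₁)⟩) (by
      intro a b
      apply SemidirectProduct.ext
      · apply Prod.ext
        · rfl
        · show a.2.2 * b.2.2 = a.2.2 * (b.2.2 * omega σ₁ σ₂ (a.1 : Γ₁) (b.2.1 : Γ₂))
          rw [omega_ker_left σ₁ σ₂ a.1.2, mul_one]
      · rfl)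
  have hκ : ∀ k, κ k = ⟨((k.2.1 : Γ₂), k.2.2), (k.1 : Γ₁)⟩ := fun k => rfl
  have hinj : Function.Injective κ := by
    intro a b hab
    rw [hκ, hκ] at hab
    have h1 : (a.1 : Γ₁) = (b.1 : Γ₁) := congrArg SemidirectProduct.right hab
    have h2 : ((a.2.1 : Γ₂), a.2.2) = ((b.2.1 : Γ₂), b.2.2) := congrArg SemidirectProduct.left hab
    have h3 : (a.2.1 : Γ₂) = (b.2.1 : Γ₂) := congrArg (fun p : Γ₂ × TT Q₁ Q₂ => p.1) h2
    have h4 : a.2.2 = b.2.2 := congrArg (fun p : Γ₂ × TT Q₁ Q₂ => p.2) h2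
    exact Prod.ext (Subtype.ext h1) (Prod.ext (Subtype.ext h3) h4)
  have hrange : κ.range = (heisProj σ₁ σ₂).ker := by
    ext z
    constructor
    · rintro ⟨k, rfl⟩
      rw [mem_ker_heisProj, hκ]
      exact ⟨k.1.2, k.2.1.2⟩
    · intro hz
      obtain ⟨hz1, hz2⟩ := (mem_ker_heisProj σ₁ σ₂ z).mp hz
      exact ⟨(⟨z.right, hz1⟩, ⟨z.left.1, hz2⟩, z.left.2), rfl⟩
  exact ⟨(MulEquiv.subgroupCongr hrange.symm).trans (MonoidHom.ofInjective hinj).symm⟩

end Heis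

section HeisMain

variable {Q₁ : Type u} {Q₂ : Type v} [Group Q₁] [Group Q₂]

/-- **Existence of a stem extension of a direct product with the expected kernel.** -/
theorem exists_cover_prod [Finite Q₁] [Finite Q₂] {A : Type x} {B : Type x'} [CommGroup A]
    [CommGroup B] (hA : HasSchurMultiplier Q₁ A) (hB : HasSchurMultiplier Q₂ B) :
    ∃ (Γ : Type (max u v)) (_ : Group Γ) (_ : Finite Γ) (σ : Γ →* Q₁ × Q₂),
      IsStemExtension σ ∧ Nonempty (σ.ker ≃* A × B × TT Q₁ Q₂) := by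
  obtain ⟨Γ₁, _, _, σ₁, hσ₁, ⟨e₁⟩⟩ := hA.1
  obtain ⟨Γ₂, _, _, σ₂, hσ₂, ⟨e₂⟩⟩ := hB.1
  have hfin : Finite (Heis σ₁ σ₂) :=
    Finite.of_equiv _ (SemidirectProduct.equivProd (φ := heisAct σ₁ σ₂)).symm
  obtain ⟨eK⟩ := exists_heisKerEquiv (σ₁ := σ₁) (σ₂ := σ₂)
  refine ⟨Heis σ₁ σ₂, inferInstance, hfin, heisProj σ₁ σ₂,
    ⟨heisProj_surjective hσ₁.1 hσ₂.1, heis_ker_le_center hσ₁.2.1 hσ₂.2.1,
      heis_ker_le_commutator hσ₁.1 hσ₂.1 hσ₁.2.2 hσ₂.2.2⟩, ?_⟩
  exact ⟨eK.trans (MulEquiv.prodCongr e₁ (MulEquiv.prodCongr e₂ (MulEquiv.refl _)))⟩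

end HeisMain

end Cfsg.Agent.Lib.Helper35
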