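import Mathlib
import Cfsg.Prelude.Def_KGroupFacts
import Cfsg.Agent.Lib.Helper5.PSL2
import Cfsg.Agent.Lib.Helper35.Schur
import Cfsg.Agent.Lib.Helper35.SL2Mult
import Cfsg.Agent.S3958

set_option autoImplicit false

namespace Cfsg.Agent.Lib.Helper35

universe u v

open scoped commutatorElement

section SchurPSL

/-- a stem extension by a group with trivial multiplier computes the multiplier -/
theorem hasSchurMultiplier_of_stem_of_trivial {Q : Type u} [Group Q] [Finite Q] {Γ : Type u}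
    [Group Γ] [Finite Γ] (σ : Γ →* Q) (hσ : IsStemExtension σ)
    (hΓ : HasCyclicSchurMultiplier Γ 1) {A : Type v} [CommGroup A] (e : σ.ker ≃* A) :
    HasSchurMultiplier Q A := by
  refine ⟨⟨Γ, inferInstance, inferInstance, σ, hσ, ⟨e⟩⟩, ?_⟩
  intro Δ _ _ τ hτ
  obtain ⟨π, hπ⟩ := Cfsg.Agent.S3958.result σ hσ hΓ Δ τ hτ
  exact ⟨π.comp e.symm.toMonoidHom, hπ.comp e.symm.surjective⟩

/-- the multiplier is invariant under isomorphism -/
theorem hasSchurMultiplier_congr {Q Q' : Type u} [Group Q] [Group Q'] (e : Q ≃* Q') {A : Type v}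
    [CommGroup A] (h : HasSchurMultiplier Q A) : HasSchurMultiplier Q' A := by
  obtain ⟨⟨Γ, hG, hF, σ, hσ, ⟨k⟩⟩, h2⟩ := h
  have hstem : ∀ {Y : Type u} [Group Y] (τ : Y →* Q), IsStemExtension τ →
      IsStemExtension (e.toMonoidHom.comp τ) ∧ (e.toMonoidHom.comp τ).ker = τ.ker := by
    intro Y _ τ hτ
    have hker : (e.toMonoidHom.comp τ).ker = τ.ker := by
      ext x; simp [MonoidHom.mem_ker]
    exact ⟨⟨e.surjective.comp hτ.1, by rw [hker]; exact hτ.2.1, by rw [hker]; exact hτ.2.2⟩, hker⟩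
  have hstem' : ∀ {Y : Type u} [Group Y] (τ : Y →* Q'), IsStemExtension τ →
      IsStemExtension (e.symm.toMonoidHom.comp τ) ∧ (e.symm.toMonoidHom.comp τ).ker = τ.ker := by
    intro Y _ τ hτ
    have hker : (e.symm.toMonoidHom.comp τ).ker = τ.ker := by
      ext x; simp [MonoidHom.mem_ker]
    exact ⟨⟨e.symm.surjective.comp hτ.1, by rw [hker]; exact hτ.2.1, by rw [hker]; exact hτ.2.2⟩,
      hker⟩
  refine ⟨⟨Γ, hG, hF, e.toMonoidHom.comp σ, (hstem σ hσ).1,
    ⟨(MulEquiv.subgroupCongr (hstem σ hσ).2).trans k⟩⟩, ?_⟩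
  intro Γ' _ _ τ' hτ'
  obtain ⟨π, hπ⟩ := h2 Γ' (e.symm.toMonoidHom.comp τ') (hstem' τ' hτ').1
  exact ⟨(MulEquiv.subgroupCongr (hstem' τ' hτ').2).toMonoidHom.comp π,
    (MulEquiv.subgroupCongr (hstem' τ' hτ').2).surjective.comp hπ⟩

/-- the Schur multiplier of `PSL₂(q)`, `q` odd, `q ≠ 3, 9`, is cyclic of order two -/
theorem hasCyclicSchurMultiplier_psl2 {F : Type u} [Field F] [Fintype F] (h2 : (2 : F) ≠ 0)
    (h9 : Fintype.card F ≠ 9) {a : F} (ha : a ≠ 0) (hasq : a ^ 2 ≠ 1) :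
    HasCyclicSchurMultiplier (Matrix.ProjectiveSpecialLinearGroup (Fin 2) F) 2 := by
  have h4 : Fintype.card F ≠ 4 := by
    intro h
    have := Cfsg.Agent.Lib.Helper41.card_mod_two_of_two_ne_zero h2
    omega
  have hΓ : HasCyclicSchurMultiplier (Matrix.SpecialLinearGroup (Fin 2) F) 1 :=
    hasCyclicSchurMultiplier_one_of (fun Y _ _ τ hτ => sl2_stem_ker_eq_bot h4 h9 τ hτ)
  let σ : Matrix.SpecialLinearGroup (Fin 2) F →* Matrix.ProjectiveSpecialLinearGroup (Fin 2) F :=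
    QuotientGroup.mk' (Subgroup.center (Matrix.SpecialLinearGroup (Fin 2) F))
  have hker : σ.ker = Subgroup.center (Matrix.SpecialLinearGroup (Fin 2) F) :=
    QuotientGroup.ker_mk' _
  have hσ : IsStemExtension σ := by
    refine ⟨QuotientGroup.mk'_surjective _, by rw [hker], ?_⟩
    rw [Matrix.SL2.commutator_eq_top ha hasq]
    exact le_top
  have hcard : Nat.card σ.ker = 2 := by
    rw [hker]; exact Cfsg.Agent.Lib.Helper5.card_center_SL2_of_two_ne_zero h2
  have : Fact (Nat.Prime 2) := ⟨Nat.prime_two⟩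
  have hcard' : Nat.card (Multiplicative (ZMod 2)) = 2 := by
    rw [Nat.card_eq_fintype_card, Fintype.card_multiplicative, ZMod.card]
  exact hasSchurMultiplier_of_stem_of_trivial σ hσ hΓ (mulEquivOfPrimeCardEq hcard hcard')

end SchurPSL

end Cfsg.Agent.Lib.Helper35
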