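import Mathlib
import Cfsg.Prelude.Def_KGroupFacts
import Cfsg.Agent.Lib.Helper35.Schur
import Cfsg.Agent.Lib.Helper35.Schur2

set_option autoImplicit false

namespace Cfsg.Agent.Lib.Helper35

universe u v w x

open scoped commutatorElement

section Extend

/-- homomorphisms into a divisible abelian group extend from a subgroup meeting the
commutator subgroup trivially -/
theorem exists_extend_hom_of_divisible {G : Type*} [Group G] {Z : Type*} [CommGroup Z]
    (hdiv : ∀ m : ℕ, m ≠ 0 → ∀ z : Z, ∃ w : Z, w ^ m = z)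
    (C : Subgroup G) (hC : C ⊓ commutator G = ⊥) (χ₀ : C →* Z) :
    ∃ χ : G →* Z, ∀ c : C, χ c = χ₀ c := by
  have hdN : DivisibleBy (Additive Z) ℕ :=
    divisibleByOfSMulRightSurj (A := Additive Z) (α := ℕ) (fun {m} hm z => by
      obtain ⟨w, hw⟩ := hdiv m hm (Additive.toMul z)
      exact ⟨Additive.ofMul w, by
        show Additive.ofMul (w ^ m) = z
        rw [hw]; rfl⟩)
  have hdZ : DivisibleBy (Additive Z) ℤ := AddGroup.divisibleByIntOfDivisibleByNat _
  have hcomm : ∀ a b : C, a * b = b * a := by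
    intro a b
    have h1 : ⁅(a : G), (b : G)⁆ ∈ C ⊓ commutator G :=
      Subgroup.mem_inf.mpr ⟨(⁅a, b⁆ : C).2, Subgroup.commutator_mem_commutator
        (Subgroup.mem_top _) (Subgroup.mem_top _)⟩
    rw [hC, Subgroup.mem_bot, commutatorElement_eq_one_iff_mul_comm] at h1
    exact Subtype.ext h1
  let instC : CommGroup C := { (inferInstance : Group C) with mul_comm := hcomm }
  let f : Additive C →+ Additive (Abelianization G) :=
    MonoidHom.toAdditive (Abelianization.of.comp C.subtype)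
  have hf : Function.Injective f := by
    rw [injective_iff_map_eq_zero]
    intro x hx
    have h1 : Abelianization.of ((Additive.toMul x : C) : G) = 1 := hx
    have h2 : ((Additive.toMul x : C) : G) ∈ commutator G := by
      rw [← Abelianization.ker_of G]; exact h1
    have h3 : ((Additive.toMul x : C) : G) ∈ C ⊓ commutator G :=
      Subgroup.mem_inf.mpr ⟨(Additive.toMul x).2, h2⟩
    rw [hC, Subgroup.mem_bot] at h3
    have h4 : (Additive.toMul x : C) = 1 := Subtype.ext h3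
    exact h4
  obtain ⟨h, hh⟩ := (Module.Baer.of_divisible (Additive Z)).extension_property_addMonoidHom f hf
    (MonoidHom.toAdditive χ₀)
  refine ⟨(MonoidHom.toAdditive.symm h).comp Abelianization.of, fun c => ?_⟩
  have := congrArg (fun k : Additive C →+ Additive Z => k (Additive.ofMul c)) hh
  exact this

end Extend

section Lift

variable {Q : Type u} [Group Q] {ι : Type v} (f : ι → Q)

/-- lifting along a surjection with central kernel, from the free central extension -/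
theorem exists_lift_along {X : Type w} [Group X] {Y : Type x} [Group Y] (ξ : X →* Y)
    (hξ : Function.Surjective ξ) (hc : ξ.ker ≤ Subgroup.center X) (γ : Q →* Y) :
    ∃ θ : CE f →* X, ξ.comp θ = γ.comp (piE f) := by
  choose s hs using hξ
  let ψ : FreeGroup ι →* X := FreeGroup.lift (fun i => s (γ (f i)))
  have hψ : ξ.comp ψ = γ.comp (piF f) := by
    ext i; simp [ψ, piF, hs]
  have hN : relN f ≤ ψ.ker := by
    rw [relN, Subgroup.commutator_le]
    intro a ha b _
    rw [MonoidHom.mem_ker, map_commutatorElement]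
    have hz : ψ a ∈ Subgroup.center X := by
      apply hc
      rw [MonoidHom.mem_ker, ← MonoidHom.comp_apply, hψ, MonoidHom.comp_apply,
        MonoidHom.mem_ker.mp ha, map_one]
    rw [commutatorElement_eq_one_iff_mul_comm]
    exact (Subgroup.mem_center_iff.mp hz (ψ b)).symm
  refine ⟨QuotientGroup.lift (relN f) ψ hN, ?_⟩
  apply QuotientGroup.monoidHom_ext
  ext i
  simp [piE, ψ, piF, hs]

end Lift

section Cover

open scoped IsMulCommutative

/-- **Projective lifting property of Schur covers**, for an arbitrary target group whose centre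
is divisible. -/
theorem exists_lift_of_schur_cover {Q : Type u} [Group Q] [Finite Q] {A : Type v} [CommGroup A]
    (hA : HasSchurMultiplier Q A) {Γ : Type w} [Group Γ] [Finite Γ] (σ : Γ →* Q)
    (hσ : IsStemExtension σ) (hk : Nonempty (σ.ker ≃* A)) {G : Type x} [Group G]
    (hdiv : ∀ m : ℕ, m ≠ 0 → ∀ z : Subgroup.center G, ∃ w : Subgroup.center G, w ^ m = z)
    (γ : Q →* G ⧸ Subgroup.center G) :
    ∃ ρ : Γ →* G, (QuotientGroup.mk' (Subgroup.center G)).comp ρ = γ.comp σ := by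
  have hf : Function.Surjective (piF (id : Q → Q)) := piF_id_surjective
  obtain ⟨ψ, hψ⟩ := exists_lift (id : Q → Q) σ hσ.1 hσ.2.1
  have hψs : Function.Surjective ψ := surjective_of_stem hf σ hσ ψ hψ
  obtain ⟨p, hp, hpm⟩ := surj_restrict_M hf σ hσ ψ hψ
  obtain ⟨eA⟩ := mulEquiv_of_hasSchurMultiplier hA (hasSchurMultiplier_M (Q := Q))
  obtain ⟨ek⟩ := hk
  have hcard : Nat.card (M (id : Q → Q)) ≤ Nat.card σ.ker := by
    rw [Nat.card_congr ek.toEquiv, Nat.card_congr eA.toEquiv]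
  have hpb : Function.Bijective p := Function.Surjective.bijective_of_nat_card_le hp hcard
  have hC : ψ.ker ⊓ commutator (CE (id : Q → Q)) = ⊥ := by
    rw [eq_bot_iff]
    intro e he
    have he' := Subgroup.mem_inf.mp he
    have hm : e ∈ M (id : Q → Q) :=
      Subgroup.mem_inf.mpr ⟨ker_lift_le σ ψ hψ he'.1, he'.2⟩
    have h1 : p ⟨e, hm⟩ = 1 := by
      apply Subtype.ext
      rw [hpm]; exact he'.1
    have h2 : (⟨e, hm⟩ : M (id : Q → Q)) = 1 := hpb.1 (h1.trans (map_one p).symm)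
    rw [Subgroup.mem_bot]
    exact congrArg Subtype.val h2
  obtain ⟨φ, hφ⟩ := exists_lift_along (id : Q → Q) (QuotientGroup.mk' (Subgroup.center G))
    (QuotientGroup.mk'_surjective _) (by rw [QuotientGroup.ker_mk']) γ
  have hφc : ∀ c : ψ.ker, φ c ∈ Subgroup.center G := by
    intro c
    rw [← QuotientGroup.ker_mk' (Subgroup.center G), MonoidHom.mem_ker, ← MonoidHom.comp_apply,
      hφ, MonoidHom.comp_apply, ← hψ, MonoidHom.comp_apply, MonoidHom.mem_ker.mp c.2, map_one,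
      map_one]
  let χ₀ : ψ.ker →* Subgroup.center G :=
    (φ.comp ψ.ker.subtype).codRestrict (Subgroup.center G) hφc
  obtain ⟨χ, hχ⟩ := exists_extend_hom_of_divisible hdiv ψ.ker hC χ₀
  let φ' : CE (id : Q → Q) →* G := MonoidHom.mk' (fun e => φ e * ((χ e : G))⁻¹) (by
    intro a b
    have hz : ((χ a : G))⁻¹ ∈ Subgroup.center G := Subgroup.inv_mem _ (χ a).2
    have hcomm := Subgroup.mem_center_iff.mp hz (φ b * ((χ b : G))⁻¹)
    rw [map_mul, map_mul, Subgroup.coe_mul, mul_inv_rev]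
    calc φ a * φ b * (((χ b : G))⁻¹ * ((χ a : G))⁻¹)
        = φ a * ((φ b * ((χ b : G))⁻¹) * ((χ a : G))⁻¹) := by group
      _ = φ a * (((χ a : G))⁻¹ * (φ b * ((χ b : G))⁻¹)) := by rw [hcomm]
      _ = φ a * ((χ a : G))⁻¹ * (φ b * ((χ b : G))⁻¹) := by group)
  have hker : ψ.ker ≤ φ'.ker := by
    intro c hc
    rw [MonoidHom.mem_ker]
    show φ c * ((χ c : G))⁻¹ = 1
    have h1 := hχ ⟨c, hc⟩
    have h2 : (χ c : G) = φ c := by
      have := congrArg Subtype.val h1
      exact this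
    rw [h2, mul_inv_cancel]
  let ρ : Γ →* G := ψ.liftOfRightInverse (Function.surjInv hψs) (Function.rightInverse_surjInv hψs)
    ⟨φ', hker⟩
  have hρ : ∀ e, ρ (ψ e) = φ' e := fun e =>
    ψ.liftOfRightInverse_comp_apply (Function.surjInv hψs) (Function.rightInverse_surjInv hψs)
      ⟨φ', hker⟩ e
  refine ⟨ρ, ?_⟩
  ext g
  obtain ⟨e, rfl⟩ := hψs g
  rw [MonoidHom.comp_apply, hρ, MonoidHom.comp_apply]
  show QuotientGroup.mk' (Subgroup.center G) (φ e * ((χ e : G))⁻¹) = γ (σ (ψ e))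
  have h3 : QuotientGroup.mk' (Subgroup.center G) ((χ e : G))⁻¹ = 1 := by
    rw [← MonoidHom.mem_ker, QuotientGroup.ker_mk']
    exact Subgroup.inv_mem _ (χ e).2
  rw [map_mul, h3, mul_one, ← MonoidHom.comp_apply, hφ, MonoidHom.comp_apply, ← hψ,
    MonoidHom.comp_apply]

end Cover

section GLn

/-- the centre of `GL n ℂ` is divisible -/
theorem gl_center_divisible (n : ℕ) (m : ℕ) (hm : m ≠ 0)
    (z : Subgroup.center (GL (Fin n) ℂ)) :
    ∃ w : Subgroup.center (GL (Fin n) ℂ), w ^ m = z := by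
  obtain ⟨z, hz⟩ := z
  have hz' := hz
  rw [Matrix.GeneralLinearGroup.center_eq_range_scalar] at hz'
  obtain ⟨c, rfl⟩ := hz'
  obtain ⟨d, hd⟩ := IsAlgClosed.exists_pow_nat_eq (c : ℂ) (Nat.pos_of_ne_zero hm)
  have hd0 : d ≠ 0 := by
    rintro rfl
    rw [zero_pow hm] at hd
    exact c.ne_zero hd.symm
  have hdc : (Units.mk0 d hd0) ^ m = c := Units.ext (by simpa using hd)
  refine ⟨⟨Matrix.GeneralLinearGroup.scalar (Fin n) (Units.mk0 d hd0), ?_⟩, ?_⟩
  · rw [Matrix.GeneralLinearGroup.center_eq_range_scalar]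
    exact ⟨_, rfl⟩
  · apply Subtype.ext
    show (Matrix.GeneralLinearGroup.scalar (Fin n) (Units.mk0 d hd0)) ^ m = _
    rw [← map_pow, hdc]

open scoped IsMulCommutative in
/-- if a homomorphism into `G`, central on the kernel of `σ`, agrees modulo the centre with one
that factors through `σ`, then it is trivial on the part of the kernel inside the commutator
subgroup -/
theorem eq_one_of_lift {Γ : Type*} [Group Γ] {Q : Type*} [Group Q] {G : Type*} [Group G]
    (σ : Γ →* Q) (ρ : Γ →* G) (ρ' : Q →* G)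
    (h : ∀ g : Γ, (QuotientGroup.mk (ρ' (σ g)) : G ⧸ Subgroup.center G) = QuotientGroup.mk (ρ g))
    {a : Γ} (ha : a ∈ σ.ker) (ha' : a ∈ commutator Γ) : ρ a = 1 := by
  have hmem : ∀ g : Γ, ρ g * (ρ' (σ g))⁻¹ ∈ Subgroup.center G := by
    intro g
    rw [← QuotientGroup.eq_one_iff, QuotientGroup.mk_mul, QuotientGroup.mk_inv, h g,
      mul_inv_cancel]
  let μ : Γ →* Subgroup.center G := MonoidHom.mk' (fun g => ⟨ρ g * (ρ' (σ g))⁻¹, hmem g⟩) (by
    intro g k
    apply Subtype.ext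
    show ρ (g * k) * (ρ' (σ (g * k)))⁻¹ = ρ g * (ρ' (σ g))⁻¹ * (ρ k * (ρ' (σ k))⁻¹)
    have hc := Subgroup.mem_center_iff.mp (hmem k) ((ρ' (σ g))⁻¹)
    rw [map_mul, map_mul, map_mul, mul_inv_rev]
    calc ρ g * ρ k * ((ρ' (σ k))⁻¹ * (ρ' (σ g))⁻¹)
        = ρ g * ((ρ k * (ρ' (σ k))⁻¹) * (ρ' (σ g))⁻¹) := by group
      _ = ρ g * ((ρ' (σ g))⁻¹ * (ρ k * (ρ' (σ k))⁻¹)) := by rw [hc]
      _ = ρ g * (ρ' (σ g))⁻¹ * (ρ k * (ρ' (σ k))⁻¹) := by group)
  have h1 : μ a = 1 := by
    have := Abelianization.commutator_subset_ker μ ha'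
    exact this
  have h2 : ρ a * (ρ' (σ a))⁻¹ = 1 := congrArg Subtype.val h1
  rw [MonoidHom.mem_ker.mp ha, map_one, inv_one, mul_one] at h2
  exact h2

open scoped IsMulCommutative in
/-- a finite group has a complex matrix representation that is scalar on the centre and
nontrivial at a given non-identity central element -/
theorem exists_rep_scalar_on_center {Γ : Type*} [Group Γ] [Finite Γ] {a : Γ}
    (ha : a ∈ Subgroup.center Γ) (ha1 : a ≠ 1) :
    ∃ (n : ℕ) (ρ : Γ →* GL (Fin n) ℂ),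
      (∀ z ∈ Subgroup.center Γ, ρ z ∈ Subgroup.center (GL (Fin n) ℂ)) ∧ ρ a ≠ 1 := by
  classical
  have hexp : NeZero ((Monoid.exponent (Subgroup.center Γ) : ℕ) : ℂ) :=
    ⟨Nat.cast_ne_zero.mpr Monoid.exponent_ne_zero_of_finite⟩
  obtain ⟨lam, hlam⟩ := CommGroup.exists_apply_ne_one_of_hasEnoughRootsOfUnity
    (Subgroup.center Γ) ℂ (a := ⟨a, ha⟩) (by
      intro h; exact ha1 (congrArg Subtype.val h))
  let V : Submodule ℂ (Γ → ℂ) :=
    { carrier := {φ | ∀ (z : Subgroup.center Γ) (x : Γ), φ ((z : Γ) * x) = (lam z : ℂ) * φ x}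
      add_mem' := by
        intro φ ψ hφ hψ z x
        simp only [Pi.add_apply, hφ z x, hψ z x, mul_add]
      zero_mem' := by
        intro z x
        simp
      smul_mem' := by
        intro c φ hφ z x
        simp only [Pi.smul_apply, smul_eq_mul, hφ z x]
        ring }
  have hVmem : ∀ φ : Γ → ℂ, φ ∈ V ↔
      ∀ (z : Subgroup.center Γ) (x : Γ), φ ((z : Γ) * x) = (lam z : ℂ) * φ x := fun φ => Iff.rfl
  have hT : ∀ g : Γ, ∀ φ ∈ V, LinearMap.funLeft ℂ ℂ (fun x : Γ => x * g) φ ∈ V := by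
    intro g φ hφ z x
    show φ ((z : Γ) * x * g) = (lam z : ℂ) * φ (x * g)
    rw [mul_assoc]; exact hφ z (x * g)
  let T : Γ → (V →ₗ[ℂ] V) := fun g => (LinearMap.funLeft ℂ ℂ (fun x : Γ => x * g)).restrict (hT g)
  have hTapp : ∀ (g : Γ) (φ : V) (x : Γ), (T g φ : Γ → ℂ) x = (φ : Γ → ℂ) (x * g) :=
    fun g φ x => rfl
  let ρ₀ : Γ →* (V →ₗ[ℂ] V) :=
    { toFun := T
      map_one' := by
        apply LinearMap.ext; intro φ; apply Subtype.ext; funext x
        rw [hTapp, mul_one]; rfl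
      map_mul' := by
        intro g k
        apply LinearMap.ext; intro φ; apply Subtype.ext; funext x
        rw [hTapp, Module.End.mul_apply, hTapp, hTapp, mul_assoc] }
  have hρ₀ : ∀ (g : Γ) (φ : V) (x : Γ), (ρ₀ g φ : Γ → ℂ) x = (φ : Γ → ℂ) (x * g) :=
    fun g φ x => rfl
  let b := Module.finBasis ℂ V
  let E := LinearMap.toMatrixAlgEquiv b
  let ρ : Γ →* GL (Fin (Module.finrank ℂ V)) ℂ :=
    (Units.map (E : (V →ₗ[ℂ] V) →* Matrix (Fin (Module.finrank ℂ V)) (Fin (Module.finrank ℂ V)) ℂ)).comp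
      ρ₀.toHomUnits
  have hρval : ∀ g : Γ, ((ρ g : GL (Fin (Module.finrank ℂ V)) ℂ) :
      Matrix (Fin (Module.finrank ℂ V)) (Fin (Module.finrank ℂ V)) ℂ) = E (ρ₀ g) := fun g => rfl
  refine ⟨Module.finrank ℂ V, ρ, ?_, ?_⟩
  · intro z hz
    rw [Matrix.GeneralLinearGroup.mem_center_iff_val_mem_range_scalar, hρval]
    have h1 : ρ₀ z = (lam ⟨z, hz⟩ : ℂ) • (1 : V →ₗ[ℂ] V) := by
      apply LinearMap.ext; intro φ; apply Subtype.ext; funext x
      rw [hρ₀]
      have h2 : x * z = z * x := Subgroup.mem_center_iff.mp hz x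
      rw [h2]
      have := φ.2 ⟨z, hz⟩ x
      rw [this]; rfl
    rw [h1, map_smul, map_one]
    refine ⟨(lam ⟨z, hz⟩ : ℂ), ?_⟩
    rw [Matrix.scalar_apply, Matrix.smul_one_eq_diagonal]
  · intro h
    have h1 : E (ρ₀ a) = 1 := by rw [← hρval, h]; rfl
    have h2 : ρ₀ a = 1 := E.injective (h1.trans (map_one E).symm)
    let φ₀ : Γ → ℂ := fun x => if hx : x ∈ Subgroup.center Γ then (lam ⟨x, hx⟩ : ℂ) else 0
    have hφ₀ : φ₀ ∈ V := by
      intro z x
      by_cases hx : x ∈ Subgroup.center Γ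
      · have hzx : (z : Γ) * x ∈ Subgroup.center Γ := Subgroup.mul_mem _ z.2 hx
        show (if hx : (z : Γ) * x ∈ Subgroup.center Γ then (lam ⟨(z : Γ) * x, hx⟩ : ℂ) else 0) =
          (lam z : ℂ) * (if hx : x ∈ Subgroup.center Γ then (lam ⟨x, hx⟩ : ℂ) else 0)
        rw [dif_pos hzx, dif_pos hx]
        have : (⟨(z : Γ) * x, hzx⟩ : Subgroup.center Γ) = z * ⟨x, hx⟩ := rfl
        rw [this, map_mul, Units.val_mul]
      · have hzx : ¬ (z : Γ) * x ∈ Subgroup.center Γ := by
          intro hzx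
          apply hx
          have := Subgroup.mul_mem _ (Subgroup.inv_mem _ z.2) hzx
          rwa [inv_mul_cancel_left] at this
        show (if hx : (z : Γ) * x ∈ Subgroup.center Γ then (lam ⟨(z : Γ) * x, hx⟩ : ℂ) else 0) =
          (lam z : ℂ) * (if hx : x ∈ Subgroup.center Γ then (lam ⟨x, hx⟩ : ℂ) else 0)
        rw [dif_neg hzx, dif_neg hx, mul_zero]
    have h3 := hρ₀ a ⟨φ₀, hφ₀⟩ 1
    rw [h2, one_mul] at h3
    have h4 : φ₀ 1 = φ₀ a := h3
    have h5 : φ₀ 1 = 1 := by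
      show (if hx : (1 : Γ) ∈ Subgroup.center Γ then (lam ⟨1, hx⟩ : ℂ) else 0) = 1
      rw [dif_pos (Subgroup.one_mem _)]
      have : (⟨1, Subgroup.one_mem _⟩ : Subgroup.center Γ) = 1 := rfl
      rw [this, map_one, Units.val_one]
    have h6 : φ₀ a = (lam ⟨a, ha⟩ : ℂ) := by
      show (if hx : a ∈ Subgroup.center Γ then (lam ⟨a, hx⟩ : ℂ) else 0) = _
      rw [dif_pos ha]
    rw [h5, h6] at h4
    exact hlam (Units.ext h4.symm)

end GLn

end Cfsg.Agent.Lib.Helper35
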