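import Mathlib
import Cfsg.Prelude.Def_KGroupFacts
import Cfsg.Agent.Lib.Helper35.Schur
import Cfsg.Agent.Lib.Helper35.Schur2

set_option autoImplicit false

namespace Cfsg.Agent.Lib.Helper35

universe u v w

open scoped commutatorElement

section Rank

open scoped IsMulCommutative

variable {Q : Type u} [Group Q] {ι : Type v} (f : ι → Q)

/-- the kernel of the projection of the free central extension is generated by the images of
a set of normal generators of the relation subgroup -/
theorem ker_piE_eq_closure (S : Set (FreeGroup ι))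
    (hS : (piF f).ker = Subgroup.normalClosure S) :
    (piE f).ker = Subgroup.closure ((fun s => (QuotientGroup.mk s : CE f)) '' S) := by
  have hcl : Subgroup.closure ((fun s => (QuotientGroup.mk s : CE f)) '' S) ≤ (piE f).ker := by
    rw [Subgroup.closure_le]
    rintro _ ⟨s, hs, rfl⟩
    have : s ∈ (piF f).ker := by rw [hS]; exact Subgroup.subset_normalClosure hs
    exact this
  apply le_antisymm
  · intro e he
    obtain ⟨w, rfl⟩ := QuotientGroup.mk_surjective e
    have hw : w ∈ (piF f).ker := he
    rw [hS] at hw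
    have hn : (Subgroup.closure ((fun s => (QuotientGroup.mk s : CE f)) '' S)).Normal :=
      normal_of_le_ker hcl
    have hle : Subgroup.normalClosure S ≤
        (Subgroup.closure ((fun s => (QuotientGroup.mk s : CE f)) '' S)).comap
          (QuotientGroup.mk' (relN f)) := by
      apply Subgroup.normalClosure_le_normal
      intro s hs
      exact Subgroup.subset_closure ⟨s, hs, rfl⟩
    exact hle hw
  · exact hcl

theorem epsE_surjective : Function.Surjective (epsE f) := by
  intro y
  obtain ⟨w, rfl⟩ := QuotientGroup.mk_surjective y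
  exact ⟨QuotientGroup.mk w, rfl⟩

/-- **Rank bound for the multiplier from a finite presentation**. -/
theorem rank_M_le [Finite Q] [Fintype ι] (S : Finset (FreeGroup ι))
    (hS : (piF f).ker = Subgroup.normalClosure (S : Set (FreeGroup ι))) :
    Group.rank (M f) ≤ S.card - Fintype.card ι := by
  classical
  let C := Subgroup.center (CE f)
  have hker := ker_piE_eq_closure f (S : Set (FreeGroup ι)) hS
  have hvK : ∀ s : S, (QuotientGroup.mk (s : FreeGroup ι) : CE f) ∈ (piE f).ker := fun s => by
    rw [hker]; exact Subgroup.subset_closure ⟨s, s.2, rfl⟩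
  have hvC : ∀ s : S, (QuotientGroup.mk (s : FreeGroup ι) : CE f) ∈ C := fun s =>
    ker_piE_le_center f (hvK s)
  let v : S → Additive C := fun s => Additive.ofMul ⟨QuotientGroup.mk (s : FreeGroup ι), hvC s⟩
  let L : (S → ℤ) →ₗ[ℤ] Additive C := Fintype.linearCombination ℤ v
  let toE : Additive C → CE f := fun x => ((Additive.toMul x : C) : CE f)
  have toE_add : ∀ x y, toE (x + y) = toE x * toE y := fun x y => rfl
  have toE_zero : toE 0 = 1 := rfl
  have toE_neg : ∀ x, toE (-x) = (toE x)⁻¹ := fun x => rfl
  have toE_zsmul : ∀ (c : ℤ) x, toE (c • x) = toE x ^ c := fun c x => rfl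
  let KA : Submodule ℤ (Additive C) :=
    AddSubgroup.toIntSubmodule (Subgroup.toAddSubgroup (((piE f).ker).subgroupOf C))
  have hKA : ∀ a : Additive C, a ∈ KA ↔ toE a ∈ (piE f).ker := fun a => Iff.rfl
  have hL_ker : ∀ x, toE (L x) ∈ (piE f).ker := by
    intro x
    rw [← hKA]
    have h1 : L x ∈ LinearMap.range L := LinearMap.mem_range_self L x
    rw [Fintype.range_linearCombination] at h1
    have h2 : Submodule.span ℤ (Set.range v) ≤ KA := by
      rw [Submodule.span_le]
      rintro _ ⟨s, rfl⟩
      exact (hKA _).mpr (hvK s)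
    exact h2 h1
  have hL_surj : ∀ e ∈ (piE f).ker, ∃ x, toE (L x) = e := by
    intro e he
    rw [hker] at he
    induction he using Subgroup.closure_induction with
    | mem e he =>
      obtain ⟨s, hs, rfl⟩ := he
      refine ⟨Pi.single (⟨s, hs⟩ : S) 1, ?_⟩
      rw [Fintype.linearCombination_apply_single, one_smul]
      rfl
    | one => exact ⟨0, by rw [map_zero, toE_zero]⟩
    | mul a b _ _ iha ihb =>
      obtain ⟨x, hx⟩ := iha
      obtain ⟨y, hy⟩ := ihb
      exact ⟨x + y, by rw [map_add, toE_add, hx, hy]⟩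
    | inv a _ iha =>
      obtain ⟨x, hx⟩ := iha
      exact ⟨-x, by rw [map_neg, toE_neg, hx]⟩
  let εA : Additive C →+ FreeAbelianGroup ι := ((epsE f).comp C.subtype).toAdditive
  let δ : (S → ℤ) →ₗ[ℤ] FreeAbelianGroup ι := εA.toIntLinearMap.comp L
  have hδ : ∀ x, δ x = Additive.ofMul (epsE f (toE (L x))) := fun x => rfl
  -- the range of `δ` has full rank
  have hfree : Module.Free ℤ (FreeAbelianGroup ι) := Module.Free.of_basis (FreeAbelianGroup.basis ι)
  have hfin : Module.Finite ℤ (FreeAbelianGroup ι) := Module.Finite.of_basis (FreeAbelianGroup.basis ι)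
  have hrankT : Module.finrank ℤ (FreeAbelianGroup ι) = Fintype.card ι :=
    Module.finrank_eq_card_basis (FreeAbelianGroup.basis ι)
  have hNpos : 0 < Nat.card Q := Nat.card_pos
  have hNmem : ∀ y : FreeAbelianGroup ι, (Nat.card Q : ℤ) • y ∈ LinearMap.range δ := by
    intro y
    obtain ⟨e, he⟩ := epsE_surjective f (Additive.toMul y)
    have h1 : e ^ Nat.card Q ∈ (piE f).ker := by
      rw [MonoidHom.mem_ker, map_pow, pow_card_eq_one']
    obtain ⟨x, hx⟩ := hL_surj _ h1
    refine ⟨x, ?_⟩
    rw [hδ, hx, map_pow, he]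
    rw [natCast_zsmul]
    rfl
  have hrange : Module.finrank ℤ (LinearMap.range δ) = Fintype.card ι := by
    apply le_antisymm
    · rw [← hrankT]; exact Submodule.finrank_le _
    · let μ : FreeAbelianGroup ι →ₗ[ℤ] FreeAbelianGroup ι := (Nat.card Q : ℤ) • LinearMap.id
      have hμ : Function.Injective μ := by
        rw [← LinearMap.ker_eq_bot, LinearMap.ker_eq_bot']
        intro y hy
        have hy' : (Nat.card Q : ℤ) • y = 0 := hy
        rcases smul_eq_zero.mp hy' with h | h
        · exfalso
          have : Nat.card Q = 0 := by exact_mod_cast h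
          omega
        · exact h
      have hle : LinearMap.range μ ≤ LinearMap.range δ := by
        rintro _ ⟨y, rfl⟩
        exact hNmem y
      calc Fintype.card ι = Module.finrank ℤ (FreeAbelianGroup ι) := hrankT.symm
        _ = Module.finrank ℤ (LinearMap.range μ) := (LinearMap.finrank_range_of_inj hμ).symm
        _ ≤ Module.finrank ℤ (LinearMap.range δ) := Submodule.finrank_mono hle
  have hnull : Module.finrank ℤ (LinearMap.range δ) + Module.finrank ℤ (LinearMap.ker δ) =
      S.card := by
    have h1 := (LinearMap.ker δ).finrank_quotient_add_finrank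
    rw [LinearEquiv.finrank_eq δ.quotKerEquivRange, Module.finrank_fintype_fun_eq_card,
      Fintype.card_coe] at h1
    exact h1
  have hkerrank : Module.finrank ℤ (LinearMap.ker δ) = S.card - Fintype.card ι := by omega
  -- a basis of the kernel
  obtain ⟨k, ⟨b⟩⟩ := Submodule.nonempty_basis_of_pid (Pi.basisFun ℤ S) (LinearMap.ker δ)
  have hk : k = S.card - Fintype.card ι := by
    rw [← hkerrank, Module.finrank_eq_card_basis b, Fintype.card_fin]
  have hLm : ∀ x : LinearMap.ker δ, toE (L x) ∈ M f := by
    intro x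
    refine Subgroup.mem_inf.mpr ⟨hL_ker _, ?_⟩
    rw [← ker_epsE, MonoidHom.mem_ker]
    have h1 : δ x = 0 := x.2
    rw [hδ] at h1
    exact h1
  let Sg : Finset (M f) := Finset.univ.image (fun j : Fin k => (⟨toE (L (b j)), hLm (b j)⟩ : M f))
  have hSg : Sg.card ≤ k := by
    refine (Finset.card_image_le).trans ?_
    rw [Finset.card_univ, Fintype.card_fin]
  have hgen : ∀ x : LinearMap.ker δ, (⟨toE (L x), hLm x⟩ : M f) ∈ Subgroup.closure (Sg : Set (M f)) := by
    intro x
    have hx : x ∈ Submodule.span ℤ (Set.range b) := by rw [b.span_eq]; trivial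
    induction hx using Submodule.span_induction with
    | mem y hy =>
      obtain ⟨j, rfl⟩ := hy
      apply Subgroup.subset_closure
      exact Finset.mem_coe.mpr (Finset.mem_image.mpr ⟨j, Finset.mem_univ _, rfl⟩)
    | zero =>
      have : (⟨toE (L ((0 : LinearMap.ker δ) : S → ℤ)), hLm 0⟩ : M f) = 1 := by
        apply Subtype.ext
        show toE (L ((0 : LinearMap.ker δ) : S → ℤ)) = 1
        rw [Submodule.coe_zero, map_zero, toE_zero]
      rw [this]; exact Subgroup.one_mem _
    | add y z _ _ ihy ihz =>
      have : (⟨toE (L ((y + z : LinearMap.ker δ) : S → ℤ)), hLm (y + z)⟩ : M f) =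
          ⟨toE (L y), hLm y⟩ * ⟨toE (L z), hLm z⟩ := by
        apply Subtype.ext
        show toE (L ((y + z : LinearMap.ker δ) : S → ℤ)) = toE (L y) * toE (L z)
        rw [Submodule.coe_add, map_add, toE_add]
      rw [this]; exact Subgroup.mul_mem _ ihy ihz
    | smul c y _ ihy =>
      have : (⟨toE (L ((c • y : LinearMap.ker δ) : S → ℤ)), hLm (c • y)⟩ : M f) =
          (⟨toE (L y), hLm y⟩ : M f) ^ c := by
        apply Subtype.ext
        show toE (L ((c • y : LinearMap.ker δ) : S → ℤ)) = _
        rw [Submodule.coe_smul, map_smul, toE_zsmul]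
        rfl
      rw [this]; exact Subgroup.zpow_mem _ ihy c
  have htop : Subgroup.closure (Sg : Set (M f)) = ⊤ := by
    rw [eq_top_iff]
    rintro ⟨m, hm⟩ -
    obtain ⟨hm1, hm2⟩ := Subgroup.mem_inf.mp hm
    obtain ⟨x, hx⟩ := hL_surj m hm1
    have hxk : x ∈ LinearMap.ker δ := by
      rw [LinearMap.mem_ker, hδ, hx]
      rw [← ker_epsE, MonoidHom.mem_ker] at hm2
      rw [hm2]; rfl
    have := hgen ⟨x, hxk⟩
    have heq : (⟨toE (L ((⟨x, hxk⟩ : LinearMap.ker δ) : S → ℤ)), hLm ⟨x, hxk⟩⟩ : M f) = ⟨m, hm⟩ :=
      Subtype.ext hx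
    rw [heq] at this
    exact this
  calc Group.rank (M f) ≤ Sg.card := Group.rank_le htop
    _ ≤ k := hSg
    _ = S.card - Fintype.card ι := hk

end Rank

end Cfsg.Agent.Lib.Helper35
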