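import Mathlib
import Cfsg.Prelude.Def_KGroupFacts
import Cfsg.Agent.Lib.Helper35.Schur
import Cfsg.Agent.Lib.Helper35.Schur2

set_option autoImplicit false

namespace Cfsg.Agent.Lib.Helper35

universe u v w

open scoped commutatorElement

section TransferConj

/-- transfer of an element all of whose conjugates lie in `H` -/
theorem transfer_eq_prod_conj {G : Type*} [Group G] {H : Subgroup G} [H.FiniteIndex] {A : Type*}
    [CommGroup A] (ϕ : H →* A) (r : G) (hr : ∀ t : G, t⁻¹ * r * t ∈ H) :
    MonoidHom.transfer ϕ r =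
      (@Finset.univ (G ⧸ H) H.fintypeQuotientOfFiniteIndex).prod
        (fun q => ϕ ⟨q.out⁻¹ * r * q.out, hr _⟩) := by
  classical
  have hf : ∀ q : G ⧸ H, ((Quotient.out q : G) : G ⧸ H) = q := fun q => q.out_eq'
  let T : H.LeftTransversal := ⟨Set.range Quotient.out, Subgroup.isComplement_range_left hf⟩
  rw [MonoidHom.transfer_def ϕ T r]
  unfold Subgroup.leftTransversals.diff
  apply Finset.prod_congr rfl
  intro q _
  congr 1
  apply Subtype.ext
  show ((T.2.leftQuotientEquiv q : G))⁻¹ * ((r • T).2.leftQuotientEquiv q : G) = q.out⁻¹ * r * q.out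
  have hq : r⁻¹ • q = q := by
    obtain ⟨t, rfl⟩ := QuotientGroup.mk_surjective q
    rw [MulAction.Quotient.smul_mk, QuotientGroup.eq]
    have := hr t
    have h2 : (r⁻¹ • t)⁻¹ * t = t⁻¹ * r * t := by
      simp [smul_eq_mul, mul_assoc]
    rw [h2]; exact this
  rw [Subgroup.smul_apply_eq_smul_apply_inv_smul, hq]
  have h1 : (T.2.leftQuotientEquiv q : G) = q.out :=
    Subgroup.IsComplement.leftQuotientEquiv_apply hf q
  rw [h1, smul_eq_mul, mul_assoc]

end TransferConj

section ResCor

variable {Q : Type u} [Group Q] {ι : Type v} (f : ι → Q)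

instance kerPiE_commGroup : CommGroup (piE f).ker :=
  { (inferInstance : Group (piE f).ker) with
    mul_comm := fun a b => Subtype.ext
      (Subgroup.mem_center_iff.mp (ker_piE_le_center f b.2) a.1) }

variable {f}

theorem exists_res_cor_aux [Finite Q] (hf : Function.Surjective (piF f)) {ι' : Type w}
    (U : Subgroup Q) (f' : ι' → U) (j : FreeGroup ι' →* FreeGroup ι)
    (hj1 : ∀ y, piF f (j y) = (piF f' y : Q))
    (hj2 : ∀ x, piF f x ∈ U → ∃ y, j y = x)
    (hj3 : Function.Injective j) :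
    ∃ (res : M f →* M f') (cor : M f' →* M f), ∀ z, cor (res z) = z ^ U.index := by
  classical
  let H : Subgroup (FreeGroup ι) := U.comap (piF f)
  have hidx : H.index = U.index := Subgroup.index_comap_of_surjective U hf
  have hHfi : H.FiniteIndex := ⟨by rw [hidx]; exact Subgroup.FiniteIndex.index_ne_zero⟩
  letI : Fintype (FreeGroup ι ⧸ H) := H.fintypeQuotientOfFiniteIndex
  have hRH : (piF f).ker ≤ H := fun x hx => by
    show piF f x ∈ U
    rw [MonoidHom.mem_ker.mp hx]; exact U.one_mem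
  -- the isomorphism `θ : FreeGroup ι' ≃* H`
  let jr : FreeGroup ι' →* H := j.codRestrict H (fun y => by
    show piF f (j y) ∈ U
    rw [hj1]; exact (piF f' y).2)
  have hjr : Function.Bijective jr := by
    constructor
    · intro a b hab
      apply hj3
      exact congrArg Subtype.val hab
    · rintro ⟨x, hx⟩
      obtain ⟨y, hy⟩ := hj2 x hx
      exact ⟨y, Subtype.ext hy⟩
  let θ : FreeGroup ι' ≃* H := MulEquiv.ofBijective jr hjr
  have hθ : ∀ y, (θ y : FreeGroup ι) = j y := fun y => rfl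
  have hθs : ∀ h : H, j (θ.symm h) = h := by
    intro h
    rw [← hθ, θ.apply_symm_apply]
  let φ₀ : (piF f).ker →* CE f' :=
    (QuotientGroup.mk' (relN f')).comp (θ.symm.toMonoidHom.comp (Subgroup.inclusion hRH))
  have hφ₀app : ∀ r, φ₀ r = QuotientGroup.mk (θ.symm (Subgroup.inclusion hRH r)) := fun r => rfl
  have hφ₀ : ∀ r : (piF f).ker, φ₀ r ∈ (piE f').ker := by
    intro r
    rw [MonoidHom.mem_ker, hφ₀app, piE_mk]
    apply Subtype.ext
    rw [← hj1, hθs]
    exact r.2
  let φ : (piF f).ker →* (piE f').ker := φ₀.codRestrict _ hφ₀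
  have hφH : ∀ (h : FreeGroup ι) (hh : h ∈ H) (r : (piF f).ker),
      φ (MulAut.conjNormal h r) = φ r := by
    intro h hh r
    apply Subtype.ext
    show φ₀ (MulAut.conjNormal h r) = φ₀ r
    have h1 : Subgroup.inclusion hRH (MulAut.conjNormal h r) =
        ⟨h, hh⟩ * Subgroup.inclusion hRH r * (⟨h, hh⟩ : H)⁻¹ := by
      apply Subtype.ext
      simp [MulAut.conjNormal_apply]
    have hc := ker_piE_le_center f' (hφ₀ r)
    have h2 := Subgroup.mem_center_iff.mp hc (QuotientGroup.mk (θ.symm ⟨h, hh⟩))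
    rw [hφ₀app, h1, map_mul, map_mul, map_inv, QuotientGroup.mk_mul, QuotientGroup.mk_mul,
      QuotientGroup.mk_inv, ← hφ₀app, h2, mul_inv_cancel_right]
  let ψ : FreeGroup ι → ((piF f).ker →* (piE f').ker) := fun t =>
    φ.comp (MulAut.conjNormal t⁻¹ : (piF f).ker ≃* (piF f).ker).toMonoidHom
  have hψ_apply : ∀ t r, ψ t r = φ (MulAut.conjNormal t⁻¹ r) := fun t r => rfl
  have hψH : ∀ (t h : FreeGroup ι), h ∈ H → ψ (t * h) = ψ t := by
    intro t h hh
    apply MonoidHom.ext
    intro r
    rw [hψ_apply, hψ_apply, mul_inv_rev, map_mul, MulAut.mul_apply, hφH h⁻¹ (H.inv_mem hh)]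
  let N : (piF f).ker →* (piE f').ker := ∏ q : FreeGroup ι ⧸ H, ψ q.out
  have hN : ∀ r, N r = ∏ q : FreeGroup ι ⧸ H, ψ q.out r :=
    fun r => MonoidHom.finsetProd_apply _ _ _
  have hNconj : ∀ (x : FreeGroup ι) (r : (piF f).ker), N (MulAut.conjNormal x r) = N r := by
    intro x r
    rw [hN, hN, ← Equiv.prod_comp (MulAction.toPerm x⁻¹ : Equiv.Perm (FreeGroup ι ⧸ H))
      (fun q => ψ q.out r)]
    apply Finset.prod_congr rfl
    intro q _
    show ψ q.out (MulAut.conjNormal x r) = ψ ((x⁻¹ • q).out) r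
    have h1 : ψ q.out (MulAut.conjNormal x r) = ψ (x⁻¹ * q.out) r := by
      rw [hψ_apply, hψ_apply, mul_inv_rev, inv_inv, map_mul, MulAut.mul_apply]
    obtain ⟨h, hh⟩ := QuotientGroup.mk_out_eq_mul H (x⁻¹ * q.out)
    have h2 : ((x⁻¹ * q.out : FreeGroup ι) : FreeGroup ι ⧸ H) = x⁻¹ • q := by
      conv_rhs => rw [← q.out_eq']
      rfl
    rw [h1, ← h2, hh, hψH _ _ h.2]
  have hNrel : ∀ r r' : (piF f).ker,
      (QuotientGroup.mk (r : FreeGroup ι) : CE f) = QuotientGroup.mk (r' : FreeGroup ι) →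
        N r = N r' := by
    have hle : relN f ≤ N.ker.map (piF f).ker.subtype := by
      rw [relN, Subgroup.commutator_le]
      intro a ha b _
      refine ⟨⟨a, ha⟩ * (MulAut.conjNormal b ⟨a, ha⟩)⁻¹, ?_, ?_⟩
      · show N (⟨a, ha⟩ * (MulAut.conjNormal b ⟨a, ha⟩)⁻¹) = 1
        rw [map_mul, map_inv, hNconj, mul_inv_cancel]
      · simp [commutatorElement_def, MulAut.conjNormal_apply, mul_assoc]
    intro r r' h
    have h1 : (r : FreeGroup ι)⁻¹ * r' ∈ relN f := QuotientGroup.eq.mp h
    obtain ⟨k, hk, hk'⟩ := hle h1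
    have h2 : k = r⁻¹ * r' := Subtype.ext hk'
    have hk2 : N (r⁻¹ * r') = 1 := by rw [← h2]; exact hk
    rw [map_mul, map_inv] at hk2
    exact inv_mul_eq_one.mp hk2
  let ν : (piF f).ker →* (piE f).ker :=
    ((QuotientGroup.mk' (relN f)).comp (piF f).ker.subtype).codRestrict _ (fun r => by
      rw [MonoidHom.mem_ker]
      show piE f (QuotientGroup.mk (r : FreeGroup ι)) = 1
      rw [piE_mk]; exact r.2)
  have hνapp : ∀ r, (ν r : CE f) = QuotientGroup.mk (r : FreeGroup ι) := fun r => rfl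
  have hν : Function.Surjective ν := by
    rintro ⟨z, hz⟩
    obtain ⟨x, rfl⟩ := QuotientGroup.mk_surjective z
    exact ⟨⟨x, hz⟩, rfl⟩
  have hνN : ν.ker ≤ N.ker := by
    intro r hr
    rw [MonoidHom.mem_ker] at hr ⊢
    have h1 := hNrel r 1 (by
      have := congrArg Subtype.val hr
      rw [hνapp] at this
      rw [this]; rfl)
    rw [h1, map_one]
  let resK : (piE f).ker →* (piE f').ker := ν.liftOfSurjective hν ⟨N, hνN⟩
  have hresK : ∀ r, resK (ν r) = N r :=
    fun r => MonoidHom.liftOfRightInverse_comp_apply _ _ _ _ _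
  have hjle : relN f' ≤ (relN f).comap j := by
    rw [relN, Subgroup.commutator_le]
    intro a ha b _
    show j ⁅a, b⁆ ∈ relN f
    rw [map_commutatorElement]
    refine Subgroup.commutator_mem_commutator ?_ (Subgroup.mem_top _)
    rw [MonoidHom.mem_ker, hj1, MonoidHom.mem_ker.mp ha]; rfl
  let corE : CE f' →* CE f := QuotientGroup.map (relN f') (relN f) j hjle
  have hcorE : ∀ y, corE (QuotientGroup.mk y) = QuotientGroup.mk (j y) := fun y => rfl
  have hpi : ∀ e, piE f (corE e) = (piE f' e : Q) := by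
    intro e
    obtain ⟨y, rfl⟩ := QuotientGroup.mk_surjective e
    rw [hcorE, piE_mk, piE_mk, hj1]
  let corK : (piE f').ker →* (piE f).ker :=
    (corE.comp (piE f').ker.subtype).codRestrict _ (fun e => by
      rw [MonoidHom.mem_ker]
      show piE f (corE (e : CE f')) = 1
      rw [hpi, MonoidHom.mem_ker.mp e.2]; rfl)
  have hcorφ : ∀ r : (piF f).ker, corK (φ r) = ν r := by
    intro r
    apply Subtype.ext
    show corE (QuotientGroup.mk (θ.symm (Subgroup.inclusion hRH r))) =
      QuotientGroup.mk (r : FreeGroup ι)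
    rw [hcorE, hθs]; rfl
  have hνconj : ∀ (t : FreeGroup ι) (r : (piF f).ker), ν (MulAut.conjNormal t r) = ν r := by
    intro t r
    apply Subtype.ext
    have hc := ker_piE_le_center f (ν r).2
    have h2 := Subgroup.mem_center_iff.mp hc (QuotientGroup.mk t)
    rw [hνapp, MulAut.conjNormal_apply, QuotientGroup.mk_mul, QuotientGroup.mk_mul,
      QuotientGroup.mk_inv, ← hνapp, h2, mul_inv_cancel_right]
  have hcorN : ∀ r : (piF f).ker, corK (N r) = ν r ^ U.index := by
    intro r
    rw [hN, map_prod, Finset.prod_congr rfl (fun q _ => show corK (ψ q.out r) = ν r from by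
      rw [hψ_apply, hcorφ, hνconj]), Finset.prod_const, Finset.card_univ, ← hidx,
      Subgroup.index_eq_card, Nat.card_eq_fintype_card]
  let ϕ : H →* Abelianization (CE f') :=
    (Abelianization.of.comp (QuotientGroup.mk' (relN f'))).comp θ.symm.toMonoidHom
  have hcomm : ∀ r : (piF f).ker, (r : FreeGroup ι) ∈ commutator (FreeGroup ι) →
      ((N r : (piE f').ker) : CE f') ∈ commutator (CE f') := by
    intro r hr
    have hconj : ∀ t : FreeGroup ι, t⁻¹ * (r : FreeGroup ι) * t ∈ H := by
      intro t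
      apply hRH
      have := (MulAut.conjNormal t⁻¹ r).2
      rwa [MulAut.conjNormal_apply, inv_inv] at this
    have h1 := transfer_eq_prod_conj ϕ (r : FreeGroup ι) hconj
    have h2 : MonoidHom.transfer ϕ (r : FreeGroup ι) = 1 :=
      Abelianization.commutator_subset_ker (MonoidHom.transfer ϕ) hr
    rw [← Abelianization.ker_of, MonoidHom.mem_ker]
    let ab : (piE f').ker →* Abelianization (CE f') :=
      Abelianization.of.comp (piE f').ker.subtype
    show ab (N r) = 1
    rw [hN, map_prod, ← h2, h1]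
    apply Finset.prod_congr rfl
    intro q _
    have h3 : Subgroup.inclusion hRH (MulAut.conjNormal q.out⁻¹ r) =
        ⟨q.out⁻¹ * (r : FreeGroup ι) * q.out, hconj _⟩ := by
      apply Subtype.ext
      simp
    show Abelianization.of (QuotientGroup.mk
      (θ.symm (Subgroup.inclusion hRH (MulAut.conjNormal q.out⁻¹ r)))) = _
    rw [h3]
    rfl
  have hresM : ∀ z : M f, ((resK ⟨z, M_le_ker f z.2⟩ : (piE f').ker) : CE f') ∈ M f' := by
    intro z
    have hz2 : (z : CE f) ∈ commutator (CE f) := M_le_commutator f z.2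
    rw [← map_commutator_of_surjective (QuotientGroup.mk' (relN f))
      (QuotientGroup.mk'_surjective _)] at hz2
    obtain ⟨x, hx, hxz⟩ := hz2
    have hxz' : (QuotientGroup.mk x : CE f) = z := hxz
    have hxR : x ∈ (piF f).ker := by
      rw [MonoidHom.mem_ker, ← piE_mk, hxz']
      exact M_le_ker f z.2
    have h1 : (⟨z, M_le_ker f z.2⟩ : (piE f).ker) = ν ⟨x, hxR⟩ := Subtype.ext hxz'.symm
    rw [h1, hresK]
    exact Subgroup.mem_inf.mpr ⟨(N ⟨x, hxR⟩).2, hcomm ⟨x, hxR⟩ hx⟩
  let res : M f →* M f' :=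
    (((piE f').ker.subtype.comp resK).comp (Subgroup.inclusion (M_le_ker f))).codRestrict
      (M f') hresM
  have hcorM : ∀ m : M f', corE (m : CE f') ∈ M f := by
    intro m
    refine Subgroup.mem_inf.mpr ⟨?_, ?_⟩
    · rw [MonoidHom.mem_ker, hpi, MonoidHom.mem_ker.mp (M_le_ker f' m.2)]; rfl
    · have : (commutator (CE f')).map corE ≤ commutator (CE f) := by
        rw [commutator_def, commutator_def, Subgroup.map_commutator]
        exact Subgroup.commutator_mono le_top le_top
      exact this (Subgroup.mem_map_of_mem corE (M_le_commutator f' m.2))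
  let cor : M f' →* M f := (corE.comp (M f').subtype).codRestrict (M f) hcorM
  refine ⟨res, cor, ?_⟩
  intro z
  apply Subtype.ext
  show corE ((resK ⟨z, M_le_ker f z.2⟩ : (piE f').ker) : CE f') = ((z ^ U.index : M f) : CE f)
  obtain ⟨r, hr⟩ := hν ⟨z, M_le_ker f z.2⟩
  rw [← hr, hresK]
  have h1 := congrArg Subtype.val (hcorN r)
  have h2 : ((ν r : (piE f).ker) : CE f) = z := congrArg Subtype.val hr
  rw [Subgroup.coe_pow, ← h2, ← Subgroup.coe_pow]
  exact h1

end ResCor

section ResCorMain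

/-- **Restriction and corestriction** between the multipliers of a finite group and of a
subgroup: the composite is the power map by the index. -/
theorem exists_res_cor {G : Type u} [Group G] [Finite G] (U : Subgroup G) {A : Type v}
    {B : Type w} [CommGroup A] [CommGroup B] (hA : HasSchurMultiplier G A)
    (hB : HasSchurMultiplier U B) :
    ∃ (res : A →* B) (cor : B →* A), ∀ a, cor (res a) = a ^ U.index := by
  classical
  have hπ : Function.Surjective (piF (id : G → G)) := piF_id_surjective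
  let H : Subgroup (FreeGroup G) := U.comap (piF (id : G → G))
  let θ : FreeGroup (IsFreeGroup.Generators H) ≃* H := (IsFreeGroup.toFreeGroup H).symm
  let j : FreeGroup (IsFreeGroup.Generators H) →* FreeGroup G := H.subtype.comp θ.toMonoidHom
  let f' : IsFreeGroup.Generators H → U :=
    fun i => ⟨piF (id : G → G) (j (FreeGroup.of i)), (θ (FreeGroup.of i)).2⟩
  have hj1 : ∀ y, piF (id : G → G) (j y) = (piF f' y : G) := by
    intro y
    have h1 : (piF (id : G → G)).comp j = U.subtype.comp (piF f') := by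
      ext i
      simp [piF, f']
    exact DFunLike.congr_fun h1 y
  have hj2 : ∀ x, piF (id : G → G) x ∈ U → ∃ y, j y = x := by
    intro x hx
    refine ⟨θ.symm ⟨x, hx⟩, ?_⟩
    show ((θ (θ.symm ⟨x, hx⟩) : H) : FreeGroup G) = x
    rw [θ.apply_symm_apply]
  have hj3 : Function.Injective j := by
    intro a b hab
    exact θ.injective (Subtype.ext hab)
  have hf' : Function.Surjective (piF f') := by
    intro u
    obtain ⟨x, hx⟩ := hπ (u : G)
    obtain ⟨y, hy⟩ := hj2 x (by rw [hx]; exact u.2)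
    refine ⟨y, Subtype.ext ?_⟩
    rw [← hj1, hy, hx]
  obtain ⟨res, cor, hrc⟩ := exists_res_cor_aux hπ U f' j hj1 hj2 hj3
  obtain ⟨eA⟩ := mulEquiv_of_hasSchurMultiplier hA (hasSchurMultiplier_M (Q := G))
  have hBfin : Finite B := finite_of_hasSchurMultiplier hB
  obtain ⟨Γ₀, _, _, τ, hτ, ⟨eτ⟩⟩ := hB.1
  obtain ⟨p1, hp1⟩ := exists_surj_of_central hB (piE f') (piE_surjective f' hf')
    (ker_piE_le_center f')
  obtain ⟨p2, hp2⟩ := exists_surj_M hf' τ hτ.1 hτ.2.1
  have c1 : Nat.card B ≤ Nat.card (M f') := by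
    have hle : τ.ker ⊓ commutator Γ₀ = τ.ker := inf_eq_left.mpr hτ.2.2
    have h1 : Nat.card (↥(τ.ker ⊓ commutator Γ₀)) = Nat.card B := by
      rw [hle]; exact Nat.card_congr eτ.toEquiv
    rw [← h1]
    exact Nat.card_le_card_of_surjective _ hp2
  have hbij : Function.Bijective p1 := Function.Surjective.bijective_of_nat_card_le hp1 c1
  let eB : B ≃* M f' := MulEquiv.ofBijective p1 hbij
  refine ⟨(eB.symm.toMonoidHom.comp res).comp eA.toMonoidHom,
    (eA.symm.toMonoidHom.comp cor).comp eB.toMonoidHom, ?_⟩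
  intro a
  show eA.symm (cor (eB (eB.symm (res (eA a))))) = a ^ U.index
  rw [eB.apply_symm_apply, hrc, map_pow, eA.symm_apply_apply]

/-- a primary component on which `cor ∘ res` is a coprime power map is a direct factor -/
theorem primary_direct_factor {A : Type*} {B : Type*} [CommGroup A] [CommGroup B] (p m : ℕ)
    [Fact p.Prime] (hm : ¬ p ∣ m) (hB : IsPGroup p B) (res : A →* B) (cor : B →* A)
    (h : ∀ a, cor (res a) = a ^ m) :
    ∃ C D : Subgroup B, C ⊓ D = ⊥ ∧ C ⊔ D = ⊤ ∧
      Nonempty (CommGroup.primaryComponent A p ≃* C) := by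
  have hp : p.Prime := Fact.out
  let ρ : CommGroup.primaryComponent A p →* B := res.comp (CommGroup.primaryComponent A p).subtype
  have hρ : ∀ a, ρ a = res (a : A) := fun a => rfl
  have hK : ∀ a : CommGroup.primaryComponent A p, (a : A) ^ m = 1 → a = 1 := by
    intro a ha
    obtain ⟨n, hn⟩ := CommGroup.mem_primaryComponent_iff_orderOf.mp a.2
    have h2 : orderOf (a : A) ∣ m := orderOf_dvd_of_pow_eq_one ha
    rw [hn] at h2
    have hn0 : n = 0 := by
      by_contra hn0
      exact hm (dvd_trans (dvd_pow_self p hn0) h2)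
    rw [hn0, pow_zero, orderOf_eq_one_iff] at hn
    exact Subtype.ext hn
  have hρinj : Function.Injective ρ := by
    rw [injective_iff_map_eq_one]
    intro a ha
    apply hK
    rw [← h, ← hρ, ha, map_one]
  refine ⟨ρ.range, cor.ker, ?_, ?_, ⟨MonoidHom.ofInjective hρinj⟩⟩
  · rw [eq_bot_iff]
    rintro x ⟨⟨a, rfl⟩, hx⟩
    have h1 : cor (ρ a) = 1 := hx
    rw [hρ, h] at h1
    rw [hK a h1, map_one]
    exact Subgroup.one_mem _
  · rw [eq_top_iff]
    intro b _
    have hmem : cor b ∈ CommGroup.primaryComponent A p := by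
      obtain ⟨k, hk⟩ := hB b
      exact ⟨k, by rw [← map_pow, hk, map_one]⟩
    have hAp : IsPGroup p (CommGroup.primaryComponent A p) := CommGroup.primaryComponent.isPGroup
    have hcop : p.Coprime m := (Nat.Prime.coprime_iff_not_dvd hp).mpr hm
    obtain ⟨a, ha⟩ := (hAp.powEquiv hcop).surjective ⟨cor b, hmem⟩
    have ha' : (a : A) ^ m = cor b := by
      have := congrArg Subtype.val ha
      rwa [IsPGroup.powEquiv_apply] at this
    refine Subgroup.mem_sup.mpr ⟨ρ a, ⟨a, rfl⟩, (ρ a)⁻¹ * b, ?_, mul_inv_cancel_left _ _⟩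
    rw [MonoidHom.mem_ker, map_mul, map_inv, hρ, h, ha', inv_mul_cancel]

end ResCorMain

end Cfsg.Agent.Lib.Helper35
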