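import Mathlib
import Cfsg.Prelude.Def_KGroupFacts
import Cfsg.Agent.Lib.Helper35.Schur
import Cfsg.Agent.Lib.Helper35.SchurProd

set_option autoImplicit false

namespace Cfsg.Agent.Lib.Helper35

universe u v w x x'

open scoped commutatorElement

section TensorPairing

open scoped IsMulCommutative
open TensorProduct

/-- a homomorphism to a commutative group killing the kernel of a surjection `φ` only depends
on the image in the abelianization of the target of `φ` -/
theorem hom_eq_of_ab_eq {G Q C : Type*} [Group G] [Group Q] [CommGroup C] (φ : G →* Q)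
    (hφ : Function.Surjective φ) (h : G →* C) (hk : φ.ker ≤ h.ker) {g g' : G}
    (e : Abelianization.of (φ g) = Abelianization.of (φ g')) : h g = h g' := by
  have h1 : φ (g'⁻¹ * g) ∈ commutator Q := by
    rw [← Abelianization.ker_of, MonoidHom.mem_ker, map_mul, map_inv, map_mul, map_inv, e,
      inv_mul_cancel]
  rw [← map_commutator_of_surjective φ hφ] at h1
  obtain ⟨d, hd, hdg⟩ := h1
  have hk1 : d⁻¹ * (g'⁻¹ * g) ∈ φ.ker := by
    rw [MonoidHom.mem_ker, map_mul, map_inv, hdg, inv_mul_cancel]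
  have h2 : h (d⁻¹ * (g'⁻¹ * g)) = 1 := hk hk1
  have h3 : h d = 1 := Abelianization.commutator_subset_ker h hd
  rw [map_mul, map_inv, h3, inv_one, one_mul, map_mul, map_inv] at h2
  exact (inv_mul_eq_one.mp h2).symm

variable {Q₁ : Type u} {Q₂ : Type v} [Group Q₁] [Group Q₂] {Δ : Type w} [Group Δ]
  {τ : Δ →* Q₁ × Q₂}

theorem pair_eq_of_ab_eq (hτ : Function.Surjective τ) (hc : τ.ker ≤ Subgroup.center Δ)
    {x x' : D1 τ} {y y' : D2 τ}
    (hx : Abelianization.of (tau1 τ x) = Abelianization.of (tau1 τ x'))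
    (hy : Abelianization.of (tau2 τ y) = Abelianization.of (tau2 τ y')) :
    ⁅(x : Δ), (y : Δ)⁆ = ⁅(x' : Δ), (y' : Δ)⁆ := by
  have h1 := hom_eq_of_ab_eq (tau1 τ) (tau1_surjective hτ) (pairL hc y)
    (ker_tau1_le_ker_pairL hc y) hx
  have h2 := hom_eq_of_ab_eq (tau2 τ) (tau2_surjective hτ) (pairR hc x')
    (ker_tau2_le_ker_pairR hc x') hy
  have h1' : ⁅(x : Δ), (y : Δ)⁆ = ⁅(x' : Δ), (y : Δ)⁆ := congrArg Subtype.val h1
  have h2' : ⁅(x' : Δ), (y : Δ)⁆ = ⁅(x' : Δ), (y' : Δ)⁆ := congrArg Subtype.val h2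
  rw [h1', h2']

/-- the commutator pairing as a homomorphism on the tensor product of the abelianizations -/
theorem exists_tensor_hom (hτ : Function.Surjective τ) (hc : τ.ker ≤ Subgroup.center Δ) :
    ∃ pT : Multiplicative (Additive (Abelianization Q₁) ⊗[ℤ] Additive (Abelianization Q₂)) →*
        Subgroup.center Δ,
      ∀ (x : D1 τ) (y : D2 τ),
        ((pT (Multiplicative.ofAdd (Additive.ofMul (Abelianization.of (tau1 τ x)) ⊗ₜ[ℤ]
          Additive.ofMul (Abelianization.of (tau2 τ y)))) : Subgroup.center Δ) : Δ) =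
            ⁅(x : Δ), (y : Δ)⁆ := by
  classical
  have hs₁ : Function.Surjective (fun x : D1 τ => Abelianization.of (tau1 τ x)) := fun a => by
    obtain ⟨q, rfl⟩ := QuotientGroup.mk_surjective a
    obtain ⟨x, rfl⟩ := tau1_surjective hτ q
    exact ⟨x, rfl⟩
  have hs₂ : Function.Surjective (fun y : D2 τ => Abelianization.of (tau2 τ y)) := fun a => by
    obtain ⟨q, rfl⟩ := QuotientGroup.mk_surjective a
    obtain ⟨y, rfl⟩ := tau2_surjective hτ q
    exact ⟨y, rfl⟩
  let s₁ := Function.surjInv hs₁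
  let s₂ := Function.surjInv hs₂
  have hs₁' : ∀ a, Abelianization.of (tau1 τ (s₁ a)) = a := Function.surjInv_eq hs₁
  have hs₂' : ∀ b, Abelianization.of (tau2 τ (s₂ b)) = b := Function.surjInv_eq hs₂
  let β : Abelianization Q₁ → Abelianization Q₂ → Subgroup.center Δ := fun a b =>
    ⟨⁅(s₁ a : Δ), (s₂ b : Δ)⁆, pair_central hc (s₁ a).2 (s₂ b).2⟩
  have hβ : ∀ (x : D1 τ) (y : D2 τ),
      ((β (Abelianization.of (tau1 τ x)) (Abelianization.of (tau2 τ y)) : Subgroup.center Δ) : Δ)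
        = ⁅(x : Δ), (y : Δ)⁆ :=
    fun x y => pair_eq_of_ab_eq hτ hc (hs₁' _) (hs₂' _)
  have hβl : ∀ a a' b, β (a * a') b = β a b * β a' b := by
    intro a a' b
    apply Subtype.ext
    have h1 := hβ (s₁ a * s₁ a') (s₂ b)
    rw [map_mul, map_mul, hs₁', hs₁', hs₂'] at h1
    rw [h1]
    exact pair_mul_left hc (s₁ a').2 (s₂ b).2
  have hβr : ∀ a b b', β a (b * b') = β a b * β a b' := by
    intro a b b'
    apply Subtype.ext
    have h1 := hβ (s₁ a) (s₂ b * s₂ b')
    rw [map_mul, map_mul, hs₁', hs₂', hs₂'] at h1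
    rw [h1]
    exact pair_mul_right hc (s₁ a).2 (s₂ b').2
  let F : Additive (Abelianization Q₁) →+ Additive (Abelianization Q₂) →+
      Additive (Subgroup.center Δ) :=
    AddMonoidHom.mk' (fun a => AddMonoidHom.mk'
      (fun b => Additive.ofMul (β (Additive.toMul a) (Additive.toMul b)))
      (fun b b' => congrArg Additive.ofMul (hβr _ _ _)))
      (fun a a' => AddMonoidHom.ext fun b => congrArg Additive.ofMul (hβl _ _ _))
  have hbal : ∀ (r : ℤ) (m : Additive (Abelianization Q₁)) (n : Additive (Abelianization Q₂)),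
      F (r • m) n = F m (r • n) := by
    intro r m n
    rw [map_zsmul, AddMonoidHom.smul_apply, map_zsmul]
  refine ⟨AddMonoidHom.toMultiplicativeLeft (TensorProduct.liftAddHom F hbal), fun x y => ?_⟩
  exact hβ x y

theorem tensor_hom_mem {pT : Multiplicative (Additive (Abelianization Q₁) ⊗[ℤ]
      Additive (Abelianization Q₂)) →* Subgroup.center Δ}
    (hτ : Function.Surjective τ)
    (hpT : ∀ (x : D1 τ) (y : D2 τ),
        ((pT (Multiplicative.ofAdd (Additive.ofMul (Abelianization.of (tau1 τ x)) ⊗ₜ[ℤ]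
          Additive.ofMul (Abelianization.of (tau2 τ y)))) : Subgroup.center Δ) : Δ) =
            ⁅(x : Δ), (y : Δ)⁆)
    (t : Multiplicative (Additive (Abelianization Q₁) ⊗[ℤ] Additive (Abelianization Q₂))) :
    ((pT t : Subgroup.center Δ) : Δ) ∈ ⁅D1 τ, D2 τ⁆ := by
  obtain ⟨t, rfl⟩ := Multiplicative.ofAdd.surjective t
  induction t using TensorProduct.induction_on with
  | zero =>
    have : pT (Multiplicative.ofAdd (0 : Additive (Abelianization Q₁) ⊗[ℤ]
        Additive (Abelianization Q₂))) = 1 := map_one pT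
    rw [this]; exact Subgroup.one_mem _
  | tmul a b =>
    obtain ⟨q₁, hq₁⟩ := QuotientGroup.mk_surjective (Additive.toMul a)
    obtain ⟨q₂, hq₂⟩ := QuotientGroup.mk_surjective (Additive.toMul b)
    obtain ⟨x, rfl⟩ := tau1_surjective hτ q₁
    obtain ⟨y, rfl⟩ := tau2_surjective hτ q₂
    have ha : a = Additive.ofMul (Abelianization.of (tau1 τ x)) := by
      rw [← ofMul_toMul a]; exact congrArg Additive.ofMul hq₁.symm
    have hb : b = Additive.ofMul (Abelianization.of (tau2 τ y)) := by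
      rw [← ofMul_toMul b]; exact congrArg Additive.ofMul hq₂.symm
    rw [ha, hb, hpT]
    exact Subgroup.commutator_mem_commutator x.2 y.2
  | add s t hs ht =>
    have : pT (Multiplicative.ofAdd (s + t)) =
        pT (Multiplicative.ofAdd s) * pT (Multiplicative.ofAdd t) := by
      rw [← map_mul]; rfl
    rw [this, Subgroup.coe_mul]
    exact mul_mem hs ht

/-- **Upper bound for the multiplier of a direct product.** -/
theorem exists_surj_prod [Finite Q₁] [Finite Q₂] {A : Type x} {B : Type x'} [CommGroup A]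
    [CommGroup B] (hA : HasSchurMultiplier Q₁ A) (hB : HasSchurMultiplier Q₂ B)
    (hτ : IsStemExtension τ) :
    ∃ π : A × B × Multiplicative (Additive (Abelianization Q₁) ⊗[ℤ]
        Additive (Abelianization Q₂)) →* τ.ker, Function.Surjective π := by
  obtain ⟨pA, hpA⟩ := exists_surj_K1 hA hτ.1 hτ.2.1
  obtain ⟨pB, hpB⟩ := exists_surj_K2 hB hτ.1 hτ.2.1
  obtain ⟨pT, hpT⟩ := exists_tensor_hom hτ.1 hτ.2.1
  have hT := tensor_hom_mem hτ.1 hpT
  let jA : ↥(τ.ker ⊓ ⁅D1 τ, D1 τ⁆) →* Subgroup.center Δ :=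
    Subgroup.inclusion (inf_le_left.trans hτ.2.1)
  let jB : ↥(τ.ker ⊓ ⁅D2 τ, D2 τ⁆) →* Subgroup.center Δ :=
    Subgroup.inclusion (inf_le_left.trans hτ.2.1)
  let Φ₀ : A × B × Multiplicative (Additive (Abelianization Q₁) ⊗[ℤ]
      Additive (Abelianization Q₂)) →* Subgroup.center Δ :=
    (jA.comp pA).coprod ((jB.comp pB).coprod pT)
  have hΦ₀ : ∀ a b t, ((Φ₀ (a, b, t) : Subgroup.center Δ) : Δ) =
      ((pA a : ↥(τ.ker ⊓ ⁅D1 τ, D1 τ⁆)) : Δ) * (((pB b : ↥(τ.ker ⊓ ⁅D2 τ, D2 τ⁆)) : Δ) *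
        ((pT t : Subgroup.center Δ) : Δ)) := fun a b t => rfl
  have hmem : ∀ z, ((Subgroup.center Δ).subtype.comp Φ₀) z ∈ τ.ker := by
    rintro ⟨a, b, t⟩
    show ((Φ₀ (a, b, t) : Subgroup.center Δ) : Δ) ∈ τ.ker
    rw [hΦ₀]
    exact mul_mem (Subgroup.mem_inf.mp (pA a).2).1
      (mul_mem (Subgroup.mem_inf.mp (pB b).2).1 (comm_D_le_ker (hT t)))
  refine ⟨((Subgroup.center Δ).subtype.comp Φ₀).codRestrict τ.ker hmem, ?_⟩
  rintro ⟨k, hk⟩
  obtain ⟨a, ha, b, hb, c, hc, rfl⟩ := ker_decomp hτ.1 hk (hτ.2.2 hk)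
  obtain ⟨α, hα⟩ := hpA ⟨a, ha⟩
  obtain ⟨β, hβ⟩ := hpB ⟨b, hb⟩
  have hrange : ⁅D1 τ, D2 τ⁆ ≤ (pT.range).map (Subgroup.center Δ).subtype := by
    rw [Subgroup.commutator_le]
    intro x hx y hy
    exact ⟨_, ⟨_, rfl⟩, hpT ⟨x, hx⟩ ⟨y, hy⟩⟩
  obtain ⟨_, ⟨t, rfl⟩, ht⟩ := hrange hc
  refine ⟨(α, β, t), Subtype.ext ?_⟩
  show ((Φ₀ (α, β, t) : Subgroup.center Δ) : Δ) = a * b * c
  rw [hΦ₀, hα, hβ, mul_assoc]
  have ht' : ((pT t : Subgroup.center Δ) : Δ) = c := ht
  rw [ht']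

end TensorPairing

end Cfsg.Agent.Lib.Helper35
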