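import Mathlib
import Cfsg.Prelude.Def_KGroupFacts
import Cfsg.Agent.Lib.Helper35.Schur
import Cfsg.Agent.Lib.Helper35.Schur2

set_option autoImplicit false

namespace Cfsg.Agent.Lib.Helper35

universe u v w

open scoped commutatorElement

section GeneralUniq

/-- a homomorphism into a stem extension that is onto modulo the kernel is onto -/
theorem surjective_of_comp_stem {Q : Type*} {Γ : Type*} {X : Type*} [Group Q] [Group Γ] [Group X]
    (σ : Γ →* Q) (hσ : IsStemExtension σ) (ε : X →* Γ)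
    (h : Function.Surjective (σ.comp ε)) : Function.Surjective ε := by
  have hdec : ∀ g : Γ, ∃ x : X, ∃ z ∈ σ.ker, g = ε x * z := by
    intro g
    obtain ⟨x, hx⟩ := h (σ g)
    refine ⟨x, (ε x)⁻¹ * g, ?_, by group⟩
    have hx' : σ (ε x) = σ g := hx
    rw [MonoidHom.mem_ker, map_mul, map_inv, hx', inv_mul_cancel]
  have hcomm : commutator Γ ≤ ε.range := by
    rw [commutator_def, Subgroup.commutator_le]
    intro a _ b _
    obtain ⟨x, z, hz, rfl⟩ := hdec a
    obtain ⟨y, z', hz', rfl⟩ := hdec b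
    rw [comm_mul_central_left (hσ.2.1 hz), comm_mul_central_right (hσ.2.1 hz'),
      ← map_commutatorElement]
    exact ⟨_, rfl⟩
  intro g
  obtain ⟨x, z, hz, rfl⟩ := hdec g
  obtain ⟨y, hy⟩ := hcomm (hσ.2.2 hz)
  exact ⟨x * y, by rw [map_mul, hy]⟩

/-- extension of homomorphisms into a finite abelian group of order coprime to `N`, from a
subgroup `C` meeting the commutator subgroup trivially such that `N`-th powers lie in `C`
modulo commutators -/
theorem exists_extend_hom_of_coprime {G : Type*} [Group G] {Z : Type*} [CommGroup Z] [Finite Z]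
    (C : Subgroup G) (hC : C ⊓ commutator G = ⊥) (N : ℕ) (hN : Nat.Coprime (Nat.card Z) N)
    (hpow : ∀ x : G, ∃ c ∈ C, ∃ d ∈ commutator G, x ^ N = c * d) (χ₀ : C →* Z) :
    ∃ χ : G →* Z, ∀ c : C, χ c = χ₀ c := by
  classical
  have hinj : ∀ c c' : G, c ∈ C → c' ∈ C →
      Abelianization.of c = Abelianization.of c' → c = c' := by
    intro c c' hc hc' h
    have h1 : c'⁻¹ * c ∈ commutator G := by
      rw [← Abelianization.ker_of, MonoidHom.mem_ker, map_mul, map_inv, h, inv_mul_cancel]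
    have h2 : c'⁻¹ * c ∈ C ⊓ commutator G :=
      Subgroup.mem_inf.mpr ⟨C.mul_mem (C.inv_mem hc') hc, h1⟩
    rw [hC, Subgroup.mem_bot] at h2
    exact (inv_mul_eq_one.mp h2).symm
  choose r hrC d hd hr using hpow
  have hof : ∀ x, Abelianization.of (r x) = (Abelianization.of x) ^ N := by
    intro x
    have h1 := congrArg Abelianization.of (hr x)
    rw [map_pow, map_mul] at h1
    have hd1 : Abelianization.of (d x) = 1 := by
      rw [← MonoidHom.mem_ker, Abelianization.ker_of]; exact hd x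
    rw [hd1, mul_one] at h1
    exact h1.symm
  let R : G →* C := MonoidHom.mk' (fun x => ⟨r x, hrC x⟩) (by
    intro x y
    apply Subtype.ext
    apply hinj _ _ (hrC _) (C.mul_mem (hrC x) (hrC y))
    rw [hof, map_mul, map_mul, hof, hof, mul_pow])
  have hRc : ∀ c : C, R c = c ^ N := by
    intro c
    apply Subtype.ext
    apply hinj _ _ (hrC _) (C.pow_mem c.2 N)
    rw [hof, map_pow]
  have hbij : Function.Bijective (powMonoidHom N : Z →* Z) := (powCoprime hN).bijective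
  let eZ : Z ≃* Z := MulEquiv.ofBijective (powMonoidHom N : Z →* Z) hbij
  refine ⟨eZ.symm.toMonoidHom.comp (χ₀.comp R), fun c => ?_⟩
  show eZ.symm (χ₀ (R c)) = χ₀ c
  rw [hRc, map_pow, MulEquiv.symm_apply_eq]
  rfl

/-- in a finite abelian group of order divisible by `p` some element is not a `p`-th power -/
theorem exists_not_pow {Z : Type*} [CommGroup Z] [Finite Z] (p : ℕ) [Fact p.Prime]
    (hp : p ∣ Nat.card Z) : ∃ m₁ : Z, ∀ m : Z, m ^ p ≠ m₁ := by
  obtain ⟨x, hx⟩ := exists_prime_orderOf_dvd_card' p hp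
  by_contra hcon
  push Not at hcon
  have hsurj : Function.Surjective (fun m : Z => m ^ p) := hcon
  have hinj : Function.Injective (fun m : Z => m ^ p) := Finite.injective_iff_surjective.mpr hsurj
  have h1 : x ^ p = (1 : Z) ^ p := by
    rw [one_pow, ← hx, pow_orderOf_eq_one]
  have h2 : x = 1 := hinj h1
  rw [h2, orderOf_one] at hx
  exact (Fact.out : p.Prime).one_lt.ne hx

/-- on a free `ℤ`-module of finite rank, an element that is not divisible by `p` can be mapped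
to an element not divisible by `p` as soon as the target has one -/
theorem exists_hom_not_smul {N : Type*} [AddCommGroup N] [Module.Free ℤ N] [Module.Finite ℤ N]
    {Z : Type*} [AddCommGroup Z] (p : ℕ) [Fact p.Prime] (u : N) (hu : ∀ y : N, (p : ℤ) • y ≠ u)
    (m₁ : Z) (hm₁ : ∀ m : Z, (p : ℤ) • m ≠ m₁) :
    ∃ φ : N →ₗ[ℤ] Z, ∀ z : Z, (p : ℤ) • z ≠ φ u := by
  classical
  let b := Module.Free.chooseBasis ℤ N
  have hex : ∃ i, ¬ (p : ℤ) ∣ b.repr u i := by
    by_contra hcon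
    push Not at hcon
    choose k hk using hcon
    apply hu (∑ i, k i • b i)
    rw [Finset.smul_sum]
    conv_rhs => rw [← b.sum_repr u]
    apply Finset.sum_congr rfl
    intro i _
    rw [smul_smul, hk i]
  obtain ⟨i₀, hi₀⟩ := hex
  let φ : N →ₗ[ℤ] Z := b.constr ℤ (fun i => if i = i₀ then m₁ else 0)
  refine ⟨φ, ?_⟩
  intro z hz
  have h1 : φ u = b.repr u i₀ • m₁ := by
    show b.constr ℤ (fun i => if i = i₀ then m₁ else 0) u = _
    rw [Module.Basis.constr_apply_fintype]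
    rw [Finset.sum_eq_single i₀]
    · rw [if_pos rfl]; rfl
    · intro j _ hj
      rw [if_neg hj, smul_zero]
    · intro h; exact absurd (Finset.mem_univ _) h
  have hcop : IsCoprime (b.repr u i₀) (p : ℤ) := by
    have hpp : Prime (p : ℤ) := Nat.prime_iff_prime_int.mp (Fact.out : p.Prime)
    exact (IsCoprime.symm ((Prime.coprime_iff_not_dvd hpp).mpr hi₀))
  obtain ⟨a, c, hac⟩ := hcop
  apply hm₁ (a • z + c • m₁)
  calc (p : ℤ) • (a • z + c • m₁) = a • ((p : ℤ) • z) + (c * p) • m₁ := by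
        rw [smul_add, smul_smul, smul_smul, smul_smul, mul_comm (p : ℤ) a, mul_comm (p : ℤ) c]
    _ = a • (b.repr u i₀ • m₁) + (c * p) • m₁ := by rw [hz, h1]
    _ = (a * b.repr u i₀ + c * p) • m₁ := by rw [add_smul, smul_smul]
    _ = m₁ := by rw [hac, one_smul]

end GeneralUniq

section Complements

variable {Q : Type u} [Group Q] {ι : Type v} (f : ι → Q)

/-- complements of `M` inside the kernel of the free central extension -/
def IsMCompl (C : Subgroup (CE f)) : Prop :=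
  C ≤ (piE f).ker ∧ C ⊓ commutator (CE f) = ⊥ ∧
    ∀ z ∈ (piE f).ker, ∃ s ∈ C, ∃ m ∈ commutator (CE f), z = s * m

variable {f}

/-- the kernel of a lift of the free central extension to a Schur cover is a complement of
`M` -/
theorem isMCompl_ker_lift [Finite Q] (hf : Function.Surjective (piF f)) {Γ : Type w} [Group Γ]
    [Finite Γ] (σ : Γ →* Q) (hσ : IsStemExtension σ) (hcard : Nat.card (M f) ≤ Nat.card σ.ker)
    (θ : CE f →* Γ) (hθ : σ.comp θ = piE f) : IsMCompl f θ.ker := by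
  obtain ⟨p, hp, hpm⟩ := surj_restrict_M hf σ hσ θ hθ
  have hpb : Function.Bijective p := Function.Surjective.bijective_of_nat_card_le hp hcard
  refine ⟨ker_lift_le σ θ hθ, ?_, ?_⟩
  · rw [eq_bot_iff]
    intro e he
    have he' := Subgroup.mem_inf.mp he
    have hm : e ∈ M f := Subgroup.mem_inf.mpr ⟨ker_lift_le σ θ hθ he'.1, he'.2⟩
    have h1 : p ⟨e, hm⟩ = 1 := by
      apply Subtype.ext
      rw [hpm]; exact he'.1
    have h2 : (⟨e, hm⟩ : M f) = 1 := hpb.1 (h1.trans (map_one p).symm)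
    rw [Subgroup.mem_bot]
    exact congrArg Subtype.val h2
  · intro z hz
    have hz' : θ z ∈ σ.ker := by
      rw [MonoidHom.mem_ker, ← MonoidHom.comp_apply, hθ]; exact hz
    obtain ⟨m, hm⟩ := hp ⟨θ z, hz'⟩
    have hm' : θ (m : CE f) = θ z := by
      rw [← hpm, hm]
    refine ⟨z * (m : CE f)⁻¹, ?_, (m : CE f), M_le_commutator f m.2, by group⟩
    rw [MonoidHom.mem_ker, map_mul, map_inv, hm', mul_inv_cancel]

/-- the projection of the kernel onto `M` along a complement -/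
theorem exists_projM {C : Subgroup (CE f)} (hC : IsMCompl f C) :
    ∃ g : (piE f).ker →* M f, (∀ b : (piE f).ker, (b : CE f) ∈ C ↔ g b = 1) ∧
      ∀ (m : CE f) (hm : m ∈ M f), g ⟨m, M_le_ker f hm⟩ = ⟨m, hm⟩ := by
  obtain ⟨hCK, hCM, hdec⟩ := hC
  choose s hs m hm hsm using hdec
  have huniq : ∀ a a' b b' : CE f, a ∈ C → a' ∈ C → b ∈ commutator (CE f) →
      b' ∈ commutator (CE f) → a * b = a' * b' → b = b' := by
    intro a a' b b' ha ha' hb hb' h
    have h1 : a'⁻¹ * a = b' * b⁻¹ := by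
      have : a'⁻¹ * (a * b) * b⁻¹ = a'⁻¹ * (a' * b') * b⁻¹ := by rw [h]
      calc a'⁻¹ * a = a'⁻¹ * (a * b) * b⁻¹ := by group
        _ = a'⁻¹ * (a' * b') * b⁻¹ := this
        _ = b' * b⁻¹ := by group
    have h2 : a'⁻¹ * a ∈ C ⊓ commutator (CE f) := by
      refine Subgroup.mem_inf.mpr ⟨C.mul_mem (C.inv_mem ha') ha, ?_⟩
      rw [h1]; exact mul_mem hb' (inv_mem hb)
    rw [hCM, Subgroup.mem_bot, h1] at h2
    exact (mul_inv_eq_one.mp h2).symm
  have hmM : ∀ z hz, m z hz ∈ M f := by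
    intro z hz
    refine Subgroup.mem_inf.mpr ⟨?_, hm z hz⟩
    have : m z hz = (s z hz)⁻¹ * z := by
      have := hsm z hz
      calc m z hz = (s z hz)⁻¹ * (s z hz * m z hz) := by group
        _ = (s z hz)⁻¹ * z := by rw [← this]
    rw [this]
    exact mul_mem (inv_mem (hCK (hs z hz))) hz
  let g : (piE f).ker →* M f := MonoidHom.mk' (fun b => ⟨m b.1 b.2, hmM b.1 b.2⟩) (by
    intro b b'
    apply Subtype.ext
    show m (b.1 * b'.1) (b * b').2 = m b.1 b.2 * m b'.1 b'.2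
    have hcen : m b.1 b.2 ∈ Subgroup.center (CE f) :=
      ker_piE_le_center f (M_le_ker f (hmM b.1 b.2))
    have hcomm := Subgroup.mem_center_iff.mp hcen (s b'.1 b'.2)
    apply huniq (s (b.1 * b'.1) (b * b').2) (s b.1 b.2 * s b'.1 b'.2) _ _ (hs _ _)
      (C.mul_mem (hs _ _) (hs _ _)) (hm _ _) (mul_mem (hm _ _) (hm _ _))
    rw [← hsm (b.1 * b'.1) (b * b').2]
    calc b.1 * b'.1 = (s b.1 b.2 * m b.1 b.2) * (s b'.1 b'.2 * m b'.1 b'.2) := by
          rw [← hsm b.1 b.2, ← hsm b'.1 b'.2]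
      _ = s b.1 b.2 * (m b.1 b.2 * s b'.1 b'.2) * m b'.1 b'.2 := by group
      _ = s b.1 b.2 * (s b'.1 b'.2 * m b.1 b.2) * m b'.1 b'.2 := by rw [hcomm]
      _ = s b.1 b.2 * s b'.1 b'.2 * (m b.1 b.2 * m b'.1 b'.2) := by group)
  have hg : ∀ b : (piE f).ker, ((g b : M f) : CE f) = m b.1 b.2 := fun b => rfl
  refine ⟨g, ?_, ?_⟩
  · intro b
    constructor
    · intro hb
      apply Subtype.ext
      rw [hg]
      have := hsm b.1 b.2
      exact huniq (s b.1 b.2) b.1 _ 1 (hs _ _) hb (hm _ _) (Subgroup.one_mem _)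
        (by rw [← this, mul_one])
    · intro hb
      have h1 : m b.1 b.2 = 1 := by rw [← hg, hb]; rfl
      have := hsm b.1 b.2
      rw [h1, mul_one] at this
      rw [this]; exact hs _ _
  · intro x hx
    apply Subtype.ext
    rw [hg]
    have := hsm x (M_le_ker f hx)
    exact huniq (s x (M_le_ker f hx)) 1 _ x (hs _ _) (Subgroup.one_mem _) (hm _ _)
      (M_le_commutator f hx) (by rw [← this, one_mul])

variable (f)

/-- lifting through a central extension with prescribed values on the generators -/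
theorem exists_lift_of_section {X : Type w} [Group X] (ξ : X →* Q)
    (hc : ξ.ker ≤ Subgroup.center X) (s : ι → X) (hs : ∀ i, ξ (s i) = f i) :
    ∃ θ : CE f →* X, (∀ i, θ (QuotientGroup.mk (FreeGroup.of i)) = s i) ∧
      ξ.comp θ = piE f := by
  let ψ : FreeGroup ι →* X := FreeGroup.lift s
  have hψ : ξ.comp ψ = piF f := by
    ext i; simp [ψ, piF, hs]
  have hN : relN f ≤ ψ.ker := by
    rw [relN, Subgroup.commutator_le]
    intro a ha b _
    rw [MonoidHom.mem_ker, map_commutatorElement]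
    have hz : ψ a ∈ Subgroup.center X := by
      apply hc
      rw [MonoidHom.mem_ker, ← MonoidHom.comp_apply, hψ]; exact ha
    rw [commutatorElement_eq_one_iff_mul_comm]
    exact (Subgroup.mem_center_iff.mp hz (ψ b)).symm
  refine ⟨QuotientGroup.lift (relN f) ψ hN, fun i => ?_, ?_⟩
  · show ψ (FreeGroup.of i) = s i
    simp [ψ]
  · apply QuotientGroup.monoidHom_ext
    ext i
    simp [piE, ψ, piF, hs]

end Complements

section MainUniq

universe w'

variable {Q : Type u} [Group Q] [Finite Q]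

omit [Finite Q] in
theorem card_cover {Γ : Type w} [Group Γ] [Finite Γ] (σ : Γ →* Q) (hσ : Function.Surjective σ) :
    Nat.card Γ = Nat.card Q * Nat.card σ.ker := by
  rw [Subgroup.card_eq_card_quotient_mul_card_subgroup σ.ker,
    Nat.card_congr (QuotientGroup.quotientKerEquivOfSurjective σ hσ).toEquiv]

theorem cover_iso_of_coprime_aux {ι : Type v} {f : ι → Q} (hf : Function.Surjective (piF f))
    (hcop : Nat.Coprime (Nat.card (M f)) (Nat.card (Abelianization Q)))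
    {Γ₁ : Type w} {Γ₂ : Type w'} [Group Γ₁] [Finite Γ₁] [Group Γ₂] [Finite Γ₂]
    (σ₁ : Γ₁ →* Q) (σ₂ : Γ₂ →* Q) (h₁ : IsStemExtension σ₁) (h₂ : IsStemExtension σ₂)
    (hc₁ : Nat.card σ₁.ker = Nat.card (M f)) (hc₂ : Nat.card σ₂.ker = Nat.card (M f)) :
    ∃ e : Γ₁ ≃* Γ₂, σ₂.comp e.toMonoidHom = σ₁ := by
  classical
  obtain ⟨θ₁, hθ₁⟩ := exists_lift f σ₁ h₁.1 h₁.2.1
  obtain ⟨θ₂, hθ₂⟩ := exists_lift f σ₂ h₂.1 h₂.2.1
  have hθ₁s := surjective_of_stem hf σ₁ h₁ θ₁ hθ₁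
  have hC₁ := isMCompl_ker_lift hf σ₁ h₁ hc₁.ge θ₁ hθ₁
  have hC₂ := isMCompl_ker_lift hf σ₂ h₂ hc₂.ge θ₂ hθ₂
  obtain ⟨g₂, hg₂C, hg₂M⟩ := exists_projM hC₂
  let χ₀ : θ₁.ker →* M f := (g₂.comp (Subgroup.inclusion hC₁.1))⁻¹
  have hχ₀ : ∀ c : θ₁.ker, χ₀ c = (g₂ ⟨c.1, hC₁.1 c.2⟩)⁻¹ := fun c => rfl
  have hpow : ∀ x : CE f, ∃ c ∈ θ₁.ker, ∃ d ∈ commutator (CE f),
      x ^ Nat.card (Abelianization Q) = c * d := by
    intro x
    have h1 : piE f (x ^ Nat.card (Abelianization Q)) ∈ commutator Q := by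
      rw [← Abelianization.ker_of, MonoidHom.mem_ker, map_pow, map_pow, pow_card_eq_one']
    rw [← map_commutator_of_surjective (piE f) (piE_surjective f hf)] at h1
    obtain ⟨d', hd', hd'eq⟩ := h1
    have hb : x ^ Nat.card (Abelianization Q) * d'⁻¹ ∈ (piE f).ker := by
      rw [MonoidHom.mem_ker, map_mul, map_inv, hd'eq, mul_inv_cancel]
    obtain ⟨s, hs, m, hm, hsm⟩ := hC₁.2.2 _ hb
    refine ⟨s, hs, m * d', mul_mem hm hd', ?_⟩
    rw [← mul_assoc, ← hsm]; group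
  obtain ⟨χ, hχ⟩ := exists_extend_hom_of_coprime θ₁.ker hC₁.2.1 _ hcop hpow χ₀
  let α : CE f →* CE f := MonoidHom.mk' (fun x => x * ((χ x : M f) : CE f)) (by
    intro a b
    have hz : ((χ a : M f) : CE f) ∈ Subgroup.center (CE f) :=
      ker_piE_le_center f (M_le_ker f (χ a).2)
    have hcomm := Subgroup.mem_center_iff.mp hz b
    rw [map_mul]
    show a * b * (((χ a : M f) : CE f) * ((χ b : M f) : CE f)) =
      a * ((χ a : M f) : CE f) * (b * ((χ b : M f) : CE f))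
    calc a * b * (((χ a : M f) : CE f) * ((χ b : M f) : CE f))
        = a * (b * ((χ a : M f) : CE f)) * ((χ b : M f) : CE f) := by group
      _ = a * (((χ a : M f) : CE f) * b) * ((χ b : M f) : CE f) := by rw [hcomm]
      _ = a * ((χ a : M f) : CE f) * (b * ((χ b : M f) : CE f)) := by group)
  have hα : ∀ x, α x = x * ((χ x : M f) : CE f) := fun x => rfl
  have hker : θ₁.ker ≤ (θ₂.comp α).ker := by
    intro c hc
    rw [MonoidHom.mem_ker, MonoidHom.comp_apply, ← MonoidHom.mem_ker, hα]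
    have h1 : χ c = (g₂ ⟨c, hC₁.1 hc⟩)⁻¹ := by rw [← hχ₀ ⟨c, hc⟩, ← hχ ⟨c, hc⟩]
    have h2 := hg₂C (⟨c, hC₁.1 hc⟩ * ⟨((χ c : M f) : CE f), M_le_ker f (χ c).2⟩)
    have h3 : g₂ (⟨c, hC₁.1 hc⟩ * ⟨((χ c : M f) : CE f), M_le_ker f (χ c).2⟩) = 1 := by
      rw [map_mul, hg₂M _ (χ c).2]
      show g₂ ⟨c, hC₁.1 hc⟩ * χ c = 1
      rw [h1, mul_inv_cancel]
    exact h2.mpr h3
  let ε : Γ₁ →* Γ₂ := θ₁.liftOfRightInverse (Function.surjInv hθ₁s)
    (Function.rightInverse_surjInv hθ₁s) ⟨θ₂.comp α, hker⟩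
  have hε : ∀ x, ε (θ₁ x) = θ₂ (α x) := fun x =>
    θ₁.liftOfRightInverse_comp_apply (Function.surjInv hθ₁s) (Function.rightInverse_surjInv hθ₁s)
      ⟨θ₂.comp α, hker⟩ x
  have hσε : σ₂.comp ε = σ₁ := by
    ext g
    obtain ⟨x, rfl⟩ := hθ₁s g
    rw [MonoidHom.comp_apply, hε, ← MonoidHom.comp_apply, hθ₂, hα, map_mul,
      MonoidHom.mem_ker.mp (M_le_ker f (χ x).2), mul_one, ← hθ₁, MonoidHom.comp_apply]
  have hεs : Function.Surjective ε := surjective_of_comp_stem σ₂ h₂ ε (by rw [hσε]; exact h₁.1)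
  have hcard : Nat.card Γ₁ ≤ Nat.card Γ₂ := by
    rw [card_cover σ₁ h₁.1, card_cover σ₂ h₂.1, hc₁, hc₂]
  have hεb : Function.Bijective ε := Function.Surjective.bijective_of_nat_card_le hεs hcard
  refine ⟨MulEquiv.ofBijective ε hεb, ?_⟩
  rw [← hσε]
  rfl

open scoped IsMulCommutative in
theorem not_unique_of_dvd_aux {ι : Type u} [Finite ι] {f : ι → Q}
    (hf : Function.Surjective (piF f)) (p : ℕ) [Fact p.Prime]
    (hpN : p ∣ Nat.card (Abelianization Q)) (hpM : p ∣ Nat.card (M f)) :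
    ∃ (Γ₁ Γ₂ : Type u) (_ : Group Γ₁) (_ : Finite Γ₁) (_ : Group Γ₂) (_ : Finite Γ₂)
      (σ₁ : Γ₁ →* Q) (σ₂ : Γ₂ →* Q), IsStemExtension σ₁ ∧ IsStemExtension σ₂ ∧
      Nonempty (σ₁.ker ≃* M f) ∧ Nonempty (σ₂.ker ≃* M f) ∧
      ¬ ∃ e : Γ₁ ≃* Γ₂, σ₂.comp e.toMonoidHom = σ₁ := by
  classical
  have hp : p.Prime := Fact.out
  obtain ⟨C₁, hC₁K, hC₁M, hC₁dec⟩ := exists_complement f (piE f).ker le_rfl
  have hC₁ : IsMCompl f C₁ := ⟨hC₁K, hC₁M, hC₁dec⟩
  have hcenK : ∀ {x : CE f}, x ∈ (piE f).ker → ∀ y : CE f, y * x = x * y := fun hx y =>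
    Subgroup.mem_center_iff.mp (ker_piE_le_center f hx) y
  -- an element of order `p` in the abelianization, lifted to `lam`
  obtain ⟨qbar, hq⟩ := exists_prime_orderOf_dvd_card' p hpN
  obtain ⟨q, rfl⟩ := QuotientGroup.mk_surjective qbar
  obtain ⟨lam, rfl⟩ := piE_surjective f hf q
  have hq' : orderOf (Abelianization.of (piE f lam)) = p := hq
  have h1 : piE f (lam ^ p) ∈ commutator Q := by
    rw [← Abelianization.ker_of, MonoidHom.mem_ker, map_pow, map_pow, ← hq', pow_orderOf_eq_one]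
  rw [← map_commutator_of_surjective (piE f) (piE_surjective f hf)] at h1
  obtain ⟨d', hd', hd'eq⟩ := h1
  have hb : lam ^ p * d'⁻¹ ∈ (piE f).ker := by
    rw [MonoidHom.mem_ker, map_mul, map_inv, hd'eq, mul_inv_cancel]
  obtain ⟨u, hu, m₀, hm₀, hum⟩ := hC₁dec _ hb
  have hlam : lam ^ p = u * (m₀ * d') := by
    rw [← mul_assoc, ← hum]; group
  have hfree : Module.Free ℤ (FreeAbelianGroup ι) := Module.Free.of_basis (FreeAbelianGroup.basis ι)
  have htf : ∀ x : Abelianization (FreeGroup ι), x ^ p = 1 → x = 1 := by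
    intro x hx
    let y : FreeAbelianGroup ι := Additive.ofMul x
    have h2 : (p : ℤ) • y = 0 := by
      rw [natCast_zsmul]
      exact hx
    rcases smul_eq_zero.mp h2 with h | h
    · exfalso
      have : p = 0 := by exact_mod_cast h
      exact hp.ne_zero this
    · exact h
  have hu_not : ∀ c ∈ C₁, c ^ p ≠ u := by
    intro c hc hcu
    have hcc : ∀ y : CE f, y * c = c * y := hcenK (hC₁K hc)
    have huc : ∀ y : CE f, y * u = u * y := hcenK (hC₁K hu)
    have hcomm : Commute lam c⁻¹ := by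
      have := hcc lam
      show lam * c⁻¹ = c⁻¹ * lam
      calc lam * c⁻¹ = c⁻¹ * (c * lam) * c⁻¹ := by group
        _ = c⁻¹ * (lam * c) * c⁻¹ := by rw [this]
        _ = c⁻¹ * lam := by group
    have h2 : (lam * c⁻¹) ^ p = m₀ * d' := by
      rw [hcomm.mul_pow, inv_pow, hcu, hlam, ← huc (m₀ * d'), mul_inv_cancel_right]
    have h3 : epsE f (lam * c⁻¹) ^ p = 1 := by
      rw [← map_pow, h2, ← MonoidHom.mem_ker, ker_epsE]
      exact mul_mem hm₀ hd'
    have h4 : epsE f (lam * c⁻¹) = 1 := htf _ h3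
    have h5 : lam * c⁻¹ ∈ commutator (CE f) := by
      rw [← ker_epsE]; exact h4
    have h6 : piE f (lam * c⁻¹) ∈ commutator Q := by
      rw [← map_commutator_of_surjective (piE f) (piE_surjective f hf)]
      exact Subgroup.mem_map_of_mem _ h5
    rw [map_mul, map_inv, MonoidHom.mem_ker.mp (hC₁K hc), inv_one, mul_one] at h6
    have h7 : Abelianization.of (piE f lam) = 1 := by
      rw [← MonoidHom.mem_ker, Abelianization.ker_of]; exact h6
    rw [h7, orderOf_one] at hq'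
    exact hp.one_lt.ne hq'
  -- an element of `M` that is not a `p`-th power
  obtain ⟨m₁, hm₁⟩ := exists_not_pow (Z := M f) p hpM
  -- `C₁` is a free abelian group
  let Cen := Subgroup.center (CE f)
  let toE : Additive Cen → CE f := fun x => ((Additive.toMul x : Cen) : CE f)
  let C₁A : Submodule ℤ (Additive Cen) :=
    AddSubgroup.toIntSubmodule (Subgroup.toAddSubgroup (C₁.subgroupOf Cen))
  have hC₁A : ∀ a : Additive Cen, a ∈ C₁A ↔ toE a ∈ C₁ := fun a => Iff.rfl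
  let εA : Additive Cen →+ FreeAbelianGroup ι := ((epsE f).comp Cen.subtype).toAdditive
  let L₀ : C₁A →ₗ[ℤ] FreeAbelianGroup ι := εA.toIntLinearMap.comp C₁A.subtype
  have hL₀ : ∀ x : C₁A, L₀ x = Additive.ofMul (epsE f (toE (x : Additive Cen))) := fun x => rfl
  have hL₀inj : Function.Injective L₀ := by
    rw [← LinearMap.ker_eq_bot, LinearMap.ker_eq_bot']
    intro x hx
    rw [hL₀] at hx
    have h2 : epsE f (toE (x : Additive Cen)) = 1 := hx
    have h3 : toE (x : Additive Cen) ∈ C₁ ⊓ commutator (CE f) := by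
      refine Subgroup.mem_inf.mpr ⟨(hC₁A _).mp x.2, ?_⟩
      rw [← ker_epsE]; exact h2
    rw [hC₁M, Subgroup.mem_bot] at h3
    apply Subtype.ext
    have h4 : (Additive.toMul (x : Additive Cen) : Cen) = 1 := Subtype.ext h3
    exact h4
  obtain ⟨n, ⟨bP⟩⟩ := Submodule.nonempty_basis_of_pid (FreeAbelianGroup.basis ι) (LinearMap.range L₀)
  have hfreeP : Module.Free ℤ (LinearMap.range L₀) := Module.Free.of_basis bP
  have hfinP : Module.Finite ℤ (LinearMap.range L₀) := Module.Finite.of_basis bP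
  have hfreeC : Module.Free ℤ C₁A :=
    Module.Free.of_equiv (LinearEquiv.ofInjective L₀ hL₀inj).symm
  have hfinC : Module.Finite ℤ C₁A :=
    Module.Finite.equiv (LinearEquiv.ofInjective L₀ hL₀inj).symm
  let u' : C₁A := ⟨Additive.ofMul (⟨u, ker_piE_le_center f (hC₁K hu)⟩ : Cen), (hC₁A _).mpr hu⟩
  have hu' : ∀ y : C₁A, (p : ℤ) • y ≠ u' := by
    intro y hy
    apply hu_not (toE (y : Additive Cen)) ((hC₁A _).mp y.2)
    have h2 : toE (((p : ℤ) • y : C₁A) : Additive Cen) = toE (y : Additive Cen) ^ p := by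
      rw [natCast_zsmul]
      rfl
    rw [← h2, hy]
    rfl
  have hm₁' : ∀ m : Additive (M f), (p : ℤ) • m ≠ Additive.ofMul m₁ := by
    intro m hm
    apply hm₁ (Additive.toMul m)
    rw [natCast_zsmul] at hm
    exact hm
  obtain ⟨φ, hφ⟩ := exists_hom_not_smul p u' hu' (Additive.ofMul m₁) hm₁'
  let toA : C₁ → C₁A := fun c =>
    ⟨Additive.ofMul (⟨c.1, ker_piE_le_center f (hC₁K c.2)⟩ : Cen), (hC₁A _).mpr c.2⟩
  have toA_mul : ∀ a b : C₁, toA (a * b) = toA a + toA b := fun a b => rfl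
  let h : C₁ →* M f := MonoidHom.mk' (fun c => Additive.toMul (φ (toA c))) (by
    intro a b
    rw [toA_mul, map_add]
    rfl)
  have hh : ∀ c : C₁, h c = Additive.toMul (φ (toA c)) := fun c => rfl
  have hhu : ∀ m : M f, m ^ p ≠ h ⟨u, hu⟩ := by
    intro m hm
    apply hφ (Additive.ofMul m)
    rw [natCast_zsmul]
    exact hm
  -- the second complement: the graph of `h`
  let j : C₁ →* CE f := MonoidHom.mk' (fun c => (c : CE f) * ((h c : M f) : CE f)) (by
    intro a b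
    have hcomm := hcenK (M_le_ker f (h a).2) (b : CE f)
    rw [map_mul]
    show (a : CE f) * (b : CE f) * (((h a : M f) : CE f) * ((h b : M f) : CE f)) =
      (a : CE f) * ((h a : M f) : CE f) * ((b : CE f) * ((h b : M f) : CE f))
    calc (a : CE f) * (b : CE f) * (((h a : M f) : CE f) * ((h b : M f) : CE f))
        = (a : CE f) * ((b : CE f) * ((h a : M f) : CE f)) * ((h b : M f) : CE f) := by group
      _ = (a : CE f) * (((h a : M f) : CE f) * (b : CE f)) * ((h b : M f) : CE f) := by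
          rw [hcomm]
      _ = (a : CE f) * ((h a : M f) : CE f) * ((b : CE f) * ((h b : M f) : CE f)) := by group)
  have hj : ∀ c : C₁, j c = (c : CE f) * ((h c : M f) : CE f) := fun c => rfl
  have hC₂ : IsMCompl f j.range := by
    refine ⟨?_, ?_, ?_⟩
    · rintro _ ⟨c, rfl⟩
      rw [hj]
      exact mul_mem (hC₁K c.2) (M_le_ker f (h c).2)
    · rw [eq_bot_iff]
      rintro x hx
      obtain ⟨hx1, hx2⟩ := Subgroup.mem_inf.mp hx
      obtain ⟨c, rfl⟩ := hx1
      rw [hj] at hx2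
      have h2 : (c : CE f) ∈ C₁ ⊓ commutator (CE f) := by
        refine Subgroup.mem_inf.mpr ⟨c.2, ?_⟩
        have : (c : CE f) = (c : CE f) * ((h c : M f) : CE f) * (((h c : M f) : CE f))⁻¹ := by
          group
        rw [this]
        exact mul_mem hx2 (inv_mem (M_le_commutator f (h c).2))
      rw [hC₁M, Subgroup.mem_bot] at h2
      have h3 : c = 1 := Subtype.ext h2
      rw [Subgroup.mem_bot, h3, map_one]
    · intro z hz
      obtain ⟨s, hs, m, hm, rfl⟩ := hC₁dec z hz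
      refine ⟨j ⟨s, hs⟩, ⟨_, rfl⟩, (((h ⟨s, hs⟩ : M f) : CE f))⁻¹ * m,
        mul_mem (inv_mem (M_le_commutator f (h ⟨s, hs⟩).2)) hm, ?_⟩
      rw [hj]; group
  obtain ⟨Γ₁, gG₁, gF₁, σ₁, ρ₁, hst₁, hρ₁s, hρ₁k, hσρ₁, he₁⟩ :=
    cover_of_complement hf C₁ hC₁.1 hC₁.2.1 hC₁.2.2
  obtain ⟨Γ₂, gG₂, gF₂, σ₂, ρ₂, hst₂, hρ₂s, hρ₂k, hσρ₂, he₂⟩ :=
    cover_of_complement hf j.range hC₂.1 hC₂.2.1 hC₂.2.2
  refine ⟨Γ₁, Γ₂, gG₁, gF₁, gG₂, gF₂, σ₁, σ₂, hst₁, hst₂, he₁, he₂, ?_⟩
  rintro ⟨e, he⟩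
  -- lift the isomorphism to an endomorphism of the free central extension
  choose sec hsec using fun i : ι => hρ₂s (e (ρ₁ (QuotientGroup.mk (FreeGroup.of i))))
  have hsecπ : ∀ i, piE f (sec i) = f i := by
    intro i
    have h2 : σ₂ (e (ρ₁ (QuotientGroup.mk (FreeGroup.of i)))) =
        σ₁ (ρ₁ (QuotientGroup.mk (FreeGroup.of i))) :=
      congrArg (fun k : Γ₁ →* Q => k (ρ₁ (QuotientGroup.mk (FreeGroup.of i)))) he
    rw [← hσρ₂, MonoidHom.comp_apply, hsec, h2, ← MonoidHom.comp_apply, hσρ₁]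
    simp [piE, piF]
  obtain ⟨α, hαs, hα⟩ := exists_lift_of_section f (piE f) (ker_piE_le_center f) sec hsecπ
  have hρα : ∀ x, ρ₂ (α x) = e (ρ₁ x) := by
    have : ρ₂.comp α = e.toMonoidHom.comp ρ₁ := by
      apply QuotientGroup.monoidHom_ext
      ext i
      show ρ₂ (α (QuotientGroup.mk (FreeGroup.of i))) = e (ρ₁ (QuotientGroup.mk (FreeGroup.of i)))
      rw [hαs, hsec]
    intro x
    exact congrArg (fun k : CE f →* Γ₂ => k x) this
  have hαπ : ∀ x, piE f (α x) = piE f x := fun x =>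
    congrArg (fun k : CE f →* Q => k x) hα
  have hχmem : ∀ x, x⁻¹ * α x ∈ (piE f).ker := by
    intro x
    rw [MonoidHom.mem_ker, map_mul, map_inv, hαπ, inv_mul_cancel]
  obtain ⟨g₂, hg₂C, hg₂M⟩ := exists_projM hC₂
  let χ : CE f →* M f := MonoidHom.mk' (fun x => g₂ ⟨x⁻¹ * α x, hχmem x⟩) (by
    intro a b
    rw [← map_mul]
    congr 1
    apply Subtype.ext
    show (a * b)⁻¹ * α (a * b) = a⁻¹ * α a * (b⁻¹ * α b)
    have hcomm := hcenK (hχmem a) b⁻¹
    rw [map_mul, mul_inv_rev]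
    calc b⁻¹ * a⁻¹ * (α a * α b) = b⁻¹ * (a⁻¹ * α a) * α b := by group
      _ = a⁻¹ * α a * b⁻¹ * α b := by rw [hcomm]
      _ = a⁻¹ * α a * (b⁻¹ * α b) := by group)
  have hχ : ∀ x, χ x = g₂ ⟨x⁻¹ * α x, hχmem x⟩ := fun x => rfl
  -- on `C₁` the homomorphism `χ` agrees with `h`
  have hχh : ∀ c : C₁, χ c = h c := by
    intro c
    have h2 : α (c : CE f) ∈ j.range := by
      rw [← hρ₂k, MonoidHom.mem_ker, hρα]
      have : ρ₁ (c : CE f) = 1 := by
        rw [← MonoidHom.mem_ker, hρ₁k]; exact c.2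
      rw [this, map_one]
    have h3 : g₂ ⟨α (c : CE f), hC₂.1 h2⟩ = 1 := (hg₂C ⟨α (c : CE f), hC₂.1 h2⟩).mp h2
    have h4 : g₂ ⟨j c, hC₂.1 ⟨c, rfl⟩⟩ = 1 := (hg₂C ⟨j c, hC₂.1 ⟨c, rfl⟩⟩).mp ⟨c, rfl⟩
    have h5 : (⟨j c, hC₂.1 ⟨c, rfl⟩⟩ : (piE f).ker) =
        ⟨(c : CE f), hC₁K c.2⟩ * ⟨((h c : M f) : CE f), M_le_ker f (h c).2⟩ := rfl
    rw [h5, map_mul, hg₂M _ (h c).2] at h4
    have h6 : (⟨α (c : CE f), hC₂.1 h2⟩ : (piE f).ker) =
        ⟨(c : CE f), hC₁K c.2⟩ * ⟨(c : CE f)⁻¹ * α (c : CE f), hχmem _⟩ := by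
      apply Subtype.ext
      show α (c : CE f) = (c : CE f) * ((c : CE f)⁻¹ * α (c : CE f))
      group
    rw [h6, map_mul] at h3
    rw [hχ]
    have h7 : g₂ ⟨(c : CE f)⁻¹ * α (c : CE f), hχmem _⟩ = (g₂ ⟨(c : CE f), hC₁K c.2⟩)⁻¹ :=
      eq_inv_of_mul_eq_one_right h3
    have h8 : (h c : M f) = (g₂ ⟨(c : CE f), hC₁K c.2⟩)⁻¹ := eq_inv_of_mul_eq_one_right h4
    rw [h7, h8]
  -- contradiction: `h u` is a `p`-th power
  apply hhu (χ lam)
  rw [← hχh ⟨u, hu⟩, ← map_pow, hlam, map_mul]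
  have h9 : χ (m₀ * d') = 1 := by
    have := Abelianization.commutator_subset_ker χ (mul_mem hm₀ hd')
    exact this
  rw [h9, mul_one]

end MainUniq

end Cfsg.Agent.Lib.Helper35
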